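import Mathlib
import Cfsg.Agent.H63.AnDefs2
import Cfsg.Agent.H7.AABase
import Cfsg.Agent.H81.Odd

/-!
# The configuration on seven points and normal subgroups of odd order
-/

set_option autoImplicit false

namespace Cfsg.Agent.H28.AnW7

open Cfsg Cfsg.Agent.H63 Cfsg.Agent.H63.SL Cfsg.Agent.H63.AN Subgroup
open Cfsg.Agent.H7.AA
open Equiv (swap Perm)
open Equiv.Perm (sign)

universe u

variable {G : Type u} [Group G] {α : Type} [Fintype α] [DecidableEq α]
  {χ : alternatingGroup α →* G} {t : G}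

theorem one_of_sq {Y : Subgroup G} (hY : Odd (Nat.card Y)) {y : G} (hy : y ∈ Y) (h : y * y = 1) :
    y = 1 := H10.eq_one_of_odd_of_sq (H81.odd_ord_of_mem hY hy) (by rw [sq, h])

theorem exists_d2 (h : S7 χ t) : ∃ w : alternatingGroup α, IsD2 w.1 ∧ w ≠ 1 ∧ w * w = 1 := by
  have h5 : 5 ≤ Fintype.card α := by rw [h.seven]; norm_num
  obtain ⟨a⟩ : Nonempty α := Fintype.card_pos_iff.1 (by omega)
  obtain ⟨b, c, d, hn, -⟩ := exists_nodup_ext h5 a a
  have hk := d2_kpair hn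
  have hn' := nodup4.1 hn
  refine ⟨⟨d2 a b c d, Equiv.Perm.mem_alternatingGroup.2 (sign_d2 hn'.1 hn'.2.2.2.2.2)⟩,
    ⟨a, b, c, d, hn, rfl⟩, fun e => hk.a1 (congrArg Subtype.val e), Subtype.ext hk.aa⟩

theorem simple (h : S7 χ t) : IsSimpleGroup (alternatingGroup α) :=
  alternatingGroup.isSimpleGroup (by rw [Nat.card_eq_fintype_card, h.seven]; norm_num)

theorem eq_one (h : S7 χ t) {Y : Subgroup G} (hN : Y.Normal) (hY : Odd (Nat.card Y))
    {σ : alternatingGroup α} (hσ : χ σ ∈ Y) : σ = 1 := by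
  haveI := simple h
  rcases (hN.comap χ).eq_bot_or_eq_top with hb | hb
  · have : σ ∈ Y.comap χ := hσ
    rwa [hb, mem_bot] at this
  · obtain ⟨w, -, w1, w2⟩ := exists_d2 h
    have hw : w ∈ Y.comap χ := hb ▸ mem_top w
    have := one_of_sq hY hw (by rw [← map_mul, w2, map_one])
    exact absurd (h.inj (this.trans (map_one χ).symm)) w1

theorem cen (h : S7 χ t) {Y : Subgroup G} (hN : Y.Normal) (hY : Odd (Nat.card Y)) {y : G}
    (hy : Commute y t) (hc : ∀ σ, y * χ σ * y⁻¹ * (χ σ)⁻¹ ∈ Y) : y ∈ KA χ := by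
  refine mem_KA.2 fun σ => ?_
  obtain ⟨τ, hτ⟩ := NA_conj (h.cN y hy) (⟨σ, rfl⟩ : χ σ ∈ χ.range)
  have h1 := hc σ
  rw [← hτ, ← map_inv, ← map_mul] at h1
  have h2 := mul_inv_eq_one.1 (eq_one h hN hY h1)
  rw [h2] at hτ
  exact mul_inv_eq_iff_eq_mul.1 hτ.symm

theorem cen' (h : S7 χ t) {Y : Subgroup G} (hN : Y.Normal) (hY : Odd (Nat.card Y)) {y : G}
    (hyY : y ∈ Y) (hy : Commute y t) : y ∈ KA χ := by
  refine cen h hN hY hy fun σ => ?_
  have := Y.mul_mem hyY (hN.conj_mem _ (Y.inv_mem hyY) (χ σ))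
  simpa only [mul_assoc] using this

theorem w7y : W7yStmt.{u} := by
  intro G _ _ α _ _ χ t h Y hN hY
  haveI := simple h
  obtain ⟨w, hw, w1, w2⟩ := exists_d2 h
  obtain ⟨g, hg, hgv⟩ := h.sw w.1 hw
  rw [ev_coe] at hg hgv
  have hv : χ w ∈ centralizer (Y : Set G) := by
    rw [mem_centralizer_iff]
    intro y hy
    have hn : ∀ x : G, x ∈ normalizer (Y : Set G) := fun x => by
      rw [normalizer_eq_top]; exact mem_top x
    obtain ⟨c₁, m1, c₃, m3, c₂, m2, k1, k3, k2, rfl⟩ := H81.four_factorization hY (hn t)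
      (hn (χ w)) h.t2 (by rw [← map_mul, w2, map_one]) (mem_KA.1 h.tK w) hy
    have e1 : Commute c₁ (χ w) := mem_KA.1 (cen' h hN hY m1 k1.symm) w
    have e3 : Commute c₃ (χ w) := by
      have m : g⁻¹ * c₃ * g ∈ Y := by simpa using hN.conj_mem _ m3 g⁻¹
      have k : Commute (g⁻¹ * c₃ * g) t := by
        rw [← hg] at k3
        change g⁻¹ * c₃ * g * t = t * (g⁻¹ * c₃ * g)
        calc _ = g⁻¹ * (c₃ * (g * t * g⁻¹)) * g := by group
          _ = _ := by rw [← k3.eq]; group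
      have e : g⁻¹ * c₃ * g * χ w = χ w * (g⁻¹ * c₃ * g) := mem_KA.1 (cen' h hN hY m k) w
      change c₃ * χ w = χ w * c₃
      calc c₃ * χ w = g * (g⁻¹ * c₃ * (χ w * g)) * g⁻¹ := by group
        _ = g * (χ w * (g⁻¹ * c₃ * g)) * g⁻¹ := by rw [← hgv.eq, ← mul_assoc _ g (χ w), e]
        _ = g * χ w * g⁻¹ * c₃ := by group
        _ = _ := by rw [hgv.eq, mul_inv_cancel_right]
    exact ((e1.mul_left e3).mul_left k2.symm).eq
  have hC : (centralizer (Y : Set G)).Normal := inferInstance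
  rcases (hC.comap χ).eq_bot_or_eq_top with hb | hb
  · have : w ∈ (centralizer (Y : Set G)).comap χ := hv
    rw [hb, mem_bot] at this
    exact absurd this w1
  · intro y hy
    refine mem_KA.2 fun σ => ?_
    have : σ ∈ (centralizer (Y : Set G)).comap χ := hb ▸ mem_top σ
    exact mem_centralizer_iff.1 this y hy

theorem lift {Y : Subgroup G} [hN : Y.Normal] (hY : Odd (Nat.card Y)) (ht : t * t = 1)
    (x : G ⧸ Y) (hx : Commute x (QuotientGroup.mk' Y t)) :
    ∃ g, Commute g t ∧ QuotientGroup.mk' Y g = x := by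
  obtain ⟨g, rfl⟩ := QuotientGroup.mk'_surjective Y x
  have h1 : t * (g * t * g⁻¹) ∈ Y := by
    rw [← QuotientGroup.ker_mk' Y, MonoidHom.mem_ker, map_mul, map_mul, map_mul, map_inv, hx.eq,
      mul_inv_cancel_right, ← map_mul, ht, map_one]
  obtain ⟨c, hc, h2, -⟩ := H81.exists_conj_of_mul_mem hY (z := g * t * g⁻¹)
    (by calc _ = g * (t * t) * g⁻¹ := by group
          _ = 1 := by rw [ht]; group) ht h1
  refine ⟨c * g, ?_, ?_⟩
  · change c * g * t = t * (c * g)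
    nth_rewrite 2 [← h2]
    group
  · rw [map_mul, (MonoidHom.mem_ker.1 (by rw [QuotientGroup.ker_mk']; exact hc) :
      QuotientGroup.mk' Y c = 1), one_mul]

theorem ev_comp {H : Type u} [Group H] (f : G →* H) (w : Perm α) :
    ev (f.comp χ) w = f (ev χ w) := by
  unfold ev
  split_ifs
  · rfl
  · exact (map_one f).symm

theorem w7q : W7qStmt.{u} := by
  intro G _ _ α _ _ χ t h Y hN hY
  have hk : ∀ g : G, QuotientGroup.mk' Y g = 1 ↔ g ∈ Y := fun g => by
    rw [← MonoidHom.mem_ker, QuotientGroup.ker_mk']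
  refine ⟨h.seven, ?_, by rw [← map_mul, h.t2, map_one],
    fun e => h.t1 (one_of_sq hY ((hk t).1 e) h.t2), ?_, ?_, ?_, ?_⟩
  · exact (injective_iff_map_eq_one _).2 fun σ hσ => eq_one h hN hY ((hk _).1 hσ)
  · refine mem_KA.2 fun σ => ?_
    rw [MonoidHom.comp_apply, ← map_mul, ← map_mul, mem_KA.1 h.tK σ]
  · intro x hx
    obtain ⟨g, hg, rfl⟩ := lift hY h.t2 x hx
    refine mem_NA fun σ => ?_
    obtain ⟨τ, hτ⟩ := NA_conj (h.cN g hg) (⟨σ, rfl⟩ : χ σ ∈ χ.range)
    exact ⟨τ, by rw [MonoidHom.comp_apply, hτ, map_mul, map_mul, map_inv, MonoidHom.comp_apply]⟩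
  · rintro x hx hxt ⟨j, hj⟩
    obtain ⟨g, hg, rfl⟩ := lift hY h.t2 x hxt
    have hco : Nat.Coprime (Nat.card Y) (2 ^ j) := (Nat.coprime_two_right.2 hY).pow_right j
    have hm := Nat.ModEq.pow_totient hco
    have hpos : 0 < Nat.totient (2 ^ j) := Nat.totient_pos.2 (by positivity)
    obtain ⟨r, hr⟩ : Nat.card Y ∣ Nat.card Y ^ Nat.totient (2 ^ j) := dvd_pow_self _ hpos.ne'
    set m := Nat.card Y ^ Nat.totient (2 ^ j)
    have e1 : QuotientGroup.mk' Y (g ^ m) = QuotientGroup.mk' Y g := by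
      rw [map_pow, pow_eq_pow_of_modEq hm hj, pow_one]
    have e2 : (g ^ m) ^ 2 ^ j = 1 := by
      have hY' : g ^ 2 ^ j ∈ Y := (hk _).1 (by rw [map_pow, hj])
      have : (g ^ 2 ^ j) ^ Nat.card Y = 1 :=
        orderOf_dvd_iff_pow_eq_one.1 (Subgroup.orderOf_dvd_natCard Y hY')
      rw [← pow_mul, mul_comm, pow_mul, hr, pow_mul, this, one_pow]
    have e3 : g ^ m ∈ KA χ := by
      refine cen h hN hY (hg.pow_left m) fun σ => (hk _).1 ?_
      have := mem_KA.1 hx σ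
      rw [MonoidHom.comp_apply] at this
      rw [map_mul, map_mul, map_mul, map_inv, map_inv, e1, this]
      group
    rcases h.r2 _ e3 (hg.pow_left m) ⟨j, e2⟩ with e | e
    · left
      rw [← e1, e, map_one]
    · right
      rw [← e1, e]
  · intro w hw
    obtain ⟨g, h1, h2⟩ := h.sw w hw
    refine ⟨QuotientGroup.mk' Y g, ?_, ?_⟩
    · rw [ev_comp, ← map_inv, ← map_mul, ← map_mul, h1, map_mul]
    · rw [ev_comp]
      exact h2.map _

end Cfsg.Agent.H28.AnW7
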