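import Mathlib
import Cfsg.Agent.H21.DSDefs

/-! Cocycles with values in a field of rational functions. -/

set_option autoImplicit false

namespace Cfsg.Agent.H28.DsGcd

open Cfsg.Agent.H21.DS

universe u

theorem exists_gcd {R K ι : Type*} [CommRing R] [IsDomain R] [UniqueFactorizationMonoid R] [Field K]
    [Algebra R K] [IsFractionRing R K] [Finite ι] (t : ι → K) :
    ∃ w : K, (∀ i, ∃ r : R, t i = algebraMap R K r * w) ∧
      ∀ x : K, (∀ i, ∃ r : R, t i = algebraMap R K r * x) → ∃ r : R, w = algebraMap R K r * x := by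
  classical
  have := Fintype.ofFinite ι
  obtain ⟨_⟩ : Nonempty (NormalizedGCDMonoid R) := inferInstance
  obtain ⟨d, hd⟩ := IsLocalization.exist_integer_multiples_of_finite (nonZeroDivisors R) t
  choose n hn using hd
  have inj := IsFractionRing.injective R K
  have d0 : algebraMap R K d ≠ 0 := (map_ne_zero_iff _ inj).2 (nonZeroDivisors.ne_zero d.2)
  refine ⟨algebraMap R K (Finset.univ.gcd n) / algebraMap R K d, fun i => ?_, fun x hx => ?_⟩
  · obtain ⟨r, hr⟩ := Finset.gcd_dvd (f := n) (Finset.mem_univ i)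
    have := hn i
    rw [hr, map_mul, Algebra.smul_def] at this
    exact ⟨r, by field_simp; linear_combination -this⟩
  · obtain ⟨a, b, hb, rfl⟩ := IsFractionRing.div_surjective (A := R) x
    have b0 : algebraMap R K b ≠ 0 := (map_ne_zero_iff _ inj).2 (nonZeroDivisors.ne_zero hb)
    have : d * a ∣ Finset.univ.gcd fun i => b * n i := Finset.dvd_gcd fun i _ => by
      obtain ⟨r, hr⟩ := hx i
      refine ⟨r, inj ?_⟩
      rw [map_mul, hn i, hr, Algebra.smul_def, map_mul, map_mul]
      field_simp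
    obtain ⟨s, hs⟩ := this.trans (Finset.gcd_mul_left' _ _ _).dvd
    have := congrArg (algebraMap R K) hs
    rw [map_mul, map_mul, map_mul] at this
    exact ⟨s, by field_simp; linear_combination this⟩

theorem gcd : GcdStmt.{u} := by
  intro k _ A _ Y _ _ σ hσ t t0 ht
  obtain ⟨w, h1, h2⟩ := exists_gcd (R := MvPolynomial A k) t
  have inj := IsFractionRing.injective (MvPolynomial A k) (Kf k A)
  have w0 : w ≠ 0 := by
    rintro rfl
    obtain ⟨r, hr⟩ := h1 1
    exact t0 1 (by simpa using hr)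
  have t1 : t 1 = 1 := mul_left_cancel₀ (t0 1) (by simpa using (ht 1 1).symm)
  have k1 : ∀ y, ∃ r : MvPolynomial A k, w = algebraMap _ (Kf k A) r * (t y * σ y w) := fun y =>
    h2 _ fun z => by
      obtain ⟨r, hr⟩ := h1 (y⁻¹ * z)
      obtain ⟨r', hr'⟩ := hσ y r
      refine ⟨r', ?_⟩
      have := ht y (y⁻¹ * z)
      rw [mul_inv_cancel_left, hr, map_mul, hr'] at this
      rw [this]
      ring
  have k2 : ∀ y, ∃ c : kˣ, t y * σ y w = algebraMap k (Kf k A) c * w := fun y => by
    obtain ⟨r, hr⟩ := k1 y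
    obtain ⟨s, hs⟩ := k1 y⁻¹
    obtain ⟨s', hs'⟩ := hσ y s
    have e : t y * σ y w = algebraMap _ (Kf k A) s' * w := by
      have e1 := ht y y⁻¹
      have e2 : σ y (σ y⁻¹ w) = w := by
        rw [← AlgEquiv.mul_apply, ← map_mul, mul_inv_cancel, map_one, AlgEquiv.one_apply]
      rw [mul_inv_cancel, t1] at e1
      have e3 := congrArg (σ y) hs
      rw [map_mul, map_mul, hs', e2] at e3
      rw [e3]
      linear_combination (-algebraMap _ (Kf k A) s' * w) * e1
    have u : r * s' = 1 := inj (mul_right_cancel₀ w0 (by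
      rw [map_mul, mul_assoc, ← e, ← hr, map_one, one_mul]))
    obtain ⟨c, hc, rfl⟩ := MvPolynomial.isUnit_iff_eq_C_of_isReduced.1 (IsUnit.of_mul_eq_one_right _ u)
    exact ⟨hc.unit, e⟩
  choose c hc using k2
  refine ⟨w, MonoidHom.mk' c fun y z => Units.ext ((algebraMap k (Kf k A)).injective
    (mul_right_cancel₀ w0 ?_)), w0, hc⟩
  have := congrArg (σ y) (hc z)
  rw [map_mul, map_mul, AlgEquiv.commutes] at this
  rw [← hc, ht, map_mul, AlgEquiv.mul_apply, mul_assoc, this, Units.val_mul, map_mul]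
  linear_combination algebraMap k (Kf k A) (c z) * hc y

end Cfsg.Agent.H28.DsGcd
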