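import Mathlib
import Cfsg.Agent.H28.EloFree
import Cfsg.Agent.H30.OrthGeo
import Cfsg.Agent.H30.OrthIndex

/-! Elements of prime order of projective orthogonal groups: the bridge to matrices. -/

set_option autoImplicit false

namespace Cfsg.Agent.H28

open H30 QuadraticMap Module

section Abs

variable {F V : Type*} [Field F] [AddCommGroup V] [Module F V] [FiniteDimensional F V]
  {Q : QuadraticForm F V} {S T : Submodule F V → Prop} {r : ℕ}

/-- Every element of order `r` of the projective group fixes a member of `S`. -/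
def El (hQ : (polarBilin Q).Nondegenerate) (r : ℕ) (S : Submodule F V → Prop) : Prop :=
  ∀ g ∈ kerDS hQ, (g ^ r = 1 ∨ g ^ r = negOne Q) → g ≠ 1 → g ≠ negOne Q → ∃ W, S W ∧ Inv g W

theorem el_congr (hQ : (polarBilin Q).Nondegenerate) (h : ∀ W, S W ↔ T W) :
    El hQ r S ↔ El hQ r T := by rw [funext fun W => propext (h W)]

omit [FiniteDimensional F V] in
theorem negOne_pow_odd (hr : Odd r) : negOne Q ^ r = negOne Q := by
  obtain ⟨k, rfl⟩ := hr
  rw [pow_succ, pow_mul, _root_.sq, negOne_mul_self, one_pow, one_mul]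

theorem el_odd (hQ : (polarBilin Q).Nondegenerate) (hr : Odd r) :
    El hQ r S ↔ ∀ g : O Q, g ^ r = 1 → g ≠ 1 → ∃ W, S W ∧ Inv g W := by
  constructor
  · intro h g h1 h2
    refine h g (mem_kerDS_of_odd hQ hr h1) (Or.inl h1) h2 fun h3 => h2 ?_
    rwa [h3, negOne_pow_odd hr, ← h3] at h1
  · rintro h g - (h1 | h1) h2 h3
    · exact h g h1 h2
    · obtain ⟨W, h4, h5⟩ := h (negOne Q * g) (by
        rw [(show Commute (negOne Q) g from (negOne_comm g).symm).mul_pow, negOne_pow_odd hr, h1,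
          negOne_mul_self]) fun h4 => h3 (by
        rw [← one_mul g, ← negOne_mul_self, mul_assoc, h4, mul_one])
      exact ⟨W, h4, inv_negOne_mul.1 h5⟩

theorem el_two (hQ : (polarBilin Q).Nondegenerate) (h2 : (2 : F) ≠ 0) [Nontrivial V] :
    El hQ 2 S ↔ (∀ g ∈ kerDS hQ, g * g = 1 → g ≠ 1 → g ≠ negOne Q → ∃ W, S W ∧ Inv g W) ∧
      ∀ g ∈ kerDS hQ, g * g = negOne Q → ∃ W, S W ∧ Inv g W := by
  simp only [El, _root_.sq]
  refine ⟨fun h => ⟨fun g h1 h3 => h g h1 (Or.inl h3), fun g h1 h3 => h g h1 (Or.inr h3) ?_ ?_⟩,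
    fun h g h1 h3 h4 h5 => h3.elim (fun h3 => h.1 g h1 h3 h4 h5) (h.2 g h1)⟩
  · rintro rfl
    exact negOne_ne_one h2 (by simpa using h3.symm)
  · rintro rfl
    exact negOne_ne_one h2 (h3.symm.trans negOne_mul_self)

theorem el_two_char (hQ : (polarBilin Q).Nondegenerate) (h2 : (2 : F) = 0) [Finite F] :
    El hQ 2 S ↔ ∀ g : O Q, dickson hQ g = 1 → g * g = 1 → g ≠ 1 → ∃ W, S W ∧ Inv g W := by
  have := sqCl_subsingleton h2
  simp only [El, _root_.sq, negOne_eq_one_of_two_eq_zero h2, or_self, mem_kerDS]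
  exact forall_congr' fun g => ⟨fun h h1 h3 h4 => h ⟨h1, Subsingleton.elim _ _⟩ h3 h4 h4,
    fun h h1 h3 h4 _ => h h1.1 h3 h4⟩

omit [FiniteDimensional F V] in
theorem eq_one_or_negOne_of_smul (hQ : (polarBilin Q).Nondegenerate) {g : O Q} {z : F}
    (h : ∀ v, g.1 v = z • v) : g = 1 ∨ g = negOne Q := by
  rcases subsingleton_or_nontrivial V with _ | _
  · exact Or.inl (O_ext fun _ => Subsingleton.elim _ _)
  obtain ⟨w, -, hw⟩ := (nondegOn_top hQ).exists_Q_ne_zero top_ne_bot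
  have h1 := O_map g w
  rw [h, Q_smul] at h1
  rcases mul_self_eq_one_iff.1 (mul_right_cancel₀ hw (h1.trans (one_mul _).symm)) with rfl | rfl
  · exact Or.inl (O_ext fun v => by simpa using h v)
  · exact Or.inr (O_ext fun v => by simpa [negOne_apply] using h v)

variable [Fintype F]

omit [FiniteDimensional F V] in
theorem ndt_iff_tp {W : Submodule F V} {m δ : ℕ} (hδ : δ < 2) :
    NDT Q m δ W ↔ finrank F W = m ∧ NondegOn Q W ∧ tp Q W = δ := by
  have := tp_lt Q W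
  exact ⟨fun h => ⟨h.2.1, h.1, by have := h.2.2; omega⟩, fun h => ⟨h.2.1, h.1, by rw [h.2.2]⟩⟩

theorem ndt_perp (hQ : (polarBilin Q).Nondegenerate) {W : Submodule F V} {m δ : ℕ}
    (h : NDT Q m δ W) : NDT Q (finrank F V - m)
      (tpw Q + δ + hh F * (m % 2 * ((finrank F V - m) % 2))) (perp Q W) := by
  obtain ⟨h1, rfl, h2⟩ := h
  have h3 := finrank_add_finrank_perp hQ W
  have h4 := tpw_eq_of_perp hQ h1
  have h5 : finrank F (perp Q W) = finrank F V - finrank F W := by omega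
  rw [h5] at h4
  exact ⟨h1.perp hQ, h5, by omega⟩

end Abs

section Mat

variable {F : Type*} [Field F] {ι : Type} [Fintype ι] [DecidableEq ι]
  {Q : QuadraticForm F (ι → F)} {S : Submodule F (ι → F) → Prop} {r : ℕ}

theorem toGL_eq_smul_iff (hQ : (polarBilin Q).Nondegenerate) (g : O Q) :
    (∃ z : F, (toGL Q g : Matrix ι ι F) = z • 1) ↔ g = 1 ∨ g = negOne Q := by
  constructor
  · rintro ⟨z, hz⟩
    exact eq_one_or_negOne_of_smul hQ (z := z) fun v => by
      rw [← toGL_mulVec, hz, Matrix.smul_mulVec, Matrix.one_mulVec]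
  · rintro (rfl | rfl)
    · exact ⟨1, by simp⟩
    · refine ⟨-1, Matrix.toLin'.injective (LinearMap.ext fun v => ?_)⟩
      rw [Matrix.toLin'_apply, toGL_mulVec]
      simp [negOne_apply]

theorem map_toGL_le_iff (g : O Q) (W : Submodule F (ι → F)) :
    W.map (Matrix.toLin' (toGL Q g : Matrix ι ι F)) ≤ W ↔ Inv g W := by
  rw [Submodule.map_le_iff_le_comap]
  exact forall₂_congr fun v _ => by rw [Submodule.mem_comap, Matrix.toLin'_apply, toGL_mulVec]

variable [Finite F]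

theorem forall_omegaGL (hQ : (polarBilin Q).Nondegenerate) (h5 : 5 ≤ Fintype.card ι)
    {P : GL ι F → Prop} : (∀ x, x ∈ Geo.omegaGL ⇑Q → P x) ↔ ∀ g ∈ kerDS hQ, P (toGL Q g) := by
  rw [omegaGL_eq_map_kerDS hQ (not_isExc_of_finrank (by rw [finrank_pi']; omega))]
  exact ⟨fun h g hg => h _ ⟨g, hg, rfl⟩, by rintro h _ ⟨g, hg, rfl⟩; exact h g hg⟩

theorem el_iff (hQ : (polarBilin Q).Nondegenerate) (h5 : 5 ≤ Fintype.card ι) :
    (∀ x : GL ι F, x ∈ Geo.omegaGL ⇑Q →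
      (∃ z : F, ((x ^ r : GL ι F) : Matrix ι ι F) = z • (1 : Matrix ι ι F)) →
      (∀ z : F, (x : Matrix ι ι F) ≠ z • (1 : Matrix ι ι F)) →
      ∃ W, S W ∧ W.map (Matrix.toLin' (x : Matrix ι ι F)) ≤ W) ↔ El hQ r S := by
  rw [forall_omegaGL hQ h5]
  refine forall₂_congr fun g _ => ?_
  rw [← map_pow, toGL_eq_smul_iff hQ, ← not_exists, toGL_eq_smul_iff hQ, not_or, and_imp]
  simp only [map_toGL_le_iff]

theorem el_iff' (hQ : (polarBilin Q).Nondegenerate) (h5 : 5 ≤ Fintype.card ι)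
    (h2 : (2 : F) ≠ 0) (ho : Odd (Fintype.card ι)) [Fact r.Prime] :
    (∀ x : GL ι F, x ∈ Geo.omegaGL ⇑Q → orderOf x = r →
      ∃ W, S W ∧ W.map (Matrix.toLin' (x : Matrix ι ι F)) ≤ W) ↔ El hQ r S := by
  rw [forall_omegaGL hQ h5]
  have h1 := negOne_notMem_kerDS_of_odd hQ h2 (by rwa [finrank_pi'])
  refine forall₂_congr fun g hg => ?_
  rw [orderOf_injective _ toGL_injective, orderOf_eq_prime_iff]
  simp only [map_toGL_le_iff]
  exact ⟨fun h h3 h4 _ => h ⟨h3.resolve_right fun h5 => h1 (h5 ▸ pow_mem hg r), h4⟩,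
    fun h h3 => h (Or.inl h3.1) h3.2 fun h5 => h1 (h5 ▸ hg)⟩

end Mat

section Geo

variable {F : Type*} [Field F] [Fintype F] {ι : Type} [Fintype ι]
  {Q : QuadraticForm F (ι → F)} {W W₀ : Submodule F (ι → F)} {m : ℕ}

theorem plus_iff_ndt (hm : Even m) : (finrank F W = m ∧ Geo.IsNondegenerateOn (polar ⇑Q) W ∧
    Geo.IsPlusTypeOn ⇑Q W) ↔ NDT Q m 0 W := by
  rw [ndt_iff_tp (by omega), isNondegenerateOn_iff]
  exact and_congr_right fun h1 => and_congr_right fun h2 => (tp_eq_zero_iff h2 (h1 ▸ hm)).symm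

theorem minus_iff_ndt (hm : Even m) : (finrank F W = m ∧ Geo.IsNondegenerateOn (polar ⇑Q) W ∧
    ¬ Geo.IsPlusTypeOn ⇑Q W) ↔ NDT Q m 1 W := by
  rw [ndt_iff_tp (by omega), isNondegenerateOn_iff]
  refine and_congr_right fun h1 => and_congr_right fun h2 =>
    (tp_eq_zero_iff h2 (h1 ▸ hm)).symm.not.trans ?_
  have := tp_lt Q W
  omega

theorem plus_iff_ndt' (hm : Even m) : (finrank F W = m ∧
    (∀ u ∈ W, u ≠ 0 → ∃ v ∈ W, polar ⇑Q u v ≠ 0) ∧
    ∃ U : Submodule F (ι → F), U ≤ W ∧ 2 * finrank F U = m ∧ ∀ u ∈ U, Q u = 0) ↔ NDT Q m 0 W := by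
  rw [ndt_iff_tp (by omega)]
  refine and_congr_right fun h1 => ?_
  have h2 : (∀ u ∈ W, u ≠ 0 → ∃ v ∈ W, polar ⇑Q u v ≠ 0) ↔ NondegOn Q W :=
    forall₂_congr fun u _ => by rw [← not_imp_not]; simp
  rw [h2]
  refine and_congr_right fun h3 => ?_
  rw [tp_eq_zero_iff h3 (h1 ▸ hm), h1]
  exact exists_congr fun U => and_congr_right fun _ => and_comm

theorem iso_iff_ndt (h : finrank F W₀ = m ∧ Geo.IsNondegenerateOn (polar ⇑Q) W₀) :
    (finrank F W = m ∧ Geo.IsNondegenerateOn (polar ⇑Q) W ∧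
      Geo.AreIsometricFor ⇑Q W W₀) ↔ NDT Q m (tp Q W₀) W := by
  rw [ndt_iff_tp (tp_lt _ _), isNondegenerateOn_iff]
  rw [isNondegenerateOn_iff] at h
  exact and_congr_right fun h1 => and_congr_right fun h2 =>
    ⟨fun ⟨e, he⟩ => tp_eq_of_iso e he, fun h3 => iso_of_tp h2 h.2 (h1.trans h.1.symm) (by rw [h3])⟩

theorem tpw_qPlus (d : ℕ) : tpw (qPlus F d) = 0 :=
  (tpw_eq_zero_iff (qPlus_nondegenerate d) (by simp)).2 (H79.isPlus_plus d)

theorem tpw_qMinus (d : ℕ) {a b : F}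
    (hab : ∀ z₁ z₂ : F, z₁ ^ 2 + a * z₁ * z₂ + b * z₂ ^ 2 = 0 → z₁ = 0 ∧ z₂ = 0) :
    tpw (qMinus F d a b) = 1 := by
  have h3 := (tpw_eq_zero_iff (qMinus_nondegenerate d hab) (by simp [Nat.even_add])).not.2
    (H79.not_isPlus_minus d hab)
  have := tpw_lt (qMinus F d a b)
  omega

omit [Fintype F] in
theorem finrank_plus (d : ℕ) : finrank F (Fin d ⊕ Fin d → F) = 2 * d := by simp [two_mul]

omit [Fintype F] in
theorem finrank_odd (d : ℕ) : finrank F (Unit ⊕ (Fin d ⊕ Fin d) → F) = 2 * d + 1 := by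
  simp; omega

omit [Fintype F] in
theorem finrank_minus {d : ℕ} (hd : 1 ≤ d) :
    finrank F ((Fin (d - 1) ⊕ Fin (d - 1)) ⊕ Fin 2 → F) = 2 * d := by simp; omega

end Geo

end Cfsg.Agent.H28
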