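import Mathlib
import Cfsg.Agent.H28.EloBr
import Cfsg.Agent.H76.Zass

/-! Involutions of projective orthogonal groups in odd characteristic. -/

set_option autoImplicit false

namespace Cfsg.Agent.H28

open H30 QuadraticMap Module

variable {F V : Type*} [Field F] [AddCommGroup V] [Module F V] {Q : QuadraticForm F V}
  {U W M : Submodule F V} {g : O Q}

theorem neg_of_mem_movSp (hg : g * g = 1) {v : V} (hv : v ∈ movSp g) : g.1 v = -v := by
  obtain ⟨u, rfl⟩ := mem_movSp.1 hv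
  rw [map_sub, ← O_mul_apply, hg, O_one_apply, neg_sub]

theorem inv_of_le_movSp (hg : g * g = 1) (h : W ≤ movSp g) : Inv g W := fun v hv => by
  rw [neg_of_mem_movSp hg (h hv)]; exact W.neg_mem hv

theorem ndOn_span {v : V} (h2 : (2 : F) ≠ 0) (hv : Q v ≠ 0) : NondegOn Q (F ∙ v) := by
  intro x hx h
  obtain ⟨a, rfl⟩ := Submodule.mem_span_singleton.1 hx
  have := h v (Submodule.mem_span_singleton_self v)
  rw [polar_smul_left', polar_self'] at this
  rw [(mul_eq_zero.1 this).resolve_right (mul_ne_zero h2 hv), zero_smul]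

theorem polar_four (h2 : (2 : F) ≠ 0) {v : V} (h : g.1 (g.1 v) = -v) : polar Q v (g.1 v) = 0 := by
  have := O_polar g v (g.1 v)
  rw [h, polar_neg_right, polar_comm] at this
  exact (mul_eq_zero.1 (show 2 * polar Q v (g.1 v) = 0 by linear_combination -this)).resolve_left h2

theorem inv_sup_four (hU : Inv g U) {v : V} (h : g.1 (g.1 v) = -v) :
    Inv g (U ⊔ ((F ∙ v) ⊔ F ∙ g.1 v)) := fun x hx => by
  obtain ⟨u, hu, y, hy, rfl⟩ := Submodule.mem_sup.1 hx
  obtain ⟨a, ha, b, hb, rfl⟩ := Submodule.mem_sup.1 hy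
  obtain ⟨a, rfl⟩ := Submodule.mem_span_singleton.1 ha
  obtain ⟨b, rfl⟩ := Submodule.mem_span_singleton.1 hb
  rw [map_add, map_add, map_smul, map_smul, h, add_comm (a • _)]
  exact Submodule.add_mem_sup (hU u hu) (Submodule.add_mem_sup
    (Submodule.smul_mem _ _ (neg_mem (Submodule.mem_span_singleton_self v)))
    (Submodule.smul_mem _ _ (Submodule.mem_span_singleton_self _)))

theorem ts_sup (hU : ∀ u ∈ U, Q u = 0) (hW : ∀ w ∈ W, Q w = 0) (h : W ≤ perp Q U) :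
    ∀ x ∈ U ⊔ W, Q x = 0 := fun x hx => by
  obtain ⟨u, hu, w, hw, rfl⟩ := Submodule.mem_sup.1 hx
  rw [Q_add, hU u hu, hW w hw, mem_perp.1 (h hw) u hu]
  simp

theorem ts_span {v : V} (hv : Q v = 0) : ∀ x ∈ F ∙ v, Q x = 0 := fun x hx => by
  obtain ⟨a, rfl⟩ := Submodule.mem_span_singleton.1 hx
  rw [Q_smul, hv, mul_zero]

theorem disjoint_invol (h2 : (2 : F) ≠ 0) (hg : g * g = 1) : Disjoint (fixSp g) (movSp g) :=
  disjoint_fix_mov (r := 2) (by simpa using h2) (by rwa [_root_.sq])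

variable [FiniteDimensional F V]

theorem exists_invol_mov (h2 : (2 : F) ≠ 0) (hQ : (polarBilin Q).Nondegenerate)
    (hM : NondegOn Q M) : ∃ g : O Q, g * g = 1 ∧ movSp g = M := by
  refine ⟨orthSum hM.orthDec (negOne _, 1), by
    rw [← map_mul, Prod.mk_mul_mk, negOne_mul_self, one_mul]; exact map_one _, ?_⟩
  have h1 : ∀ v ∈ M, (orthSum hM.orthDec (negOne _, 1)).1 v = -v := fun v hv =>
    orthSum_apply_left hM.orthDec _ ⟨v, hv⟩
  refine (ext_fixSp hQ hM (fun v hv => ?_)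
    (fun w hw => orthSum_apply_right hM.orthDec _ ⟨w, hw⟩) fun v hv h => ?_).2
  · rw [h1 v hv]; exact M.neg_mem hv
  · rw [h1 v hv, neg_eq_iff_add_eq_zero, ← two_smul F] at h
    exact (smul_eq_zero.1 h).resolve_left h2

theorem finrank_movSp_lt (hg : g * g = 1) (h : g ≠ negOne Q) :
    finrank F (movSp g) < finrank F V :=
  Submodule.finrank_lt fun h1 => h (O_ext fun _ => neg_of_mem_movSp hg (h1 ▸ trivial))

theorem even_finrank_four (hs : ¬ IsSquare (-1 : F)) (hU : Inv g U)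
    (h : ∀ v ∈ U, g.1 (g.1 v) = -v) : Even (finrank F U) := by
  by_contra h1
  let f : U →ₗ[F] U := (g.1 : V →ₗ[F] V).restrict hU
  have h2 : f * f = (-1 : F) • (1 : U →ₗ[F] U) :=
    LinearMap.ext fun v => Subtype.ext ((h v v.2).trans (by simp))
  have h3 := congrArg LinearMap.det h2
  rw [map_mul, LinearMap.det_smul, map_one, (Nat.not_even_iff_odd.1 h1).neg_one_pow, mul_one] at h3
  exact hs ⟨_, h3.symm⟩

variable [Fintype F]

theorem isSquare_neg_one_iff_hh : IsSquare (-1 : F) ↔ hh F = 0 := by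
  rw [FiniteField.isSquare_neg_one_iff, hh]; simp

omit [Field F] in
theorem hh_le_one : hh F ≤ 1 := by unfold hh; split_ifs <;> omega

theorem isSquare_gram_iff (h2 : (2 : F) ≠ 0) (hQ : (polarBilin Q).Nondegenerate) {k : ℕ}
    (hV : finrank F V = 2 * k) : IsSquare (H79.gram Q (finBasis F V)).det ↔
      tpw Q % 2 = (hh F * k) % 2 := by
  have h1 := H79.isPlus_iff_isSquare h2 Q ((H79.nd_iff Q).1 hQ) (finBasis F V) (by simpa using hV)
  rw [H79.isSquare_mul_iff (pow_ne_zero _ (neg_ne_zero.2 one_ne_zero))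
    ((H79.nd_iff_det_gram Q _).1 ((H79.nd_iff Q).1 hQ)), H79.isSquare_neg_one_pow_iff,
    ← tpw_eq_zero_iff hQ ⟨k, by omega⟩, Nat.odd_iff] at h1
  have := tpw_lt Q
  unfold hh
  by_cases h : IsSquare (H79.gram Q (finBasis F V)).det <;> simp only [h] at h1 ⊢ <;>
    split_ifs with h3 <;> simp [h3] at h1 ⊢ <;> omega

theorem spinorNorm_negOne_iff (h2 : (2 : F) ≠ 0) (hQ : (polarBilin Q).Nondegenerate) {k : ℕ}
    (hV : finrank F V = 2 * k) : spinorNorm hQ (negOne Q) = 1 ↔ tpw Q % 2 = (hh F * k) % 2 := by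
  have h0 := (H79.nd_iff_det_gram Q (finBasis F V)).1 ((H79.nd_iff Q).1 hQ)
  have h1 : (1 - ((negOne Q).1 : V →ₗ[F] V)) = (2 : F) • (1 : V →ₗ[F] V) :=
    LinearMap.ext fun v => by simp [negOne_apply, two_smul]
  rw [H76.spinorNorm_of_det_one_sub h2 hQ _ (finBasis F V)
    (c := Units.mk0 _ (mul_ne_zero h0 (pow_ne_zero (2 * k) h2))) (by
      rw [h1, LinearMap.det_smul, map_one, ← hV]; simp), sqCl_mk_eq_one_iff, Units.val_mk0,
    H79.isSquare_mul_iff h0 (pow_ne_zero _ h2), isSquare_gram_iff h2 hQ hV]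
  exact iff_iff_implies_and_implies.trans ⟨fun h => h.2 ⟨2 ^ k, by ring⟩,
    fun h => ⟨fun _ => ⟨2 ^ k, by ring⟩, fun _ => h⟩⟩

theorem invol_mem_kerDS_iff (h2 : (2 : F) ≠ 0) (hQ : (polarBilin Q).Nondegenerate)
    (hg : g * g = 1) : g ∈ kerDS hQ ↔
      ∃ k, finrank F (movSp g) = 2 * k ∧ tp Q (movSp g) % 2 = (hh F * k) % 2 := by
  have hM := (ndOn_fix_mov hQ (disjoint_invol h2 hg)).2
  have h1 : orthSum hM.orthDec (negOne _, 1) = g := O_ext_orthDec hM.orthDec
    (fun u hu => (orthSum_apply_left _ _ ⟨u, hu⟩).trans (neg_of_mem_movSp hg hu).symm)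
    fun w hw => (orthSum_apply_right _ _ ⟨w, hw⟩).trans (mem_fixSp.1 (perp_movSp hQ g ▸ hw)).symm
  have h3 := spinorNorm_orthSum hM.orthDec hQ (negOne _, 1)
  rw [h1, map_one, mul_one] at h3
  rw [mem_kerDS, dickson_apply, neg_one_pow_eq_one_iff_even (by decide), h3]
  exact ⟨fun ⟨⟨k, hk⟩, h⟩ => ⟨k, by omega, (spinorNorm_negOne_iff h2 _ (by omega)).1 h⟩,
    fun ⟨k, hk, h⟩ => ⟨⟨k, by omega⟩, (spinorNorm_negOne_iff h2 _ hk).2 h⟩⟩

theorem invol_nd (h2 : (2 : F) ≠ 0) (hQ : (polarBilin Q).Nondegenerate) (hk : g ∈ kerDS hQ)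
    (hg : g * g = 1) (h1 : g ≠ 1) (h3 : g ≠ negOne Q) {m δ : ℕ} (h4 : 0 < m)
    (h5 : m < finrank F V) : ∃ W, NDT Q m δ W ∧ Inv g W := by
  have hd := disjoint_invol h2 hg
  obtain ⟨hC, hM⟩ := ndOn_fix_mov hQ hd
  obtain ⟨k, h6, -⟩ := (invol_mem_kerDS_iff h2 hQ hg).1 hk
  have h7 := finrank_movSp_pos h1
  have h8 := finrank_movSp_lt hg h3
  have h9 := finrank_movSp_add_finrank_fixSp g
  have key : ∀ m₁ δ₁ m₂ δ₂, m₁ + m₂ = m →
      (δ₁ + δ₂ + hh F * (m₁ % 2 * (m₂ % 2))) % 2 = δ % 2 →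
      Subx (finrank F (fixSp g)) (tp Q (fixSp g)) m₁ δ₁ →
      Subx (finrank F (movSp g)) (tp Q (movSp g)) m₂ δ₂ → ∃ W, NDT Q m δ W ∧ Inv g W := by
    intro m₁ δ₁ m₂ δ₂ a b c d
    obtain ⟨U, e, f⟩ := (exists_ndt_iff hM fun h => (h2 h).elim).2 d
    exact (nd_split_iff hQ hd m δ).2 ⟨m₁, δ₁, m₂, δ₂, a, b,
      (exists_ndt_iff hC fun h => (h2 h).elim).2 c, U, e, f, inv_of_le_movSp hg e⟩
  by_cases h : m < 2 * k
  · exact key 0 0 m δ (by omega) (by simp) (by unfold Subx; omega) (by unfold Subx; omega)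
  · exact key (m - (2 * k - 1)) (tp Q (fixSp g)) (2 * k - 1)
      (δ + tp Q (fixSp g) + hh F * ((m - (2 * k - 1)) % 2 * ((2 * k - 1) % 2))) (by omega)
      (by omega) (by unfold Subx; omega) (by unfold Subx; omega)

/-- Every involution fixes a totally singular subspace of dimension `m`. -/
def AT2 (h n ε m : ℕ) : Prop := ∀ k, 0 < k → 2 * k < n →
  ∃ m₁ m₂, m₁ + m₂ = m ∧ TSx (n - 2 * k) (ε + h * k) m₁ ∧ TSx (2 * k) (h * k) m₂

theorem invol_ts (h2 : (2 : F) ≠ 0) (hQ : (polarBilin Q).Nondegenerate) {m : ℕ} :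
    (∀ g ∈ kerDS hQ, g * g = 1 → g ≠ 1 → g ≠ negOne Q →
      ∃ W : Submodule F V, (finrank F W = m ∧ ∀ w ∈ W, Q w = 0) ∧ Inv g W) ↔
      AT2 (hh F) (finrank F V) (tpw Q) m := by
  have key : ∀ {g : O Q} {k : ℕ}, g * g = 1 → finrank F (movSp g) = 2 * k →
      tp Q (movSp g) % 2 = (hh F * k) % 2 →
      ((∃ W : Submodule F V, (finrank F W = m ∧ ∀ w ∈ W, Q w = 0) ∧ Inv g W) ↔
        ∃ m₁ m₂, m₁ + m₂ = m ∧ TSx (finrank F V - 2 * k) (tpw Q + hh F * k) m₁ ∧
          TSx (2 * k) (hh F * k) m₂) := by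
    intro g k hg h3 h4
    have hd := disjoint_invol h2 hg
    obtain ⟨hC, hM⟩ := ndOn_fix_mov hQ hd
    obtain ⟨h5, -, h6, -⟩ := fix_of_mov hQ hM h3 h4 (even_two_mul k)
    rw [perp_movSp hQ] at h5 h6
    simp only [and_assoc]
    rw [ts_split_iff hQ hd]
    refine exists₂_congr fun m₁ m₂ => and_congr_right fun _ => and_congr ?_ ?_
    · rw [exists_ts_iff hC, h5]
      exact ⟨fun h => h.congr h6, fun h => h.congr h6.symm⟩
    · refine Iff.trans ?_ ((exists_ts_iff hM (m := m₂)).trans ?_)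
      · exact exists_congr fun U => and_congr_right fun h => and_congr_right fun _ =>
          and_iff_left (inv_of_le_movSp hg h)
      · rw [h3]
        exact ⟨fun h => h.congr h4, fun h => h.congr h4.symm⟩
  constructor
  · intro h k h3 h4
    obtain ⟨M, -, hM⟩ := (exists_ndt_iff (nondegOn_top hQ) (m := 2 * k) (δ := hh F * k)
      fun h => (h2 h).elim).2 (by rw [finrank_top]; unfold Subx; omega)
    obtain ⟨g, hg, rfl⟩ := exists_invol_mov h2 hQ hM.1
    refine (key hg hM.2.1 hM.2.2).1 (h g ((invol_mem_kerDS_iff h2 hQ hg).2 ⟨k, hM.2⟩) hg ?_ ?_)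
    · rintro rfl
      have := hM.2.1
      rw [show movSp (1 : O Q) = ⊥ from eq_bot_iff.2 (by rintro _ ⟨v, rfl⟩; simp)] at this
      simp at this; omega
    · rintro rfl
      have h5 := finrank_movSp_add_finrank_fixSp (negOne Q)
      rw [show fixSp (negOne Q) = ⊥ from eq_bot_iff.2 fun v hv => by
        have h6 := mem_fixSp.1 hv
        rw [negOne_apply, neg_eq_iff_add_eq_zero, ← two_smul F] at h6
        exact (smul_eq_zero.1 h6).resolve_left h2, hM.2.1, finrank_bot] at h5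
      omega
  · intro h g hk hg h3 h4
    obtain ⟨k, h5, h6⟩ := (invol_mem_kerDS_iff h2 hQ hg).1 hk
    have h7 := finrank_movSp_pos h3
    have h8 := finrank_movSp_lt hg h4
    exact (key hg h5 h6).2 (h k (by omega) (by omega))

theorem four_atom (h2 : (2 : F) ≠ 0) {v : V} (hv : Q v ≠ 0) (h : g.1 (g.1 v) = -v) :
    NDT Q 2 (hh F) ((F ∙ v) ⊔ F ∙ g.1 v) ∧ Inv g ((F ∙ v) ⊔ F ∙ g.1 v) := by
  have h1 : Q (g.1 v) ≠ 0 := by rwa [O_map]
  have h3 : (F ∙ g.1 v) ≤ perp Q (F ∙ v) :=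
    (Submodule.span_singleton_le_iff_mem _ _).2 (mem_perp_singleton.2 (polar_four h2 h))
  have h4 := finrank_span_singleton (K := F) (ne_zero_of_Q_ne_zero hv)
  have h5 := finrank_span_singleton (K := F) (ne_zero_of_Q_ne_zero h1)
  have h6 : tp Q (F ∙ g.1 v) = tp Q (F ∙ v) := by
    rw [← tp_map (e := (g.1 : V →ₗ[F] V)) g.1.injective g.2 (F ∙ v), Submodule.map_span,
      Set.image_singleton]
    rfl
  refine ⟨⟨ndOn_sup (ndOn_span h2 hv) (ndOn_span h2 h1) h3, ?_, ?_⟩,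
    by simpa using inv_sup_four (U := ⊥) (fun _ h => by simp_all) h⟩
  · rw [finrank_sup_perp (ndOn_span h2 hv) h3, h4, h5]
  · rw [tp_sup (ndOn_span h2 hv) (ndOn_span h2 h1) h3, h4, h5, h6]
    omega

theorem four_struct (h2 : (2 : F) ≠ 0) (hQ : (polarBilin Q).Nondegenerate) (hW : NondegOn Q W)
    (hi : Inv g W) (h : ∀ v ∈ W, g.1 (g.1 v) = -v) :
    ∃ a, finrank F W = 2 * a ∧ tp Q W % 2 = (hh F * a) % 2 ∧
      (∀ b ≤ a, ∃ U ≤ W, NDT Q (2 * b) (hh F * b) U ∧ Inv g U) ∧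
      ((∀ w ∈ perp Q W, g.1 w = w) → spinorNorm hQ g = (Units.mk0 2 h2 ^ a : Fˣ)) := by
  induction hn : finrank F W using Nat.strong_induction_on generalizing g W with
  | _ n ih =>
  by_cases h0 : W = ⊥
  · subst h0
    refine ⟨0, by simpa using hn.symm, by simp [tp_eq_zero_of_finrank], fun b hb => ?_, fun h1 => ?_⟩
    · obtain rfl := Nat.le_zero.1 hb
      exact ⟨⊥, le_rfl, ⟨hW, by simp, by simp [tp_eq_zero_of_finrank]⟩, hi⟩
    · rw [show g = 1 from O_ext fun v => h1 v (by simp [perp_bot])]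
      simp
  obtain ⟨v, hv, hv0⟩ := hW.exists_Q_ne_zero h0
  obtain ⟨⟨h1, h3, h4⟩, h5⟩ := four_atom h2 hv0 (h v hv)
  set A := (F ∙ v) ⊔ F ∙ g.1 v with hA
  have h6 : A ≤ W := sup_le ((Submodule.span_singleton_le_iff_mem _ _).2 hv)
    ((Submodule.span_singleton_le_iff_mem _ _).2 (hi v hv))
  obtain ⟨h7, h8⟩ := tp_perp h1 hW h6
  have h9 := ndOn_inf_perp h1 hW h6
  have h10 : Inv g (W ⊓ perp Q A) := hi.inf h5.perp
  obtain ⟨a, h11, h12, h13, -⟩ := ih _ (by omega) h9 h10 (fun v hv => h v hv.1) rfl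
  rw [h3] at h7 h8
  refine ⟨a + 1, by omega, by rw [mul_add]; simp at h7; omega, fun b hb => ?_, fun h14 => ?_⟩
  · rcases hb.lt_or_eq with hb | rfl
    · obtain ⟨U, h14, h15⟩ := h13 b (by omega)
      exact ⟨U, h14.trans inf_le_left, h15⟩
    · exact ⟨W, le_rfl, ⟨hW, by omega, by rw [mul_add]; simp at h7; omega⟩, hi⟩
  have hp := polar_four h2 (h v hv)
  have hq : Q (v - g.1 v) = 2 * Q v := by rw [Q_sub, O_map, hp]; ring
  have hq0 : Q (v - g.1 v) ≠ 0 := hq ▸ mul_ne_zero h2 hv0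
  let k : O Q := refl Q (v - g.1 v) * refl Q v
  have hk : ∀ x ∈ perp Q A, k.1 x = x := fun x hx => by
    have h15 := mem_perp'.1 hx v (Submodule.mem_sup_left (Submodule.mem_span_singleton_self _))
    have h16 := mem_perp'.1 hx _ (Submodule.mem_sup_right (Submodule.mem_span_singleton_self _))
    rw [O_mul_apply, refl_apply_of_orth h15, refl_apply_of_orth (by
      rw [polar_sub_right, h15, h16, sub_zero])]
  have hk1 : (k * g).1 v = v := by
    rw [O_mul_apply, O_mul_apply, refl_apply_of_orth (v := v) (by rwa [polar_comm]), ← refl_neg,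
      neg_sub, refl_sub_apply (O_map g v) (by rwa [← neg_sub, QuadraticMap.map_neg])]
  have hk2 : (k * g).1 (g.1 v) = g.1 v := by
    rw [O_mul_apply, h v hv, map_neg, O_mul_apply, refl_apply_self hv0, map_neg, neg_neg,
      refl_sub_apply (O_map g v).symm hq0]
  have hk3 : ∀ x ∈ W ⊓ perp Q A, (k * g).1 x = g.1 x := fun x hx => hk _ (h10 x hx).2
  obtain ⟨a', h15, -, -, h16⟩ := ih _ (by omega) (g := k * g) h9
    (fun x hx => by rw [hk3 x hx]; exact h10 x hx)
    (fun x hx => by rw [hk3 x hx, hk3 _ (h10 x hx), h x hx.1]) rfl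
  obtain rfl : a = a' := by omega
  have h17 := h16 fun w hw => by
    rw [perp_inf hQ, perp_perp hQ] at hw
    obtain ⟨x, hx, y, hy, rfl⟩ := Submodule.mem_sup.1 hw
    obtain ⟨u, hu, z, hz, rfl⟩ := Submodule.mem_sup.1 hy
    obtain ⟨b, rfl⟩ := Submodule.mem_span_singleton.1 hu
    obtain ⟨c, rfl⟩ := Submodule.mem_span_singleton.1 hz
    rw [map_add, map_add, map_smul, map_smul, hk1, hk2, O_mul_apply, h14 x hx,
      hk x (perp_anti h6 hx)]
  have h18 : spinorNorm hQ k = (Units.mk0 2 h2 : Fˣ) := by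
    rw [map_mul, spinorNorm_refl hQ hq0, spinorNorm_refl hQ hv0, ← QuotientGroup.mk_mul,
      sqCl_mk_eq_iff]
    exact ⟨2 * Q v, by simp [hq]; ring⟩
  rw [map_mul, h18] at h17
  rw [pow_succ', QuotientGroup.mk_mul, ← h17, ← mul_assoc, sqCl_mul_self, one_mul]

/-- There is an element of `Ω` with square `-1`. -/
def E2 (h q n ε : ℕ) : Prop :=
  n % 2 = 0 ∧ ε % 2 = (h * (n / 2)) % 2 ∧ (n / 2 % 2 = 0 ∨ q % 8 ≠ 3 ∧ q % 8 ≠ 5)

omit [FiniteDimensional F V] [Fintype F] in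
theorem four_apply (hg : g * g = negOne Q) (v : V) : g.1 (g.1 v) = -v := by
  rw [← O_mul_apply, hg, negOne_apply]

theorem four_mem_kerDS_iff (h2 : (2 : F) ≠ 0) (hQ : (polarBilin Q).Nondegenerate)
    (hg : g * g = negOne Q) : g ∈ kerDS hQ ↔
      E2 (hh F) (Fintype.card F) (finrank F V) (tpw Q) := by
  obtain ⟨a, h1, h3, -, h4⟩ := four_struct h2 hQ (nondegOn_top hQ) (g := g) (fun _ _ => trivial)
    fun v _ => four_apply hg v
  rw [finrank_top] at h1
  rw [tp_top] at h3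
  have h5 := finrank_movSp_add_finrank_fixSp g
  rw [show fixSp g = ⊥ from eq_bot_iff.2 fun v hv => by
    have h6 := four_apply hg v
    rw [mem_fixSp.1 hv, mem_fixSp.1 hv, eq_neg_iff_add_eq_zero, ← two_smul F] at h6
    exact (smul_eq_zero.1 h6).resolve_left h2, finrank_bot, add_zero] at h5
  rw [mem_kerDS, dickson_apply, h5, h1, h4 fun w hw => by
    rw [perp_top hQ] at hw; rw [(Submodule.mem_bot F).1 hw, map_zero], sqCl_mk_eq_one_iff, E2,
    ← FiniteField.isSquare_two_iff, show 2 * a / 2 = a by omega]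
  simp only [h3, even_two, Even.mul_right, Even.neg_pow, one_pow, true_and, Nat.mul_mod_right,
    Units.val_pow_eq_pow_val, Units.val_mk0]
  obtain ⟨b, rfl | rfl⟩ := Nat.even_or_odd' a
  · exact iff_of_true ⟨2 ^ b, by ring⟩ (Or.inl (by omega))
  · rw [pow_succ, H79.isSquare_mul_iff (pow_ne_zero _ h2) h2, or_iff_right (by omega)]
    exact ⟨fun h => h.1 ⟨2 ^ b, by ring⟩, fun h => iff_of_true ⟨2 ^ b, by ring⟩ h⟩

theorem exists_four (h2 : (2 : F) ≠ 0) (hQ : (polarBilin Q).Nondegenerate) {a : ℕ}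
    (h1 : finrank F V = 2 * a) (h3 : tpw Q % 2 = (hh F * a) % 2) :
    ∃ g : O Q, g * g = negOne Q := by
  obtain ⟨Q₀, hQ₀, -⟩ := exists_model (F := F) a 0 (by simp) fun h => (h2 h).elim
  let g' : O (Q₀.prod Q₀) := ⟨(LinearEquiv.prodComm F _ _).trans
    ((LinearEquiv.neg F).prodCongr (LinearEquiv.refl F _)), fun v => by simp [add_comm]⟩
  have h4 : ∀ v, g'.1 (g'.1 v) = -v := fun v => rfl
  have hQ' := nondeg_prod hQ₀ hQ₀
  obtain ⟨b, h5, h6, -⟩ := four_struct h2 hQ' (nondegOn_top hQ') (g := g') (fun _ _ => trivial)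
    fun v _ => h4 v
  rw [finrank_top] at h5
  rw [tp_top] at h6
  obtain rfl : a = b := by simp at h5; omega
  obtain ⟨g, e, -, h7, -, h8, -⟩ := exists_ext hQ hQ' g' (M := ⊤)
    ⟨nondegOn_top hQ, by rw [finrank_top, h1, h5], by rw [tp_top, h3, h6]⟩
  refine ⟨g, O_ext fun v => ?_⟩
  obtain ⟨v, rfl⟩ := LinearMap.range_eq_top.1 h7 v
  rw [O_mul_apply, h8, h8, h4, map_neg, negOne_apply]

theorem forall_four_iff (h2 : (2 : F) ≠ 0) (hQ : (polarBilin Q).Nondegenerate) {R : O Q → Prop}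
    {R' : Prop} (h : ∀ g : O Q, g * g = negOne Q → (R g ↔ R')) :
    (∀ g ∈ kerDS hQ, g * g = negOne Q → R g) ↔
      (E2 (hh F) (Fintype.card F) (finrank F V) (tpw Q) → R') := by
  refine ⟨fun h1 h3 => ?_, fun h1 g h3 h4 => (h g h4).2 (h1 ((four_mem_kerDS_iff h2 hQ h4).1 h3))⟩
  obtain ⟨g, hg⟩ := exists_four h2 hQ (a := finrank F V / 2) (by have := h3.1; omega) h3.2.1
  exact (h g hg).1 (h1 g ((four_mem_kerDS_iff h2 hQ hg).2 h3) hg)

theorem two_nd (h2 : (2 : F) ≠ 0) (hQ : (polarBilin Q).Nondegenerate) {m δ : ℕ} (h4 : 0 < m)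
    (h5 : m < finrank F V) : El hQ 2 (NDT Q m δ) ↔
      (E2 (hh F) (Fintype.card F) (finrank F V) (tpw Q) →
        m % 2 = 0 ∧ δ % 2 = (hh F * (m / 2)) % 2) := by
  have : Nontrivial V := Module.nontrivial_of_finrank_pos (R := F) (by omega)
  rw [el_two hQ h2, and_iff_right fun g h6 h7 h8 h9 => invol_nd h2 hQ h6 h7 h8 h9 h4 h5]
  refine forall_four_iff h2 hQ fun g hg => ⟨?_, fun ⟨h6, h7⟩ => ?_⟩
  · rintro ⟨W, ⟨h6, rfl, h7⟩, h8⟩
    obtain ⟨a, h9, h10, -⟩ := four_struct h2 hQ h6 h8 fun v _ => four_apply hg v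
    rw [h9, show 2 * a / 2 = a by omega]
    omega
  · obtain ⟨a, h1, -, h3, -⟩ := four_struct h2 hQ (nondegOn_top hQ) (g := g) (fun _ _ => trivial)
      fun v _ => four_apply hg v
    rw [finrank_top] at h1
    obtain ⟨U, -, h8, h9⟩ := h3 (m / 2) (by omega)
    exact ⟨U, ⟨h8.1, by rw [h8.2.1]; omega, h8.2.2.trans h7.symm⟩, h9⟩

theorem exists_ts_step (hQ : (polarBilin Q).Nondegenerate) (h : 2 * finrank F U + 3 ≤ finrank F V) :
    ∃ v ∈ perp Q U, v ∉ U ∧ Q v = 0 := by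
  obtain ⟨C, hC⟩ := U.exists_isCompl
  have h1 := finrank_add_finrank_perp hQ U
  have h2 := Submodule.finrank_add_eq_of_isCompl hC
  have h3 := Submodule.finrank_sup_add_finrank_inf_eq (perp Q U) C
  have h4 := Submodule.finrank_le (perp Q U ⊔ C)
  obtain ⟨v, hv, hv0, hv1⟩ := exists_singular_mem Q (perp Q U ⊓ C) (by omega)
  exact ⟨v, hv.1, fun h => hv0 (Submodule.disjoint_def.1 hC.disjoint v h hv.2), hv1⟩

theorem four_ts (h2 : (2 : F) ≠ 0) (hQ : (polarBilin Q).Nondegenerate) (hg : g * g = negOne Q)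
    {m : ℕ} (hm : 2 * m < finrank F V) :
    (∃ W : Submodule F V, (finrank F W = m ∧ ∀ w ∈ W, Q w = 0) ∧ Inv g W) ↔
      hh F = 0 ∨ m % 2 = 0 := by
  rw [← isSquare_neg_one_iff_hh]
  constructor
  · rintro ⟨W, ⟨rfl, -⟩, h1⟩
    exact or_iff_not_imp_left.2 fun h => Nat.even_iff.1
      (even_finrank_four h h1 fun v _ => four_apply hg v)
  by_cases hs : IsSquare (-1 : F)
  · rintro -
    obtain ⟨c, hc⟩ := hs
    induction m with
    | zero => exact ⟨⊥, by simp, fun _ h => by simp_all⟩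
    | succ m ih =>
      obtain ⟨U, ⟨rfl, h1⟩, h3⟩ := ih (by omega)
      obtain ⟨v, h4, h5, h6⟩ := exists_ts_step hQ (U := U) (by omega)
      have key : ∀ c : F, -1 = c * c → g.1 v + c • v ∉ U → ∃ W : Submodule F V,
          (finrank F W = finrank F U + 1 ∧ ∀ w ∈ W, Q w = 0) ∧ Inv g W := fun c hc h7 => by
        refine ⟨U ⊔ F ∙ (g.1 v + c • v), ⟨Submodule.finrank_sup_span_singleton h7,
          ts_sup h1 (ts_span ?_) ((Submodule.span_singleton_le_iff_mem _ _).2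
            (add_mem (h3.perp v h4) (Submodule.smul_mem _ _ h4)))⟩, h3.sup fun x hx => ?_⟩
        · rw [Q_add, O_map, Q_smul, h6, polar_smul_right', polar_comm,
            polar_four h2 (four_apply hg v)]
          simp
        · obtain ⟨a, rfl⟩ := Submodule.mem_span_singleton.1 hx
          refine Submodule.mem_span_singleton.2 ⟨a * c, ?_⟩
          rw [map_smul, map_add, map_smul, four_apply hg, mul_smul, smul_add, smul_smul, ← hc,
            neg_one_smul, add_comm]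
      by_cases h7 : g.1 v + c • v ∈ U
      · refine key (-c) (by simpa using hc) fun h8 => h5 ?_
        have hc0 : 2 * c ≠ 0 := mul_ne_zero h2 fun h => by simp [h] at hc
        rw [← Submodule.smul_mem_iff U hc0]
        convert U.sub_mem h7 h8 using 1
        module
      · exact key c hc h7
  · rintro (h | h)
    · exact (hs h).elim
    obtain ⟨k, rfl⟩ : ∃ k, m = 2 * k := ⟨m / 2, by omega⟩
    induction k with
    | zero => exact ⟨⊥, by simp, fun _ h => by simp_all⟩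
    | succ k ih =>
      obtain ⟨U, ⟨h0, h1⟩, h3⟩ := ih (by omega) (by omega)
      obtain ⟨v, h4, h5, h6⟩ := exists_ts_step hQ (U := U) (by omega)
      have h7 := inv_sup_four h3 (four_apply hg v)
      refine ⟨_, ⟨?_, ts_sup h1 (ts_sup (ts_span h6) (ts_span ((O_map g v).trans h6))
        ((Submodule.span_singleton_le_iff_mem _ _).2
          (mem_perp_singleton.2 (polar_four h2 (four_apply hg v)))))
        (sup_le ((Submodule.span_singleton_le_iff_mem _ _).2 h4)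
          ((Submodule.span_singleton_le_iff_mem _ _).2 (h3.perp v h4)))⟩, h7⟩
      obtain ⟨a, ha⟩ := even_finrank_four hs h7 fun v _ => four_apply hg v
      have h8 := Submodule.finrank_sup_span_singleton h5
      have h9 := Submodule.finrank_mono (sup_le_sup_left (le_sup_left (a := F ∙ v) (b := F ∙ g.1 v)) U)
      have h10 := Submodule.finrank_add_le_finrank_add_finrank (U ⊔ F ∙ v) (F ∙ g.1 v)
      have h11 := finrank_span_le_card (R := F) ({g.1 v} : Set V)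
      rw [sup_assoc] at h10
      simp only [Set.toFinset_singleton, Finset.card_singleton] at h11
      omega

theorem two_ts (h2 : (2 : F) ≠ 0) (hQ : (polarBilin Q).Nondegenerate) {m : ℕ}
    (hm : 2 * m < finrank F V) :
    El hQ 2 (fun W => finrank F W = m ∧ ∀ w ∈ W, Q w = 0) ↔
      AT2 (hh F) (finrank F V) (tpw Q) m ∧
      (E2 (hh F) (Fintype.card F) (finrank F V) (tpw Q) → hh F = 0 ∨ m % 2 = 0) := by
  have : Nontrivial V := Module.nontrivial_of_finrank_pos (R := F) (by omega)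
  rw [el_two hQ h2, invol_ts h2 hQ, forall_four_iff h2 hQ fun g hg => four_ts h2 hQ hg hm]

end Cfsg.Agent.H28
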