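import Mathlib
import Cfsg.Agent.H28.EloTwo

/-! Linear forms of the arithmetic conditions. -/

set_option autoImplicit false

namespace Cfsg.Agent.H28

theorem lex_le_iff {c u k u' l : ℕ} (hk : k < c) (hl : l < c) :
    c * u' + l ≤ c * u + k ↔ u' < u ∨ u' = u ∧ l ≤ k := by
  rcases lt_trichotomy u' u with h | rfl | h
  · have := Nat.mul_le_mul_left c (Nat.succ_le_of_lt h)
    rw [Nat.mul_succ] at this
    omega
  · omega
  · have := Nat.mul_le_mul_left c (Nat.succ_le_of_lt h)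
    rw [Nat.mul_succ] at this
    omega

theorem lex_eq_iff {c u k u' l : ℕ} (hk : k < c) (hl : l < c) :
    c * u' + l = c * u + k ↔ u' = u ∧ l = k := by
  rw [le_antisymm_iff, lex_le_iff hk hl, lex_le_iff hl hk]
  omega

theorem sub_mul_eq {c n a : ℕ} (h : a ≤ n / c) : n - c * a = c * (n / c - a) + n % c := by
  have := Nat.div_add_mod n c
  have := Nat.mul_le_mul_left c h
  rw [Nat.mul_sub]
  omega

theorem mul_le_iff_div {c n a : ℕ} (hc : 0 < c) : c * a ≤ n ↔ a ≤ n / c := by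
  rw [Nat.le_div_iff_mul_le hc, mul_comm]

theorem mul_eq_iff_div {c n a : ℕ} (hc : 0 < c) : c * a = n ↔ a = n / c ∧ n % c = 0 := by
  have := lex_eq_iff (u := n / c) (u' := a) (Nat.mod_lt n hc) hc
  rw [Nat.div_add_mod, add_zero] at this
  rw [this]; omega

theorem le_iff_div_pos {c n : ℕ} (hc : 0 < c) : c ≤ n ↔ 0 < n / c := by
  rw [Nat.div_pos_iff]; omega

theorem lt_iff_div {c n m : ℕ} (hc : 0 < c) :
    m < n ↔ m / c < n / c ∨ m / c = n / c ∧ m % c < n % c := by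
  have := lex_le_iff (u := m / c) (u' := n / c) (Nat.mod_lt m hc) (Nat.mod_lt n hc)
  rw [Nat.div_add_mod, Nat.div_add_mod] at this
  omega

theorem pos_iff_div {c m : ℕ} (hc : 0 < c) : 0 < m ↔ 0 < m / c ∨ 0 < m % c := by
  rw [lt_iff_div hc, Nat.zero_div, Nat.zero_mod]
  generalize m / c = M
  omega

theorem mod_mod_two {c : ℕ} (hc : Even c) (n : ℕ) : n % c % 2 = n % 2 :=
  Nat.mod_mod_of_dvd n hc.two_dvd

theorem add_sub_div {c n m : ℕ} (hc : 0 < c) (h : m % c = n % c) :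
    (n + m - 2 * (n % c)) / c = n / c + m / c := by
  have h1 := Nat.div_add_mod n c
  have h2 := Nat.div_add_mod m c
  rw [show n + m - 2 * (n % c) = c * (n / c + m / c) by rw [mul_add]; omega,
    Nat.mul_div_cancel_left _ hc]

/-- Linear form of `Subx`. -/
def SubL (u k ε u' l δ : ℕ) : Prop := (u' < u ∨ u' = u ∧ l ≤ k) ∧ (u' = 0 → l = 0 → δ % 2 = 0) ∧
  (u' = u → l = k → δ % 2 = ε % 2)

theorem subx_iff {c u k u' l ε δ : ℕ} (hk : k < c) (hl : l < c) :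
    Subx (c * u + k) ε (c * u' + l) δ ↔ SubL u k ε u' l δ := by
  have := lex_eq_iff (u := 0) (u' := u') (Nat.zero_lt_of_lt hk) hl
  rw [mul_zero, add_zero] at this
  rw [Subx, SubL, lex_le_iff hk hl, lex_eq_iff hk hl, this, and_imp, and_imp]

theorem an_iff {c s n ε m δ : ℕ} (hc : 0 < c) : AN c s n ε m δ ↔ ∀ a, 0 < a → a ≤ n / c →
    (a = n / c → n % c = 0 → (ε + s * a) % 2 = 0) →
    SubL (n / c - a) (n % c) (ε + s * a) (m / c - min a (m / c)) (m % c)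
      (δ + s * min a (m / c)) ∨ 0 < min a (m / c) ∧
    SubL (n / c - a) (n % c) (ε + s * a) (m / c - (min a (m / c) - 1)) (m % c)
      (δ + s * (min a (m / c) - 1)) := by
  refine forall₂_congr fun a _ => ?_
  rw [mul_le_iff_div hc, mul_eq_iff_div hc, and_imp]
  refine forall₂_congr fun h1 _ => ?_
  have key : ∀ a', a' ≤ m / c → (Subx (n - c * a) (ε + s * a) (m - c * a') (δ + s * a') ↔
      SubL (n / c - a) (n % c) (ε + s * a) (m / c - a') (m % c) (δ + s * a')) := fun a' h => by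
    rw [sub_mul_eq h1, sub_mul_eq h, subx_iff (Nat.mod_lt _ hc) (Nat.mod_lt _ hc)]
  constructor
  · rintro ⟨a', h2, h3, h4⟩
    rw [mul_le_iff_div hc] at h3
    rw [key a' h3] at h4
    rcases (le_min h2 h3).lt_or_eq with h | h
    · refine Or.inr ⟨by omega, ?_⟩
      rcases (Nat.le_sub_one_of_lt h).lt_or_eq with h' | h'
      · unfold SubL at *; omega
      · rwa [← h']
    · exact Or.inl (h ▸ h4)
  · rintro (h | ⟨-, h⟩)
    · exact ⟨_, min_le_left _ _, (mul_le_iff_div hc).2 (min_le_right _ _),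
        (key _ (min_le_right _ _)).2 h⟩
    · have h2 := (Nat.sub_le _ 1).trans (min_le_right a (m / c))
      exact ⟨_, (Nat.sub_le _ 1).trans (min_le_left _ _), (mul_le_iff_div hc).2 h2, (key _ h2).2 h⟩

theorem hn_iff {c s n ε m δ : ℕ} (hc : 0 < c) : HN c s n ε m δ ↔ ∃ a, a ≤ n / c ∧
    (a = n / c → n % c = 0 → (ε + s * a) % 2 = 0) ∧
    ¬ SubL (n / c - a) (n % c) (ε + s * a) (m / c) (m % c) δ := by
  refine exists_congr fun a => ?_
  rw [mul_le_iff_div hc, mul_eq_iff_div hc, and_imp]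
  refine and_congr_right fun h1 => and_congr_right fun _ => not_congr ?_
  rw [sub_mul_eq h1, ← subx_iff (Nat.mod_lt _ hc) (Nat.mod_lt _ hc), Nat.div_add_mod]

/-- Linear form of `TSx` for even `i`. -/
def TSL (i v k ε u l : ℕ) : Prop :=
  (2 * u + 2 ≤ v ∨ v = 2 * u + 1 ∧ 2 * l ≤ i + k ∨ v = 2 * u ∧ 2 * l ≤ k) ∧
    (v = 2 * u + 1 ∧ 2 * l = i + k ∨ v = 2 * u ∧ 2 * l = k → ε % 2 = 0)

/-- Linear form of `TSx` for odd `i`. -/
def TSO (v k ε u l : ℕ) : Prop :=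
  (u < v ∨ u = v ∧ 2 * l ≤ k) ∧ (u = v → 2 * l = k → ε % 2 = 0)

theorem tsx_iff {i v k u l ε : ℕ} (hk : k < i) (hl : l < i) :
    TSx (i * v + k) ε (i * u + l) ↔ TSL i v k ε u l := by
  unfold TSx TSL
  rcases lt_trichotomy v (2 * u) with h | rfl | h
  · have := Nat.mul_le_mul_left i (Nat.succ_le_of_lt h)
    rw [Nat.mul_succ, mul_left_comm] at this
    omega
  · rw [mul_left_comm]; omega
  rcases (Nat.succ_le_of_lt h).lt_or_eq with h | rfl
  · have := Nat.mul_le_mul_left i (Nat.succ_le_of_lt h)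
    rw [Nat.mul_succ, Nat.mul_succ, mul_left_comm] at this
    omega
  · rw [Nat.mul_succ, mul_left_comm]; omega

theorem tsx_iff' {i v k u l ε : ℕ} (hk : k < 2 * i) (hl : l < i) :
    TSx (2 * i * v + k) ε (i * u + l) ↔ TSO v k ε u l := by
  have hl' : 2 * l < 2 * i := by omega
  rw [TSx, TSO, mul_add, ← mul_assoc, lex_le_iff hk hl', lex_eq_iff hk hl', and_imp]

theorem exists_ts_min {i n ε m b : ℕ} (hi : 0 < i) :
    (∃ b' ≤ b, i * b' ≤ m ∧ TSx n ε (m - i * b')) ↔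
      TSx n ε (i * (m / i - min b (m / i)) + m % i) := by
  rw [← sub_mul_eq (min_le_right _ _)]
  refine ⟨fun ⟨b', h1, h2, h3⟩ => ?_, fun h => ⟨_, min_le_left _ _,
    (mul_le_iff_div hi).2 (min_le_right _ _), h⟩⟩
  have := Nat.mul_le_mul_left i (le_min h1 ((mul_le_iff_div hi).1 h2))
  unfold TSx at *
  omega

theorem at_iff {i T n ε m : ℕ} (hi : 0 < i) : AT i T n ε m ↔ ∀ o b, o ≤ T → 0 < o + 2 * b →
    o + 2 * b ≤ n / i → (o + 2 * b = n / i → n % i = 0 → (ε + o) % 2 = 0) →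
    TSL i (n / i - (o + 2 * b)) (n % i) (ε + o) (m / i - min b (m / i)) (m % i) := by
  refine forall₄_congr fun o b _ _ => ?_
  rw [mul_le_iff_div hi, mul_eq_iff_div hi, and_imp]
  refine forall₂_congr fun h1 _ => ?_
  rw [exists_ts_min hi, sub_mul_eq h1, tsx_iff (Nat.mod_lt _ hi) (Nat.mod_lt _ hi)]

theorem at_iff' {i n ε m : ℕ} (hi : 0 < i) : AT i 0 n ε m ↔ ∀ b, 0 < b →
    b ≤ n / (2 * i) → (b = n / (2 * i) → n % (2 * i) = 0 → ε % 2 = 0) →
    TSO (n / (2 * i) - b) (n % (2 * i)) ε (m / i - min b (m / i)) (m % i) := by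
  have hi' : 0 < 2 * i := by omega
  simp only [AT, Nat.le_zero, forall_comm (α := ℕ) (β := _ = 0),
    forall_eq, zero_add, add_zero]
  refine forall_congr' fun b => ?_
  rw [show i * (2 * b) = 2 * i * b by ring, mul_le_iff_div hi', mul_eq_iff_div hi', and_imp,
    show 0 < 2 * b ↔ 0 < b by omega]
  refine forall₃_congr fun _ h1 _ => ?_
  rw [exists_ts_min hi, sub_mul_eq h1, tsx_iff' (Nat.mod_lt _ hi') (Nat.mod_lt _ hi)]

theorem ht_iff {i n ε m : ℕ} (hi : 0 < i) : HT i 1 n ε m ↔ ∃ a, a ≤ n / i ∧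
    (a = n / i → n % i = 0 → (ε + a) % 2 = 0) ∧
    ¬ TSL i (n / i - a) (n % i) (ε + a) (m / i) (m % i) := by
  refine exists_congr fun a => ?_
  rw [mul_le_iff_div hi, mul_eq_iff_div hi, and_imp, one_mul]
  refine and_congr_right fun h1 => and_congr_right fun _ => not_congr ?_
  rw [sub_mul_eq h1, ← tsx_iff (Nat.mod_lt _ hi) (Nat.mod_lt _ hi), Nat.div_add_mod]

theorem ht_iff' {i n ε m : ℕ} (hi : 0 < i) : HT (2 * i) 0 n ε m ↔ ∃ a, a ≤ n / (2 * i) ∧
    (a = n / (2 * i) → n % (2 * i) = 0 → ε % 2 = 0) ∧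
    ¬ TSO (n / (2 * i) - a) (n % (2 * i)) ε (m / i) (m % i) := by
  have hi' : 0 < 2 * i := by omega
  refine exists_congr fun a => ?_
  rw [mul_le_iff_div hi', mul_eq_iff_div hi', and_imp, zero_mul, add_zero]
  refine and_congr_right fun h1 => and_congr_right fun _ => not_congr ?_
  rw [sub_mul_eq h1, ← tsx_iff' (Nat.mod_lt _ hi') (Nat.mod_lt _ hi), Nat.div_add_mod]

theorem exists_ob {T : ℕ} (hT : 1 ≤ T) (a : ℕ) :
    ∃ o b, o ≤ T ∧ o + 2 * b = a ∧ (b = 0 ∨ T ≤ o + 1) := by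
  by_cases h : a ≤ T
  · exact ⟨a, 0, h, rfl, Or.inl rfl⟩
  · exact ⟨T - (a - T) % 2, (a - T + 1) / 2, by omega, by omega, by omega⟩

theorem two_mul_lt_iff {i n m : ℕ} (hi : 0 < i) : 2 * m < n ↔
    TSL i (n / i) (n % i) 1 (m / i) (m % i) := by
  rw [← tsx_iff (Nat.mod_lt _ hi) (Nat.mod_lt _ hi), Nat.div_add_mod, Nat.div_add_mod, TSx]
  omega

theorem two_mul_lt_iff' {i n m : ℕ} (hi : 0 < i) : 2 * m < n ↔
    TSO (n / (2 * i)) (n % (2 * i)) 1 (m / i) (m % i) := by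
  rw [← tsx_iff' (Nat.mod_lt _ (by omega)) (Nat.mod_lt _ hi), Nat.div_add_mod, Nat.div_add_mod, TSx]
  omega

theorem cc_ss (i : ℕ) : Even i ∧ ¬ Odd i ∧ cc i = i ∧ ss i = 1 ∨
    ¬ Even i ∧ Odd i ∧ cc i = 2 * i ∧ ss i = 0 := by
  by_cases h : Even i
  · exact Or.inl ⟨h, Nat.not_odd_iff_even.2 h, if_pos h, if_pos h⟩
  · exact Or.inr ⟨h, Nat.not_even_iff_odd.1 h, if_neg h, if_neg h⟩

open H30 QuadraticMap Module

variable {F V : Type*} [Field F] [Fintype F] [AddCommGroup V] [Module F V] [FiniteDimensional F V]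
  {Q : QuadraticForm F V} {p r : ℕ} [Fact p.Prime] [CharP F p] [hr : Fact r.Prime]

omit [Fintype F] in
theorem two_eq_zero_iff_char : (2 : F) = 0 ↔ p = 2 := by
  rw [← Nat.cast_ofNat (R := F), CharP.cast_eq_zero_iff F p,
    Nat.prime_dvd_prime_iff_eq Fact.out Nat.prime_two]

theorem odd_card_iff_char : Fintype.card F % 2 = 1 ↔ p ≠ 2 := by
  rw [← Nat.odd_iff, ← two_ne_zero_iff_odd_card, Ne, two_eq_zero_iff_char (p := p)]

theorem el_nd_odd (hQ : (polarBilin Q).Nondegenerate) (hr2 : r ≠ 2) (hrp : r ≠ p) {i m δ : ℕ}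
    (hi : orderOf (Fintype.card F : ZMod r) = i) (h2 : (2 : F) = 0 → Even m)
    (h : r ∣ Nat.card {W // NDT Q m δ W}) : 2 < r ∧ 0 < i ∧
      HN (cc i) (ss i) (finrank F V) (tpw Q) m δ ∧
      (El hQ r (NDT Q m δ) ↔ AN (cc i) (ss i) (finrank F V) (tpw Q) m δ) :=
  ⟨lt_of_le_of_ne hr.out.two_le hr2.symm, hi ▸ orderOf_card_pos (F := F) hrp,
    hn_of_dvd hQ hr2 hrp hi h2 h,
    (el_odd hQ (hr.out.odd_of_ne_two hr2)).trans (odd_nd hQ hr2 hrp hi h2)⟩

theorem el_ts_odd (hQ : (polarBilin Q).Nondegenerate) (hr2 : r ≠ 2) (hrp : r ≠ p) {i m : ℕ}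
    (hi : orderOf (Fintype.card F : ZMod r) = i) : 2 < r ∧ 0 < i ∧ (Even i → 1 ≤ (r - 1) / i) ∧
      (El hQ r (fun W => finrank F W = m ∧ ∀ w ∈ W, Q w = 0) ↔
        AT i (TT r i) (finrank F V) (tpw Q) m) := by
  have h0 : 0 < i := hi ▸ orderOf_card_pos (F := F) hrp
  refine ⟨lt_of_le_of_ne hr.out.two_le hr2.symm, h0, fun h => ?_, ?_⟩
  · simpa only [TT, if_pos h] using one_le_TT hr2 hi h0 h
  · rw [el_odd hQ (hr.out.odd_of_ne_two hr2), ← odd_ts hQ hr2 hrp hi]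
    simp only [and_assoc]

end Cfsg.Agent.H28
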