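import Mathlib
import Cfsg.Agent.H28.EloAr

/-! More on the arithmetic conditions. -/

set_option autoImplicit false

namespace Cfsg.Agent.H28

theorem an_pos {c s n ε m δ : ℕ} (h : HN c s n ε m δ) (h1 : 0 < m) (h2 : m < n)
    (H : AN c s n ε m δ) : c ≤ m := by
  obtain ⟨a, h3, h4, h5⟩ := h
  obtain ⟨a', -, h6, h7⟩ := H a (Nat.pos_of_ne_zero (by
    rintro rfl; exact h5 (by unfold Subx; omega))) h3 h4
  exact (Nat.le_mul_of_pos_right c (Nat.pos_of_ne_zero (by rintro rfl; exact h5 h7))).trans h6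

theorem at_pos {i T n ε m : ℕ} (hT : 1 ≤ T) (h : HT i 1 n ε m) (h2 : 2 * m < n)
    (H : AT i T n ε m) : i ≤ m := by
  obtain ⟨a, h3, h4, h5⟩ := h
  obtain ⟨o, b, h8, rfl, -⟩ := exists_ob hT a
  obtain ⟨b', -, h6, h7⟩ := H o b h8 (Nat.pos_of_ne_zero fun h => h5 (by
    rw [h]; unfold TSx; omega)) h3 fun h => by have := h4 h; omega
  exact (Nat.le_mul_of_pos_right i (Nat.pos_of_ne_zero (by
    rintro rfl; exact h5 (h7.congr (by omega))))).trans h6

theorem at_pos' {i n ε m : ℕ} (h : HT (2 * i) 0 n ε m) (h2 : 2 * m < n)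
    (H : AT i 0 n ε m) : i ≤ m := by
  obtain ⟨a, h3, h4, h5⟩ := h
  have h8 : i * (0 + 2 * a) = 2 * i * a := by ring
  obtain ⟨b', -, h6, h7⟩ := H 0 a le_rfl (Nat.pos_of_ne_zero fun h => h5 (by
    rw [show a = 0 by omega]; unfold TSx; omega)) (h8 ▸ h3) fun h => by simpa using h4 (h8 ▸ h)
  exact (Nat.le_mul_of_pos_right i (Nat.pos_of_ne_zero (by
    rintro rfl; exact h5 (by simpa only [h8, zero_mul, mul_zero, Nat.sub_zero] using h7)))).trans h6

theorem at_iff₂ {i T n ε m : ℕ} (hi : 0 < i) (hT : 1 ≤ T) : AT i T n ε m ↔ ∀ a, 0 < a →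
    a ≤ n / i → (a = n / i → n % i = 0 → (ε + a) % 2 = 0) →
    TSL i (n / i - a) (n % i) (ε + a) (m / i - (a + 1 - T) / 2) (m % i) := by
  rw [at_iff hi]
  have h3 := Nat.mod_lt n hi
  have h4 := Nat.mod_lt m hi
  generalize n / i = N at *
  generalize m / i = M at *
  generalize n % i = k at *
  generalize m % i = l at *
  constructor
  · intro H a h1 h2 h5
    obtain ⟨o, b, h6, rfl, h7⟩ := exists_ob hT a
    have := H o b h6 h1 h2 (by omega)
    rw [show M - min b M = M - (o + 2 * b + 1 - T) / 2 by omega] at this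
    generalize M - (o + 2 * b + 1 - T) / 2 = u at *
    generalize N - (o + 2 * b) = v at *
    unfold TSL at *
    omega
  · intro H o b h1 h2 h5 h6
    have := H _ h2 h5 (by omega)
    have h7 : M - min b M ≤ M - (o + 2 * b + 1 - T) / 2 := by omega
    generalize M - (o + 2 * b + 1 - T) / 2 = u at *
    generalize M - min b M = u' at *
    generalize N - (o + 2 * b) = v at *
    unfold TSL at *
    omega

theorem tsl_zero {i k ε u l : ℕ} :
    TSL i 0 k ε u l ↔ u = 0 ∧ 2 * l ≤ k ∧ (2 * l = k → ε % 2 = 0) := by unfold TSL; omega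

theorem tsl_one {i k ε u l : ℕ} :
    TSL i 1 k ε u l ↔ u = 0 ∧ 2 * l ≤ i + k ∧ (2 * l = i + k → ε % 2 = 0) := by unfold TSL; omega

/-- Closed form of `AT` for even `i`. -/
theorem at_iff₃ {i T n ε m : ℕ} (hi : 0 < i) (hT : 1 ≤ T) (h : HT i 1 n ε m) (h2 : 2 * m < n) :
    AT i T n ε m ↔ i ≤ m ∧ T + 2 * (m / i) ≤ n / i ∧
      ((n % i = 0 → (ε + n / i) % 2 = 0) →
        2 * (m % i) ≤ n % i ∧ (2 * (m % i) = n % i → (ε + n / i) % 2 = 0)) ∧
      (n % i = 0 → (ε + n / i) % 2 = 1 → 2 * (m % i) ≤ i ∧ T + 2 * (m / i) < n / i) := by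
  rw [← and_iff_right_of_imp (at_pos hT h h2), at_iff₂ hi hT, le_iff_div_pos hi]
  refine and_congr_right fun h1 => ?_
  rw [two_mul_lt_iff hi] at h2
  have h3 := Nat.mod_lt n hi
  have h4 := Nat.mod_lt m hi
  clear h
  generalize n / i = N at *
  generalize m / i = M at *
  generalize n % i = k at *
  generalize m % i = l at *
  unfold TSL at h2
  constructor
  · intro H
    obtain ⟨N, rfl⟩ : ∃ N', N = N' + 2 := ⟨N - 2, by omega⟩
    have h5 := H (N + 2) (by omega) le_rfl
    have h6 := H (N + 1) (by omega) (by omega) (by omega)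
    have h7 := fun h => H N h (by omega) (by omega)
    rw [Nat.sub_self, tsl_zero] at h5
    rw [show N + 2 - (N + 1) = 1 by omega, tsl_one] at h6
    rw [show N + 2 - N = 2 by omega, TSL] at h7
    omega
  · intro H a h5 h6 h7
    unfold TSL
    omega

/-- Closed form of `AT` for odd `i`. -/
theorem at_iff₃' {i n ε m : ℕ} (hi : 0 < i) (h : HT (2 * i) 0 n ε m) (h2 : 2 * m < n) :
    AT i 0 n ε m ↔ i ≤ m ∧ ((n % (2 * i) = 0 → ε % 2 = 0) →
      2 * (m % i) ≤ n % (2 * i) ∧ (2 * (m % i) = n % (2 * i) → ε % 2 = 0)) := by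
  rw [← and_iff_right_of_imp (at_pos' h h2), at_iff' hi, le_iff_div_pos hi]
  refine and_congr_right fun h1 => ?_
  rw [two_mul_lt_iff' hi] at h2
  clear h
  generalize n / (2 * i) = N at *
  generalize m / i = M at *
  generalize n % (2 * i) = k at *
  generalize m % i = l at *
  unfold TSO at *
  exact ⟨fun H => by have := H N; omega, fun H b => by omega⟩

/-- Closed form of `AN`. -/
theorem an_iff₃ {c s n ε m δ : ℕ} (hc : 0 < c) (hs : s = 0 ∨ s = 1) (h : HN c s n ε m δ)
    (h1 : 0 < m) (h2 : m < n) : AN c s n ε m δ ↔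
      ((n % c = 0 → (ε + s * (n / c)) % 2 = 0) → c ≤ m ∧ m % c ≤ n % c ∧
        (m % c = 0 → (δ + s * (m / c)) % 2 = 0) ∧
        (m % c = n % c → (δ + s * (m / c)) % 2 = (ε + s * (n / c)) % 2)) := by
  have h3 := an_pos h h1 h2
  rw [an_iff hc, le_iff_div_pos hc] at *
  rw [lt_iff_div hc] at h2
  rw [pos_iff_div hc] at h1
  clear h
  generalize n / c = N at *
  generalize m / c = M at *
  generalize n % c = k at *
  generalize m % c = l at *
  unfold SubL at *
  constructor
  · intro H h4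
    have h5 := h3 H
    have h6 := H N (by omega) le_rfl fun _ => h4
    rw [min_eq_right (by omega), Nat.sub_self, Nat.sub_self] at h6
    clear H h3
    omega
  · intro H a h4 h5 h6
    clear h3
    rcases le_total a M with h7 | h7
    · rw [min_eq_left h7]
      rcases h7.lt_or_eq with h7 | rfl
      · left; omega
      · rcases hs with rfl | rfl <;> omega
    · rw [min_eq_right h7]
      rcases hs with rfl | rfl <;> omega

theorem ss_cases (i : ℕ) : ss i = 0 ∨ ss i = 1 := by unfold ss; split_ifs <;> simp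

theorem hh_cases (F : Type*) [Fintype F] :
    hh F = 1 ∧ Fintype.card F % 4 = 3 ∨ hh F = 0 ∧ Fintype.card F % 4 ≠ 3 := by
  unfold hh; split_ifs with h <;> simp [h]

end Cfsg.Agent.H28
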