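import Mathlib
import Cfsg.Agent.H28.EloAr2
import Cfsg.Agent.H77.ElusSp
import Cfsg.Agent.H76.RealO

/-! Unipotent elements of orthogonal groups in odd characteristic. -/

set_option autoImplicit false

namespace Cfsg.Agent.H28

open H30 QuadraticMap Module
open H76 (isEForm_polar)
open H77 (HasJ HasJOn udata)

/-- Even parts have even multiplicity. -/
def EP (μ : Multiset ℕ) : Prop := ∀ e : ℕ, Even e → Even (μ.count e)

theorem EP.add {μ ν : Multiset ℕ} (h : EP μ) (h' : EP ν) : EP (μ + ν) := fun e he => by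
  rw [Multiset.count_add]; exact (h e he).add (h' e he)

theorem EP.of_add {μ ν : Multiset ℕ} (h : EP (μ + ν)) (h' : EP μ) : EP ν := fun e he => by
  have := h e he
  rw [Multiset.count_add] at this
  exact (Nat.even_add.1 this).1 (h' e he)

theorem ep_of_odd {μ : Multiset ℕ} (h : ∀ e ∈ μ, Odd e) : EP μ := fun e he => by
  rw [Multiset.count_eq_zero_of_notMem fun h1 => Nat.not_odd_iff_even.2 he (h e h1)]
  exact Even.zero

theorem ep_replicate (k e : ℕ) : EP (Multiset.replicate (2 * k) e) := fun e' _ => by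
  rw [Multiset.count_replicate]; split_ifs <;> simp

theorem add_eq_pair {s t : Multiset ℕ} {x y : ℕ} (h : s + t = {x, y}) :
    s = 0 ∧ t = {x, y} ∨ s = {x} ∧ t = {y} ∨ s = {y} ∧ t = {x} ∨ s = {x, y} ∧ t = 0 := by
  have := Multiset.mem_antidiagonal.2 (show (s, t).1 + (s, t).2 = _ from h)
  simp only [Multiset.insert_eq_cons, ← Multiset.cons_zero, Multiset.antidiagonal_cons] at this ⊢
  simp at this ⊢
  tauto

theorem add_eq_single {s t : Multiset ℕ} {x : ℕ} (h : s + t = {x}) :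
    s = 0 ∧ t = {x} ∨ s = {x} ∧ t = 0 := by
  have := Multiset.mem_antidiagonal.2 (show (s, t).1 + (s, t).2 = _ from h)
  simp only [← Multiset.cons_zero, Multiset.antidiagonal_cons] at this ⊢
  simpa using this

theorem EP.exists_two {ν : Multiset ℕ} (h : EP ν) :
    ∃ j, ν = ν.filter (· ≠ 2) + Multiset.replicate (2 * j) 2 := by
  obtain ⟨j, hj⟩ := h 2 even_two
  refine ⟨j, ?_⟩
  rw [two_mul, ← hj, ← Multiset.filter_eq', add_comm]
  exact (Multiset.filter_add_not _ _).symm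

theorem exists_part {p m : ℕ} (hp : Odd p) (hm : Even m) {μ : Multiset ℕ} (hmn : m ≤ μ.sum)
    (H : ∀ μ' : Multiset ℕ, (∀ e ∈ μ', 0 < e ∧ e ≤ p) → EP μ' → μ'.sum = μ.sum → (∃ e ∈ μ', Odd e) →
      (∃ e ∈ μ', e ≠ 1) → ∃ ν ≤ μ', ν.sum = m ∧ EP ν)
    (h1 : ∀ e ∈ μ, 0 < e ∧ e ≤ p) (h2 : EP μ) : ∃ ν ≤ μ, ν.sum = m ∧ EP ν := by
  by_cases h3 : ∃ e ∈ μ, e ≠ 1
  swap
  · push Not at h3
    rw [Multiset.eq_replicate_card.2 h3] at hmn ⊢
    exact ⟨Multiset.replicate m 1, (Multiset.replicate_le_replicate 1).2 (by simpa using hmn),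
      by simp, ep_of_odd fun e he => by rw [Multiset.eq_of_mem_replicate he]; exact odd_one⟩
  by_cases h4 : ∃ e ∈ μ, Odd e
  · exact H μ h1 h2 rfl h4 h3
  simp only [not_exists, not_and, Nat.not_odd_iff_even] at h4
  obtain ⟨e, he, -⟩ := h3
  obtain ⟨μ₀, rfl⟩ : ∃ μ₀, μ = Multiset.replicate (2 * 1) e + μ₀ :=
    Multiset.le_iff_exists_add.1 (Multiset.le_count_iff_replicate_le.1 (by
      have := h2 e (h4 e he)
      have := Multiset.count_pos.2 he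
      rw [Nat.even_iff] at *
      omega))
  have h5 := h1 e he
  have h6 := Nat.even_iff.1 (h4 e he)
  rw [Nat.odd_iff] at hp
  have h7 : ∀ x ∈ ({e + 1, e - 1} : Multiset ℕ), Odd x := by simp [Nat.odd_iff]; omega
  obtain ⟨ν, h8, rfl, h9⟩ := H ({e + 1, e - 1} + μ₀) (fun x hx => by
      rcases Multiset.mem_add.1 hx with hx | hx
      · simp at hx; omega
      · exact h1 x (Multiset.mem_add.2 (Or.inr hx)))
    ((ep_of_odd h7).add (h2.of_add (ep_replicate 1 e))) (by simp; omega)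
    ⟨e + 1, by simp, h7 _ (by simp)⟩ ⟨e + 1, by simp, by omega⟩
  obtain ⟨u, v, rfl, h10, h11⟩ : ∃ u v, ν = u + v ∧ u ≤ {e + 1, e - 1} ∧ v ≤ μ₀ :=
    ⟨ν ∩ {e + 1, e - 1}, ν - {e + 1, e - 1}, by rw [add_comm, Multiset.sub_add_inter],
      Multiset.inter_le_right, tsub_le_iff_left.2 h8⟩
  have h12 := h9.of_add (ep_of_odd fun x hx => h7 x (Multiset.mem_of_le h10 hx))
  have h13 : 2 ∣ v.sum := Multiset.dvd_sum fun x hx =>
    (h4 x (Multiset.mem_add.2 (Or.inr (Multiset.mem_of_le h11 hx)))).two_dvd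
  obtain ⟨w, hw⟩ := Multiset.le_iff_exists_add.1 h10
  rw [Nat.even_iff, Multiset.sum_add] at hm
  rcases add_eq_pair hw.symm with ⟨rfl, -⟩ | ⟨rfl, -⟩ | ⟨rfl, -⟩ | ⟨rfl, -⟩
  · exact ⟨v, h11.trans (Multiset.le_add_left _ _), by simp, h12⟩
  · simp at hm; omega
  · simp at hm; omega
  · exact ⟨_, add_le_add_right h11 _, by simp; omega, (ep_replicate 1 e).add h12⟩

variable {F V : Type*} [Field F] [Fintype F] [AddCommGroup V] [Module F V] [FiniteDimensional F V]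
  {Q : QuadraticForm F V} {U W M : Submodule F V} {g : O Q} {μ ν : Multiset ℕ}

omit [Fintype F] in
theorem eq_span_of_finrank (h : finrank F U = 1) {u : V} (hu : u ∈ U) (h0 : u ≠ 0) : U = F ∙ u :=
  (Submodule.eq_of_le_of_finrank_eq ((Submodule.span_singleton_le_iff_mem _ _).2 hu)
    ((finrank_span_singleton h0).trans h.symm)).symm

/-- `g` is unipotent on `W` with Jordan blocks of sizes `μ`. -/
def UJ (g : O Q) (W : Submodule F V) (μ : Multiset ℕ) : Prop :=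
  HasJOn (AlgebraicClosure F) (g.1 : V →ₗ[F] V) W (udata 1 μ)

omit [Fintype F] in
theorem UJ.sum_eq (h : UJ g W μ) : μ.sum = finrank F W := (H77.wt_udata _ _).symm.trans h.wt_eq

theorem UJ.ep (h2 : (2 : F) ≠ 0) (hQ : (polarBilin Q).Nondegenerate) (h : UJ g W μ)
    (hW : NondegOn Q W) : EP μ := fun e he => by
  simpa using HasJOn.even_count_sym h2 (isEForm_polar hQ) (pres_O g) h hW (by simp)
    (Nat.not_odd_iff_even.2 he)

omit [Fintype F] in
theorem UJ.perp (hQ : (polarBilin Q).Nondegenerate) (h : UJ g W μ) (h' : UJ g U ν)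
    (hU : NondegOn Q U) (hle : U ≤ W) : ∃ ν', μ = ν + ν' ∧ UJ g (W ⊓ perp Q U) ν' := by
  rw [← perp31]
  exact HasJOn.perp_udata (isEForm_polar hQ) (pres_O g) h' h hU hle

theorem UJ.exists_le (hQ : (polarBilin Q).Nondegenerate) (h : UJ g W μ) (hU : Inv g U)
    (hle : U ≤ W) : ∃ ν, UJ g U ν :=
  H77.exists_hasJOn_udata ((isEForm_polar hQ).sep.isUnit_of_pres (pres_O g)) hU (n := μ.sum)
    fun x hx => (HasJOn.pow_sub_one_eq_zero_iff h _).2 (fun _ he => Multiset.single_le_sum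
      (fun _ _ => Nat.zero_le _) _ he) x (hle hx)

theorem exists_uj (h2 : (2 : F) ≠ 0) (hQ : (polarBilin Q).Nondegenerate) (hM : NondegOn Q M)
    (h1 : ∀ e ∈ μ, 0 < e) (h3 : EP μ) (h4 : μ.sum = finrank F M) (h5 : ∃ e ∈ μ, Odd e) :
    ∃ g : O Q, UJ g M μ ∧ ∀ w ∈ perp Q M, g.1 w = w := by
  obtain ⟨Q', hQ', h6⟩ := exists_fin_of_iso hM.restrict rfl
  obtain ⟨e, he, h7⟩ := h5
  obtain ⟨g', h8, -⟩ := (H76.realO_unip (h2 := h2) (L := AlgebraicClosure F)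
    ((H77.fadm_udata_iff h1).2 fun e he => h3 e (Nat.not_odd_iff_even.1 he))
    (fun x hx => (H77.mem_udata.1 hx).1) h7 (H77.mem_udata.2 ⟨rfl, he⟩)
    (mul_self_eq_one_iff.1 (H76.dch_mul_self h2 hQ'))).exists_isometry hQ' (by simp [h4]) rfl
  obtain ⟨g, e, h9, h10, -, h11, h12, -⟩ := exists_ext hQ hQ' (isoEquiv Q' g') (M := M)
    ⟨hM, by simp, by rw [tpw_congr h6]; rfl⟩
  refine ⟨g, ?_, h12⟩
  rw [← h10, UJ, ← h8]
  exact H77.hasJOn_range e h9 (fun v => (h11 v).symm) (H77.hasJ_ujord _ _)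

theorem UJ.tp_two (h2 : (2 : F) ≠ 0) (hQ : (polarBilin Q).Nondegenerate) {k : ℕ}
    (h : UJ g W (Multiset.replicate k 2)) (hW : NondegOn Q W) : tp Q W = 0 := by
  have h1 := HasJOn.finrank_map_pow h 1
  have h3 := h.sum_eq
  have h4 := (HasJOn.pow_sub_one_eq_zero_iff h 2).2 fun e he =>
    (Multiset.eq_of_mem_replicate he).le
  rw [pow_one] at h1
  refine tp_eq_zero_of_ts hW (U := W.map ((g.1 : V →ₗ[F] V) - 1)) ?_ ?_
    (by simp at h1 h3; omega)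
  · rintro _ ⟨w, hw, rfl⟩
    exact W.sub_mem (h.inv w hw) hw
  · rintro _ ⟨w, hw, rfl⟩
    have h5 : ((g.1 : V →ₗ[F] V) - 1) w ∈ H30.perp Q (movSp g) := by
      rw [perp_movSp hQ g]; exact h4 w hw
    have h6 := mem_perp.1 h5 _ ⟨w, rfl⟩
    exact (mul_eq_zero.1 ((polar_self' Q _).symm.trans h6)).resolve_left h2

theorem UJ.split_two (h2 : (2 : F) ≠ 0) (hQ : (polarBilin Q).Nondegenerate) {k : ℕ}
    (h : UJ g ⊤ (μ + Multiset.replicate k 2)) (h1 : ∀ e ∈ μ, e ≠ 2) (hW : NondegOn Q W)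
    (hi : Inv g W) : ∃ o₁ o₂ j₁ j₂, o₁ + o₂ = μ ∧ UJ g W (o₁ + Multiset.replicate (2 * j₁) 2) ∧
      finrank F W = o₁.sum + 4 * j₁ ∧ finrank F V - finrank F W = o₂.sum + 4 * j₂ ∧
      (o₁ = 0 → tp Q W = 0) ∧ (o₂ = 0 → tp Q (H30.perp Q W) = 0) := by
  obtain ⟨ν, h3⟩ := h.exists_le hQ hi le_top
  obtain ⟨ν', h4, h5⟩ := h.perp hQ h3 hW le_top
  rw [top_inf_eq] at h5
  obtain ⟨j₁, h6⟩ := (h3.ep h2 hQ hW).exists_two
  obtain ⟨j₂, h7⟩ := (h5.ep h2 hQ (hW.perp hQ)).exists_two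
  have h8 := finrank_add_finrank_perp hQ W
  refine ⟨ν.filter (· ≠ 2), ν'.filter (· ≠ 2), j₁, j₂, ?_, h6 ▸ h3, ?_, ?_, fun h9 => ?_,
    fun h9 => ?_⟩
  · rw [← Multiset.filter_add, ← h4, Multiset.filter_add, Multiset.filter_eq_self.2 h1,
      Multiset.filter_eq_nil.2 fun e he => not_not.2 (Multiset.eq_of_mem_replicate he), add_zero]
  · rw [← h3.sum_eq]
    conv_lhs => rw [h6]
    simp; omega
  · rw [← h8, Nat.add_sub_cancel_left, ← h5.sum_eq]
    conv_lhs => rw [h7]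
    simp; omega
  · rw [h9, zero_add] at h6
    exact (h6 ▸ h3).tp_two h2 hQ hW
  · rw [h9, zero_add] at h7
    exact (h7 ▸ h5).tp_two h2 hQ (hW.perp hQ)

theorem uj_of_fixed (h : ∀ w ∈ W, g.1 w = w) : UJ g W (Multiset.replicate (finrank F W) 1) := by
  rw [UJ, udata, Multiset.map_replicate]
  exact H77.hasJOn_of_fixed h

theorem UJ.Q_eq_zero (h2 : (2 : F) ≠ 0) (hQ : (polarBilin Q).Nondegenerate) (h : UJ g M μ)
    (h1 : 1 ∉ μ) {w : V} (hw : w ∈ M) (hw' : g.1 w = w) : Q w = 0 := by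
  by_contra h3
  obtain ⟨ν, h4, -⟩ := h.perp hQ (uj_of_fixed (W := F ∙ w)
    fun x hx => mem_fixSp.1 ((Submodule.span_singleton_le_iff_mem _ _).2 (mem_fixSp.2 hw') hx))
    (ndOn_span h2 h3) ((Submodule.span_singleton_le_iff_mem _ _).2 hw)
  rw [finrank_span_singleton (ne_zero_of_Q_ne_zero h3)] at h4
  exact h1 (by simp [h4])

variable {p : ℕ} [hp : Fact p.Prime] [CharP F p] {S : Submodule F V → Prop}

theorem El.unip (hp2 : p ≠ 2) {hQ : (polarBilin Q).Nondegenerate} (H : El hQ p S) (h : UJ g ⊤ μ)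
    (h1 : ∀ e ∈ μ, e ≤ p) (h3 : ∃ e ∈ μ, e ≠ 1) : ∃ W, S W ∧ Inv g W := by
  refine (el_odd hQ (hp.out.odd_of_ne_two hp2)).1 H g (O_ext fun v => ?_) fun h4 =>
    HasJ.ne_one (H77.hasJOn_top.1 h) h3 (by rw [h4]; rfl)
  have := HasJ.pow_char_eq_one (H77.hasJOn_top.1 h) h1
  rw [← coe_O_pow] at this
  exact LinearMap.congr_fun this v

theorem El.part (hp2 : p ≠ 2) {hQ : (polarBilin Q).Nondegenerate} {m δ : ℕ}
    (H : El hQ p (NDT Q m δ)) (hm : Even m) (hmn : m ≤ finrank F V)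
    (h1 : ∀ e ∈ μ, 0 < e ∧ e ≤ p) (h3 : EP μ) (h4 : μ.sum = finrank F V) :
    ∃ ν ≤ μ, ν.sum = m ∧ EP ν := by
  have h2 := (two_eq_zero_iff_char (F := F)).not.2 hp2
  refine exists_part (hp.out.odd_of_ne_two hp2) hm (h4 ▸ hmn) (fun μ' h5 h6 h7 h8 h9 => ?_) h1 h3
  obtain ⟨g, hg, -⟩ := exists_uj h2 hQ (nondegOn_top hQ) (fun e he => (h5 e he).1) h6
    (by rw [h7, h4, finrank_top]) h8
  obtain ⟨W, hW, hi⟩ := H.unip hp2 hg (fun e he => (h5 e he).2) h9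
  obtain ⟨ν, h10⟩ := hg.exists_le hQ hi le_top
  obtain ⟨ν', rfl, -⟩ := hg.perp hQ h10 hW.1 le_top
  exact ⟨ν, Multiset.le_add_right _ _, h10.sum_eq.trans hW.2.1, h10.ep h2 hQ hW.1⟩

theorem El.two (hp2 : p ≠ 2) {hQ : (polarBilin Q).Nondegenerate} {m δ k : ℕ}
    (H : El hQ p (NDT Q m δ)) (h1 : ∀ e ∈ μ, e = 1 ∨ e = 3) (h3 : μ ≠ 0) (hk : 0 < k)
    (h4 : μ.sum + 4 * k = finrank F V) : ∃ o₁ o₂ j₁ j₂, o₁ + o₂ = μ ∧
      m = o₁.sum + 4 * j₁ ∧ finrank F V - m = o₂.sum + 4 * j₂ ∧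
      (o₁ = 0 → δ % 2 = 0) ∧ (o₂ = 0 → (tpw Q + δ) % 2 = 0) := by
  have h2 := (two_eq_zero_iff_char (F := F)).not.2 hp2
  have h5 : 3 ≤ p := lt_of_le_of_ne hp.out.two_le hp2.symm
  have h6 : ∀ e ∈ μ + Multiset.replicate (2 * k) 2, 0 < e ∧ e ≤ p := fun e he => by
    rcases Multiset.mem_add.1 he with he | he
    · have := h1 e he; omega
    · have := Multiset.eq_of_mem_replicate he; omega
  have h7 : ∀ e ∈ μ, Odd e := fun e he => by rcases h1 e he with rfl | rfl <;> decide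
  obtain ⟨e, he⟩ := Multiset.exists_mem_of_ne_zero h3
  obtain ⟨g, hg, -⟩ := exists_uj h2 hQ (nondegOn_top hQ) (fun e he => (h6 e he).1)
    ((ep_of_odd h7).add (ep_replicate k 2)) (by simp; omega)
    ⟨e, Multiset.mem_add.2 (Or.inl he), h7 e he⟩
  obtain ⟨W, hW, hi⟩ := H.unip hp2 hg (fun e he => (h6 e he).2) ⟨2, Multiset.mem_add.2 (Or.inr
    (Multiset.mem_replicate.2 ⟨by omega, rfl⟩)), by omega⟩
  obtain ⟨o₁, o₂, j₁, j₂, h8, -, h9, h10, h11, h12⟩ :=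
    hg.split_two h2 hQ (fun e he => by have := h1 e he; omega) hW.1 hi
  have h13 := (ndt_perp hQ hW).2.2
  rw [hW.2.1] at h9 h10
  refine ⟨o₁, o₂, j₁, j₂, h8, h9, h10, fun h => by rw [← hW.2.2, h11 h], fun h => ?_⟩
  rw [h12 h, h10, h, Multiset.sum_zero, show (0 + 4 * j₂) % 2 = 0 by omega] at h13
  simpa using h13.symm

omit [CharP F p] hp in
theorem tp_eq_of_one (h2 : (2 : F) ≠ 0) (hQ : (polarBilin Q).Nondegenerate) {C : Submodule F V}
    (hC : NondegOn Q C) (hC1 : finrank F C = 1) (h : UJ g (perp Q C) μ) (h1 : 1 ∉ μ)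
    (h3 : ∀ w ∈ C, g.1 w = w) {j : ℕ} (hW : NondegOn Q W)
    (h4 : UJ g W ({1} + Multiset.replicate (2 * j) 2)) : tp Q W % 2 = tp Q C % 2 := by
  obtain ⟨U, h5, h6, h7⟩ := HasJOn.exists_nd_udata h2 (isEForm_polar hQ) (pres_O g) hW h4
    (ν := {1}) (Multiset.le_add_right _ _) fun d hd => by
      obtain rfl | d := d
      · exact (h2 (by linear_combination hd)).elim
      · simp
  obtain ⟨ν, h8, h9⟩ := h4.perp hQ h7 h6 h5
  obtain rfl := add_left_cancel h8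
  have h10 := (tp_perp h6 hW h5).1
  rw [h9.tp_two h2 hQ (ndOn_inf_perp h6 hW h5), ← h9.sum_eq] at h10
  have h11 : finrank F U = 1 := (UJ.sum_eq h7).symm
  obtain ⟨u, hu, hu0⟩ := NondegOn.exists_Q_ne_zero (Q := Q) h6 (ne_bot_of_finrank_pos (by omega))
  obtain ⟨c, hc, w, hw, rfl⟩ := hC.orthDec.exists_add u
  have h12 := (HasJOn.pow_sub_one_eq_zero_iff h7 1).2 (by simp) _ hu
  rw [pow_one, LinearMap.sub_apply, sub_eq_zero, LinearEquiv.coe_coe, map_add, h3 c hc,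
    Module.End.one_apply, add_right_inj] at h12
  have h13 : Q (c + w) = Q c := by
    rw [hC.orthDec.Q_add hc hw, h.Q_eq_zero h2 hQ h1 hw h12, add_zero]
  obtain ⟨k, hk⟩ := witt_one hQ (ne_zero_of_Q_ne_zero hu0) (ne_zero_of_Q_ne_zero (h13 ▸ hu0)) h13
  have h14 := tp_map (e := (k.1 : V →ₗ[F] V)) k.1.injective k.2 U
  rw [eq_span_of_finrank h11 hu (ne_zero_of_Q_ne_zero hu0), Submodule.map_span, Set.image_singleton,
    LinearEquiv.coe_coe, hk, ← eq_span_of_finrank hC1 hc (ne_zero_of_Q_ne_zero (h13 ▸ hu0)),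
    ← eq_span_of_finrank h11 hu (ne_zero_of_Q_ne_zero hu0)] at h14
  simpa [h14, Nat.mul_mod] using h10

theorem not_el_odd (hp2 : p ≠ 2) (hQ : (polarBilin Q).Nondegenerate) {d m δ : ℕ}
    (hV : finrank F V = 2 * d) (hd : 4 ≤ d) (hm : m % 2 = 1) (hmn : m < finrank F V) :
    ¬ El hQ p (NDT Q m δ) := fun H => by
  have h2 := (two_eq_zero_iff_char (F := F)).not.2 hp2
  have h5 : 3 ≤ p := lt_of_le_of_ne hp.out.two_le hp2.symm
  obtain ⟨k, rfl | rfl⟩ := Nat.even_or_odd' d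
  swap
  · obtain ⟨o₁, o₂, j₁, j₂, h6, h7, h8, -⟩ := H.two hp2 (μ := {1, 1}) (k := k) (by simp) (by simp)
      (by omega) (by simp; omega)
    obtain ⟨o₃, o₄, j₃, j₄, h9, h10, h11, -⟩ := H.two hp2 (μ := {3, 3}) (k := k - 1) (by simp)
      (by simp) (by omega) (by simp; omega)
    rcases add_eq_pair h6 with ⟨rfl, rfl⟩ | ⟨rfl, rfl⟩ | ⟨rfl, rfl⟩ | ⟨rfl, rfl⟩ <;>
      rcases add_eq_pair h9 with ⟨rfl, rfl⟩ | ⟨rfl, rfl⟩ | ⟨rfl, rfl⟩ | ⟨rfl, rfl⟩ <;>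
      simp at h7 h10 <;> omega
  obtain ⟨C, -, hC, hC1, hC2⟩ := (exists_ndt_iff (nondegOn_top hQ) (m := 1)
    (δ := 1 + δ + if m % 4 = 1 then 0 else tpw Q + hh F) fun h => (h2 h).elim).2
    (by rw [finrank_top]; unfold Subx; omega)
  have h6 := finrank_add_finrank_perp hQ C
  obtain ⟨g, hg, h7⟩ := exists_uj h2 hQ (hC.perp hQ) (μ := {3} + Multiset.replicate (2 * (k - 1)) 2)
    (fun e he => by
      rcases Multiset.mem_add.1 he with he | he
      · simp at he; omega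
      · have := Multiset.eq_of_mem_replicate he; omega)
    ((ep_of_odd (by simp; decide)).add (ep_replicate _ 2)) (by simp; omega) ⟨3, by simp, by decide⟩
  rw [perp_perp hQ] at h7
  have h8 : UJ g ⊤ ({1, 3} + Multiset.replicate (2 * (k - 1)) 2) := by
    have := HasJOn.sup (uj_of_fixed h7) hg hC.isCompl.disjoint
    rwa [hC.isCompl.sup_eq_top, hC1, ← H77.udata_add, ← add_assoc] at this
  have key : ∀ X, NondegOn Q X → Inv g X → finrank F X % 4 = 1 → tp Q X % 2 = tp Q C % 2 := by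
    intro X h9 h10 h11
    obtain ⟨o₁, o₂, j₁, j₂, h12, h13, h14, -⟩ := h8.split_two h2 hQ (by simp) h9 h10
    rcases add_eq_pair h12 with ⟨rfl, rfl⟩ | ⟨rfl, rfl⟩ | ⟨rfl, rfl⟩ | ⟨rfl, rfl⟩
    · simp at h14; omega
    · exact tp_eq_of_one h2 hQ hC hC1 hg (by simp [Multiset.mem_replicate]) h7 h9 h13
    · simp at h14; omega
    · simp at h14; omega
  obtain ⟨W, hW, hi⟩ := H.unip hp2 h8 (fun e he => by
      rcases Multiset.mem_add.1 he with he | he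
      · simp at he; omega
      · have := Multiset.eq_of_mem_replicate he; omega) ⟨3, by simp, by decide⟩
  have h9 := ndt_perp hQ hW
  have h10 := key W hW.1 hi
  have h11 := key _ h9.1 hi.perp
  rw [hW.2.1, hW.2.2, hC2] at h10
  rw [h9.2.1, h9.2.2, hC2, hm, show (finrank F V - m) % 2 = 1 by omega] at h11
  split_ifs at h10 h11 <;> omega

end Cfsg.Agent.H28
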