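import Mathlib
import Cfsg.Agent.H28.EloUni

/-! Involutions of orthogonal groups in characteristic two and invariant subspaces. -/

set_option autoImplicit false

namespace Cfsg.Agent.H28

open H30 QuadraticMap Module

variable {F V : Type*} [Field F] [AddCommGroup V] [Module F V] {Q : QuadraticForm F V}
  {U W : Submodule F V} {g : O Q}

theorem movSp_orthSum (h : OrthDec Q U W) (k : O (Q.restrict U) × O (Q.restrict W)) :
    movSp (orthSum h k) = (movSp k.1).map U.subtype ⊔ (movSp k.2).map W.subtype := by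
  refine le_antisymm ?_ (sup_le ?_ ?_)
  · rintro _ ⟨x, rfl⟩
    obtain ⟨u, hu, w, hw, rfl⟩ := h.exists_add x
    refine Submodule.mem_sup.2 ⟨_, ⟨_, ⟨⟨u, hu⟩, rfl⟩, rfl⟩, _, ⟨_, ⟨⟨w, hw⟩, rfl⟩, rfl⟩, ?_⟩
    have := orthSum_apply_add h k ⟨u, hu⟩ ⟨w, hw⟩
    simp only [LinearMap.sub_apply, LinearEquiv.coe_coe, LinearMap.id_apply, Submodule.subtype_apply,
      Submodule.coe_sub, this]
    abel
  · rintro _ ⟨_, ⟨u, rfl⟩, rfl⟩
    exact mem_movSp.2 ⟨u, by rw [orthSum_apply_left]; rfl⟩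
  · rintro _ ⟨_, ⟨u, rfl⟩, rfl⟩
    exact mem_movSp.2 ⟨u, by rw [orthSum_apply_right]; rfl⟩

theorem ts_movSp_orthSum (h : OrthDec Q U W) (k : O (Q.restrict U) × O (Q.restrict W)) :
    (∀ u ∈ movSp (orthSum h k), Q u = 0) ↔
      (∀ u ∈ movSp k.1, Q.restrict U u = 0) ∧ ∀ u ∈ movSp k.2, Q.restrict W u = 0 := by
  rw [movSp_orthSum]
  refine ⟨fun H => ⟨fun u hu => H _ (Submodule.mem_sup_left ⟨u, hu, rfl⟩),
    fun u hu => H _ (Submodule.mem_sup_right ⟨u, hu, rfl⟩)⟩, fun H x hx => ?_⟩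
  obtain ⟨_, ⟨u, hu, rfl⟩, _, ⟨w, hw, rfl⟩, rfl⟩ := Submodule.mem_sup.1 hx
  rw [Submodule.subtype_apply, Submodule.subtype_apply, h.Q_add u.2 w.2]
  exact (congrArg₂ _ (H.1 u hu) (H.2 w hw)).trans (add_zero 0)

theorem Inv.conj {s c : O Q} (h : Inv s W) (hc : c * g * c⁻¹ = s) :
    Inv g (W.map ((c⁻¹).1 : V →ₗ[F] V)) := by
  rintro _ ⟨w, hw, rfl⟩
  refine ⟨_, h w hw, ?_⟩
  rw [← hc, LinearEquiv.coe_coe, O_mul_apply, O_mul_apply, O_inv_apply]

theorem movSp_one : movSp (1 : O Q) = ⊥ := eq_bot_iff.2 (by rintro _ ⟨v, rfl⟩; simp)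

variable [FiniteDimensional F V]

theorem finrank_movSp_orthSum (h : OrthDec Q U W) (k : O (Q.restrict U) × O (Q.restrict W)) :
    finrank F (movSp (orthSum h k)) = finrank F (movSp k.1) + finrank F (movSp k.2) := by
  rw [movSp_orthSum, finrank_sup_of_disjoint (h.1.disjoint.mono
    (Submodule.map_subtype_le _ _) (Submodule.map_subtype_le _ _)),
    Submodule.finrank_map_subtype_eq, Submodule.finrank_map_subtype_eq]

theorem inv_point_iff (h2 : (2 : F) = 0) :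
    (∃ W : Submodule F V, (finrank F W = 1 ∧ ∃ v ∈ W, Q v ≠ 0) ∧ Inv g W) ↔
      ∃ v ∈ fixSp g, Q v ≠ 0 := by
  constructor
  · rintro ⟨W, ⟨h1, v, hv, h3⟩, h4⟩
    obtain ⟨a, ha⟩ := Submodule.mem_span_singleton.1
      (eq_span_of_finrank h1 hv (ne_zero_of_Q_ne_zero h3) ▸ h4 v hv)
    have h5 := O_map g v
    rw [← ha, Q_smul] at h5
    have h6 : (a - 1) * (a - 1) = 0 := mul_right_cancel₀ h3 (by
      linear_combination h5 + (1 - a) * Q v * h2)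
    rw [sub_eq_zero.1 (mul_self_eq_zero.1 h6), one_smul] at ha
    exact ⟨v, mem_fixSp.2 ha.symm, h3⟩
  · rintro ⟨v, h1, h3⟩
    exact ⟨F ∙ v, ⟨finrank_span_singleton (ne_zero_of_Q_ne_zero h3), v,
      Submodule.mem_span_singleton_self v, h3⟩,
      inv_of_le_fixSp ((Submodule.span_singleton_le_iff_mem _ _).2 h1)⟩

variable [Fintype F]

theorem exists_alt_iff (h2 : (2 : F) = 0) (hQ : (polarBilin Q).Nondegenerate) {k : ℕ} :
    (∃ t : O Q, t * t = 1 ∧ finrank F (movSp t) = k ∧ ∀ u ∈ movSp t, Q u = 0) ↔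
      k % 2 = 0 ∧ TSx (finrank F V) (tpw Q) k := by
  rw [← tp_top, ← finrank_top F V, ← exists_ts_iff (nondegOn_top hQ), ← Nat.even_iff]
  constructor
  · rintro ⟨t, h1, rfl, h3⟩
    exact ⟨H79.even_rk_of_altType h2 hQ (H79.polar_isAlt h2) (H79.O_le_isom t.2)
      (congrArg Subtype.val h1) ((H79.altType_iff_sing h2 t).2 h3), _, le_top, rfl, h3⟩
  · rintro ⟨h1, U, -, rfl, h3⟩
    obtain ⟨t, h4, rfl, -⟩ := H79.exists_invol_O_alt h2 hQ U h3 h1
    exact ⟨t, Subtype.ext h4, rfl, h3⟩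

theorem exists_nonalt (h2 : (2 : F) = 0) (hQ : (polarBilin Q).Nondegenerate) {k : ℕ}
    (h : 2 * k ≤ finrank F V) : ∃ t : O Q, t * t = 1 ∧ finrank F (movSp t) = k ∧
      ((∀ u ∈ movSp t, Q u = 0) → k = 0) := by
  obtain rfl | h0 := k.eq_zero_or_pos
  · exact ⟨1, one_mul 1, by rw [movSp_one, finrank_bot], fun _ => rfl⟩
  · obtain ⟨t, h4, h5, h6⟩ := H79.exists_invol_O h2 hQ h0 h
    exact ⟨t, Subtype.ext h4, h5, fun h => (h6 ((H79.altType_iff_sing h2 t).2 h)).elim⟩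

theorem fix_of_sum (h2 : (2 : F) = 0) (hQ : (polarBilin Q).Nondegenerate) {m δ : ℕ}
    (hW : NDT Q m δ W) (hg : g * g = 1) {s : O (Q.restrict W)} {t : O (Q.restrict (perp Q W))}
    (hs : s * s = 1) (ht : t * t = 1)
    (h1 : finrank F (movSp g) = finrank F (movSp s) + finrank F (movSp t))
    (h3 : (∀ u ∈ movSp g, Q u = 0) ↔ (∀ u ∈ movSp s, Q.restrict W u = 0) ∧
      ∀ u ∈ movSp t, Q.restrict (perp Q W) u = 0) : ∃ W, NDT Q m δ W ∧ Inv g W := by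
  obtain ⟨c, hc⟩ := isConj_iff.1 ((H79.isConj_O_iff h2 hQ g (orthSum hW.1.orthDec (s, t))
    (congrArg Subtype.val hg) (congrArg Subtype.val (show _ * _ = (1 : O Q) by
      rw [← map_mul, Prod.mk_mul_mk, hs, ht]; exact map_one _))).2
    ⟨h1.trans (finrank_movSp_orthSum hW.1.orthDec (s, t)).symm, by
      rw [H79.altType_iff_sing h2, H79.altType_iff_sing h2]
      exact h3.trans (ts_movSp_orthSum hW.1.orthDec (s, t)).symm⟩)
  refine ⟨_, hW.map c⁻¹, Inv.conj (fun v hv => ?_) hc⟩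
  rw [orthSum_apply_left hW.1.orthDec _ ⟨v, hv⟩]
  exact Subtype.mem _

/-- Every involution of alternating type fixes a subspace of dimension `m`, type `δ`. -/
def AI (n ε m δ : ℕ) : Prop := ∀ k, 0 < k → k % 2 = 0 → TSx n ε k →
  ∃ k₁ k₂, k₁ + k₂ = k ∧ k₁ % 2 = 0 ∧ k₂ % 2 = 0 ∧ TSx m δ k₁ ∧ TSx (n - m) (ε + δ) k₂

theorem char_two_nd (h2 : (2 : F) = 0) (hQ : (polarBilin Q).Nondegenerate) {m δ : ℕ}
    (hm : m % 2 = 0) (h0 : 0 < m) (hmn : m < finrank F V) :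
    El hQ 2 (NDT Q m δ) ↔ AI (finrank F V) (tpw Q) m δ := by
  have key : ∀ {W}, NDT Q m δ W → ∀ k₁ k₂,
      ((∃ t : O (Q.restrict W), t * t = 1 ∧ finrank F (movSp t) = k₁ ∧
        ∀ u ∈ movSp t, Q.restrict W u = 0) ↔ k₁ % 2 = 0 ∧ TSx m δ k₁) ∧
      ((∃ t : O (Q.restrict (perp Q W)), t * t = 1 ∧ finrank F (movSp t) = k₂ ∧
        ∀ u ∈ movSp t, Q.restrict (perp Q W) u = 0) ↔
        k₂ % 2 = 0 ∧ TSx (finrank F V - m) (tpw Q + δ) k₂) := fun {W} hW k₁ k₂ => by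
    have h1 := ndt_perp hQ hW
    have h3 := h1.2.2
    rw [hm, zero_mul, mul_zero, add_zero] at h3
    rw [exists_alt_iff h2 hW.1.restrict, exists_alt_iff h2 h1.1.restrict, hW.2.1, h1.2.1]
    exact ⟨and_congr_right fun _ => ⟨fun h => h.congr hW.2.2, fun h => h.congr hW.2.2.symm⟩,
      and_congr_right fun _ => ⟨fun h => h.congr h3, fun h => h.congr h3.symm⟩⟩
  rw [el_two_char hQ h2]
  constructor
  · intro H k h3 h4 h5
    obtain ⟨g, h6, rfl, h7⟩ := (exists_alt_iff h2 hQ).2 ⟨h4, h5⟩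
    obtain ⟨W, hW, hi⟩ := H g (by rw [dickson_apply, (Nat.even_iff.2 h4).neg_one_pow]) h6 (by
      rintro rfl; rw [movSp_one, finrank_bot] at h3; omega)
    obtain ⟨⟨s, t⟩, rfl⟩ := exists_orthSum_eq hQ hW.1.orthDec g hi
    rw [← map_mul, ← map_one (orthSum hW.1.orthDec), (orthSum_injective _).eq_iff,
      Prod.mk_mul_mk, Prod.mk_eq_one] at h6
    rw [ts_movSp_orthSum] at h7
    have h8 := (key hW _ 0).1.1 ⟨s, h6.1, rfl, h7.1⟩
    have h9 := (key hW 0 _).2.1 ⟨t, h6.2, rfl, h7.2⟩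
    exact ⟨_, _, (finrank_movSp_orthSum _ (s, t)).symm, h8.1, h9.1, h8.2, h9.2⟩
  · intro H g _ hg h1
    obtain ⟨W, -, hW⟩ := (exists_ndt_iff (nondegOn_top hQ) (δ := δ)
      fun _ => Nat.even_iff.2 hm).2 (by rw [finrank_top]; unfold Subx; omega)
    have h3 := finrank_movSp_pos h1
    by_cases ha : ∀ u ∈ movSp g, Q u = 0
    · obtain ⟨h4, h5⟩ := (exists_alt_iff h2 hQ).1 ⟨g, hg, rfl, ha⟩
      obtain ⟨k₁, k₂, h6, h7, h8, h9, h10⟩ := H _ h3 h4 h5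
      obtain ⟨s, hs, rfl, hs'⟩ := (key hW k₁ 0).1.2 ⟨h7, h9⟩
      obtain ⟨t, ht, rfl, ht'⟩ := (key hW 0 k₂).2.2 ⟨h8, h10⟩
      exact fix_of_sum h2 hQ hW hg hs ht h6.symm (iff_of_true ha ⟨hs', ht'⟩)
    · have h4 : 2 * finrank F (movSp g) ≤ finrank F V :=
        H79.two_mul_rk_le h2 hQ (H79.O_le_isom g.2) (congrArg Subtype.val hg)
      have h5 := ndt_perp hQ hW
      have h6 := Nat.even_iff.1 (even_finrank_of_two h2 h5.1)
      obtain ⟨s, hs, h7, hs'⟩ := exists_nonalt h2 hW.1.restrict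
        (k := min (finrank F (movSp g)) (m / 2)) (by rw [hW.2.1]; omega)
      obtain ⟨t, ht, h8, -⟩ := exists_nonalt h2 h5.1.restrict
        (k := finrank F (movSp g) - min (finrank F (movSp g)) (m / 2)) (by
          rw [h5.2.1] at h6 ⊢; omega)
      exact fix_of_sum h2 hQ hW hg hs ht (by omega)
        (iff_of_false ha fun h => by have := hs' h.1; omega)

theorem ai_iff {d ε m δ : ℕ} (hd : 4 ≤ d) (hm : m % 2 = 0) (h0 : 0 < m) (hmn : m < 2 * d)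
    (hε : ε < 2) (hδ : δ < 2) : AI (2 * d) ε m δ ↔
      (ε = 0 → δ = 0) ∧ ((d - ε) % 2 = 1 ∨ (m / 2 - δ) % 2 = 0) := by
  unfold AI TSx
  constructor
  · intro H
    obtain ⟨k₁, k₂, h⟩ := H ((d - ε) / 2 * 2) (by omega) (by omega) (by omega)
    omega
  · exact fun H k _ _ _ => ⟨min k ((m / 2 - δ) / 2 * 2), k - min k ((m / 2 - δ) / 2 * 2), by omega⟩

theorem char_two_point (h2 : (2 : F) = 0) (hQ : (polarBilin Q).Nondegenerate) {d : ℕ}
    (hV : finrank F V = 2 * d) (hd : 0 < d) :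
    El hQ 2 (fun W => finrank F W = 1 ∧ ∃ v ∈ W, Q v ≠ 0) ↔ d % 2 = 1 ∨ tpw Q % 2 = 1 := by
  rw [el_two_char hQ h2]
  simp only [inv_point_iff h2]
  constructor
  · intro H
    by_contra h
    obtain ⟨g, h6, h7, h8⟩ := (exists_alt_iff h2 hQ (k := d)).2 (by unfold TSx; omega)
    obtain ⟨v, h9, h10⟩ := H g (by rw [dickson_apply, h7, (Nat.even_iff.2 (by omega)).neg_one_pow])
      h6 (by rintro rfl; rw [movSp_one, finrank_bot] at h7; omega)
    have h11 := finrank_movSp_add_finrank_fixSp g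
    rw [← Submodule.eq_of_le_of_finrank_eq (show movSp g ≤ fixSp g from
      perp_movSp hQ g ▸ H79.le_perp_of_sing h8) (by omega)] at h9
    exact h10 (h8 v h9)
  · intro H g _ hg _
    rw [← perp_movSp hQ]
    by_cases ha : ∀ u ∈ movSp g, Q u = 0
    · have h4 := (exists_alt_iff h2 hQ).1 ⟨g, hg, rfl, ha⟩
      exact H79.exists_nonsingular_perp hQ (by unfold TSx at h4; omega)
    · push Not at ha
      obtain ⟨v, hv, hv0⟩ := ha
      exact ⟨v, mem_perp.2 fun w hw => H79.nil_isotropic h2 (H79.O_le_isom g.2)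
        (congrArg Subtype.val hg) hw hv, hv0⟩

theorem char_two_point_odd (h2 : (2 : F) = 0) (hQ : (polarBilin Q).Nondegenerate) {r : ℕ}
    [hr : Fact r.Prime] (hr2 : r ≠ 2) (hV : 0 < finrank F V)
    (h : r ∣ Nat.card {W : Submodule F V // finrank F W = 1 ∧ ∃ v ∈ W, Q v ≠ 0}) :
    ¬ El hQ r (fun W => finrank F W = 1 ∧ ∃ v ∈ W, Q v ≠ 0) := by
  have : CharP F 2 := ringChar.of_eq (ringChar_eq_two_iff.2 h2)
  have h0 := orderOf_card_pos (F := F) hr2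
  have := CharP.of_ringHom_of_ne_zero (algebraMap F (AlgebraicClosure F)) 2 two_ne_zero
  obtain ⟨P, h1, hP, h3⟩ := exists_pgroup_O (Q := Q) r _ (fun g W h => ⟨by
      rw [LinearEquiv.finrank_map_eq, h.1], h.2.elim fun v hv =>
        ⟨_, ⟨v, hv.1, rfl⟩, (g.2 v).trans_ne hv.2⟩⟩) (fun U W hU hW => by
      obtain ⟨hU1, u, hu, hu0⟩ := hU
      obtain ⟨hW1, w, hw, hw0⟩ := hW
      obtain ⟨a, ha⟩ := isSquare_of_two_eq_zero h2 (Q w * (Q u)⁻¹)
      have h4 : Q (a • u) = Q w := by rw [Q_smul, ← ha, inv_mul_cancel_right₀ hu0]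
      obtain ⟨k, hk⟩ := witt_one hQ (ne_zero_of_Q_ne_zero (h4 ▸ hw0)) (ne_zero_of_Q_ne_zero hw0) h4
      exact ⟨k, by rw [eq_span_of_finrank hU1 (U.smul_mem a hu) (ne_zero_of_Q_ne_zero (h4 ▸ hw0)),
        Submodule.map_span, Set.image_singleton, LinearEquiv.coe_coe, hk,
        ← eq_span_of_finrank hW1 hw (ne_zero_of_Q_ne_zero hw0)]⟩) h
  obtain ⟨hC, a, h4, h5, -, h7⟩ := fixS_type hQ hr2 hr2 rfl hP h1
  have h8 : H77.fixS P = ⊥ := by
    by_contra h8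
    obtain ⟨v, hv, hv0⟩ := hC.exists_Q_ne_zero h8
    exact h3 (F ∙ v) ⟨finrank_span_singleton (ne_zero_of_Q_ne_zero hv0), v,
      Submodule.mem_span_singleton_self v, hv0⟩
      (H77.inv_of_le_fixS ((Submodule.span_singleton_le_iff_mem _ _).2 hv))
  rw [h8, finrank_bot] at h4
  obtain ⟨s, hs⟩ := exists_rd (L := AlgebraicClosure F) hr2 hr2 rfl h0 a
  obtain ⟨g, h6, h9, -⟩ := exists_elt_of_rd hQ hr2 rfl h0 hs h5 h7
  have h10 := finrank_movSp_add_finrank_fixSp g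
  rw [el_odd hQ (hr.out.odd_of_ne_two hr2)]
  intro H
  obtain ⟨v, hv, hv0⟩ := (inv_point_iff h2).1 (H g h6 (by
    rintro rfl; rw [movSp_one, finrank_bot] at h9; omega))
  rw [Submodule.finrank_eq_zero.1 (show finrank F (fixSp g) = 0 by omega)] at hv
  exact ne_zero_of_Q_ne_zero hv0 hv

end Cfsg.Agent.H28
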