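import Mathlib
import Cfsg.Agent.H28.EloInv
import Cfsg.Agent.H28.EloTwo
import Cfsg.Agent.H28.EloAr
import Cfsg.Agent.H77.ElusSim
import Cfsg.Agent.H77.ElusTen
import Cfsg.Agent.H31.UniD

/-! Orthogonal similarities: elements of prime order. -/

set_option autoImplicit false

namespace Cfsg.Agent.H28

open H30 QuadraticMap Module
open H76 (IsEForm Pres isEForm_polar Adm frob twist FAdm ujord)
open H77 (HasJ HasJOn)
open scoped Matrix

section Abs

variable {F V V' : Type*} [Field F] [Fintype F] [AddCommGroup V] [Module F V]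
  [FiniteDimensional F V] [AddCommGroup V'] [Module F V'] [FiniteDimensional F V']
  {Q : QuadraticForm F V} {Q' : QuadraticForm F V'}

theorem exists_sim_sq (h2 : (2 : F) ≠ 0) (hQ : (polarBilin Q).Nondegenerate) {m : ℕ}
    (hV : finrank F V = 2 * m) (z : F) :
    ∃ g : End F V, g ^ 2 = z • 1 ∧ ∀ v, Q (g v) = z * Q v := by
  haveI := invertibleOfNonzero h2
  have hS : LinearMap.IsSymm (polarBilin Q) := ⟨fun x y => polar_comm Q x y⟩
  obtain ⟨b₀, hb₀⟩ := LinearMap.BilinForm.exists_orthogonal_basis (B := polarBilin Q) hS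
  let b : Basis (Fin m ⊕ Fin m) F V :=
    b₀.reindex (Fintype.equivOfCardEq (by simp [hV, two_mul]))
  have hb : ∀ i j, i ≠ j → polarBilin Q (b i) (b j) = 0 := fun i j h => by
    simp only [b, Basis.reindex_apply]
    exact hb₀ ((Equiv.injective _).ne h)
  have hb' : ∀ i, polarBilin Q (b i) (b i) ≠ 0 := fun i h => b.ne_zero i (hQ.1 _ fun y => by
    have : polarBilin Q (b i) = 0 := b.ext fun j => by
      by_cases hij : i = j
      · rw [← hij, h]; rfl
      · rw [hb i j hij]; rfl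
    rw [this]; rfl)
  choose s t hst using fun i : Fin m => H31.exists_sq_add_sq_add (a := (1 : F)) one_ne_zero
    (mul_ne_zero (hb' (.inl i)) (hb' (.inr i))) (-z)
  let g : End F V := b.constr F (Sum.elim
    (fun i => s i • b (.inl i) + (polarBilin Q (b (.inl i)) (b (.inl i)) * t i) • b (.inr i))
    fun i => (polarBilin Q (b (.inr i)) (b (.inr i)) * t i) • b (.inl i) - s i • b (.inr i))
  have g1 : ∀ i, g (b (.inl i)) =
    s i • b (.inl i) + (polarBilin Q (b (.inl i)) (b (.inl i)) * t i) • b (.inr i) := fun i => by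
    simp [g]
  have g2 : ∀ i, g (b (.inr i)) =
    (polarBilin Q (b (.inr i)) (b (.inr i)) * t i) • b (.inl i) - s i • b (.inr i) := fun i => by
    simp [g]
  have h1 : g ^ 2 = z • 1 := b.ext fun i => by
    rcases i with i | i <;>
    · simp only [_root_.sq, End.mul_apply, g1, g2, map_add, map_sub, map_smul,
        LinearMap.smul_apply, End.one_apply]
      match_scalars
      all_goals first | ring1 | linear_combination hst i
  have h3 : ∀ u v, polarBilin Q (g u) v = polarBilin Q u (g v) := by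
    have : (polarBilin Q).comp g = (polarBilin Q).compl₂ g := LinearMap.ext_basis b b fun i j => by
      rcases i with i | i <;> rcases j with j | j <;> by_cases h : i = j <;>
      simp [g1, g2, h, -polarBilin_apply_apply, hb] <;> ring
    exact fun u v => congrArg (fun f => f u v) this
  refine ⟨g, h1, fun v => mul_left_cancel₀ h2 ?_⟩
  have h4 := h3 v (g v)
  rw [← End.mul_apply, ← _root_.sq, h1] at h4
  simp only [LinearMap.smul_apply, End.one_apply, map_smul, polarBilin_apply_apply, polar_self,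
    smul_eq_mul, nsmul_eq_mul] at h4
  push_cast at h4
  linear_combination h4

theorem exists_iso_smul_odd (hQ : (polarBilin Q).Nondegenerate)
    (hQ' : (polarBilin Q').Nondegenerate) {m : ℕ} (hV : finrank F V = 2 * m + 1)
    (hV' : finrank F V' = 2 * m + 1) :
    ∃ (c : F) (e : V ≃ₗ[F] V'), c ≠ 0 ∧ ∀ v, Q' (e v) = c * Q v := by
  obtain ⟨-, c, hc, e, he⟩ := H79.iso_odd hV Q fun x hx => hQ.1 x hx
  obtain ⟨-, c', hc', e', he'⟩ := H79.iso_odd hV' Q' fun x hx => hQ'.1 x hx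
  let s : Unit ⊕ (Fin m ⊕ Fin m) → Fˣ := Sum.elim (fun _ => 1)
    (Sum.elim (fun _ => Units.mk0 (c' / c) (div_ne_zero hc' hc)) fun _ => 1)
  refine ⟨c' / c, (e.trans (LinearEquiv.piCongrRight fun k => LinearEquiv.smulOfUnit (s k))).trans
    e'.symm, div_ne_zero hc' hc, fun v => ?_⟩
  rw [← he', ← he]
  simp [H79.qOddC_apply, s, LinearEquiv.smulOfUnit, Units.smul_def, mul_add, Finset.mul_sum,
    mul_assoc]
  field_simp

variable {L : Type*} [Field L] [Algebra F L] [IsAlgClosed L] {s : Multiset (Lˣ × ℕ)}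

theorem exists_O_of_fadm_odd [Algebra.IsAlgebraic F L] (hQ : (polarBilin Q).Nondegenerate)
    (ho : Odd (finrank F V)) (h : FAdm Odd (Fintype.card F : ℤ) (finrank F V) s) :
    ∃ g : End F V, (∀ v, Q (g v) = Q v) ∧ HasJ L g s := by
  have h2 := two_ne_zero_of_odd hQ ho
  obtain ⟨k, g, B, h1, -, h3, rfl⟩ := h.real_sym h2
  obtain ⟨m, hm⟩ := ho
  have hS : ∀ v w, B w v = B v w := fun v w => by simpa using h1.symm v w
  have h4 : ∀ v w, polar (LinearMap.BilinMap.toQuadraticMap B) v w = 2 * B v w := fun v w => by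
    rw [LinearMap.BilinMap.polar_toQuadraticMap, hS v w, two_mul]
  obtain ⟨c, e, hc, he⟩ := exists_iso_smul_odd (Q := LinearMap.BilinMap.toQuadraticMap B) (Q' := Q)
    ⟨fun x hx => h1.nondegenerate.1 x fun y => by simpa [h4, h2] using hx y,
      fun x hx => h1.nondegenerate.2 x fun y => by simpa [h4, h2] using hx y⟩ hQ
    (((H77.hasJ_ujord L g).wt_eq.symm.trans h.adm.wt_eq).trans hm) hm
  refine ⟨e.conj (Matrix.toLin' (g : Matrix (Fin k) (Fin k) F)), fun v => ?_,
    (H77.hasJ_ujord L g).of_sim ⟨e.symm, fun v => by simp⟩⟩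
  obtain ⟨v, rfl⟩ := e.surjective v
  simp only [LinearEquiv.conj_apply_apply, e.symm_apply_apply, he,
    LinearMap.BilinMap.toQuadraticMap_apply]
  rw [h3]

theorem exists_O_pm (h2 : (2 : F) ≠ 0) (hQ : (polarBilin Q).Nondegenerate) {a b : ℕ}
    (h : a + b = finrank F V) : ∃ g : End F V, (∀ v, Q (g v) = Q v) ∧
      HasJ L g (Multiset.replicate a (1, 1) + Multiset.replicate b (-1, 1)) := by
  obtain ⟨M, -, h1, h3⟩ := H77.sym_exists_nd_le (isEForm_polar hQ) h2
    (H77.ef_nondegOn_top (isEForm_polar hQ)) (m := b) (by rw [finrank_top]; omega)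
  obtain ⟨g, h4, h5⟩ := exists_invol_mov h2 hQ (M := M) h1
  have h6 : finrank F (movSp g) + finrank F (fixSp g) = finrank F V :=
    LinearMap.finrank_range_add_finrank_ker _
  have h7 := H77.hasJOn_of_fixed (L := L) (f := (g.1 : V →ₗ[F] V)) (W := fixSp g)
    fun x hx => mem_fixSp.1 hx
  have h8 := H77.hasJOn_of_smul (L := L) (f := (g.1 : V →ₗ[F] V)) (W := movSp g) (c := -1)
    (b := -1) (by simp) fun x hx => by simpa using neg_of_mem_movSp h4 hx
  rw [h5, h3] at h6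
  rw [show finrank F (fixSp g) = a by omega] at h7
  rw [show finrank F (movSp g) = b by rw [h5, h3]] at h8
  refine ⟨(g.1 : V →ₗ[F] V), g.2, h7.add_of_isCompl h8 ⟨disjoint_invol h2 h4, ?_⟩⟩
  rw [codisjoint_iff]
  refine Submodule.eq_top_of_finrank_eq ?_
  rw [finrank_sup_of_disjoint (disjoint_invol h2 h4), h5, h3]
  omega

theorem fix_ne_bot {r d : ℕ} [hr : Fact r.Prime] (hQ : (polarBilin Q).Nondegenerate)
    (hV : finrank F V = 2 * d) (hr2 : r ≠ 2) (h0 : 0 < orderOf (Fintype.card F : ZMod r))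
    (h : (r : ℤ) ∣ (Fintype.card F : ℤ) ^ d + (-1) ^ tpw Q) :
    cc (orderOf (Fintype.card F : ZMod r)) ∣ 2 * d ∧ ∀ g : O Q, g ^ r = 1 → fixSp g ≠ ⊥ := by
  have e : ∀ k, (r : ℤ) ∣ (Fintype.card F : ℤ) ^ k - 1 ↔
      orderOf (Fintype.card F : ZMod r) ∣ k := fun k => by
    simpa using H76.int_dvd_pow_sub_one_iff (r := r) (Q := Fintype.card F) (D := k)
  have h1 : orderOf (Fintype.card F : ZMod r) ∣ 2 * d := (e _).1 (by
    have : ((-1 : ℤ) ^ tpw Q) ^ 2 = 1 := by rw [← pow_mul, mul_comm, pow_mul]; simp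
    rw [mul_comm, pow_mul, ← this, sq_sub_sq]
    exact h.mul_right _)
  have h3 : orderOf (Fintype.card F : ZMod r) ∣ d ↔ tpw Q = 1 := by
    rw [← e]
    have := tpw_lt Q
    obtain h4 | h4 : tpw Q = 0 ∨ tpw Q = 1 := by omega
    · rw [h4] at h ⊢
      refine iff_of_false (fun h5 => hr2 ((Nat.prime_dvd_prime_iff_eq hr.out Nat.prime_two).1 ?_))
        (by omega)
      have := h.sub h5
      norm_num at this
      exact_mod_cast this
    · rw [h4] at h ⊢
      exact iff_of_true (by simpa [sub_eq_add_neg] using h) rfl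
  generalize hi : orderOf (Fintype.card F : ZMod r) = i at *
  refine ⟨?_, fun g hg hf => ?_⟩
  · rcases cc_ss i with ⟨-, -, h4, -⟩ | ⟨-, h4, h5, -⟩
    · rwa [h4]
    · rw [h5]
      exact Nat.mul_dvd_mul_left _ ((Nat.coprime_two_right.2 h4).dvd_of_dvd_mul_left h1)
  obtain ⟨a, h4, h5⟩ := free_type_elt hr2 hi h0 hg (M := ⊤) (nondegOn_top hQ)
    (fun _ _ => trivial) (by simp [hf])
  rw [finrank_top, hV] at h4
  rw [tp_top] at h5
  have := tpw_lt Q
  rcases cc_ss i with ⟨⟨j, rfl⟩, -, h6, h7⟩ | ⟨-, h8, h6, h7⟩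
  · rw [h6] at h4
    rw [h7, one_mul] at h5
    obtain rfl : d = j * a := by nlinarith
    rw [← two_mul, mul_comm 2, Nat.mul_dvd_mul_iff_left (by omega)] at h3
    omega
  · rw [h6] at h4
    rw [h7] at h5
    have := h3.1 ⟨a, by nlinarith⟩
    omega

end Abs

section Mat

variable {F : Type*} [Field F] [Fintype F] {L : Type*} [Field L] [Algebra F L] [IsAlgClosed L]
  {s : Multiset (Lˣ × ℕ)} {ι : Type} [Fintype ι] [DecidableEq ι] {Q : QuadraticForm F (ι → F)}

omit [Fintype F] in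
theorem exists_mem_qsim {g : End F (ι → F)} {c : F} (hc : c ≠ 0) (hg : ∀ v, Q (g v) = c * Q v)
    (h : HasJ L g s) : ∃ h ∈ Geo.quadSimilarityGroup ⇑Q, ujord L h = s := by
  obtain ⟨x, rfl⟩ := H77.exists_gl_toLin' h.isUnit
  exact ⟨x, ⟨Units.mk0 c hc, hg⟩, h.ujord_eq⟩

theorem exists_mem_qsim_twist [Algebra.IsAlgebraic F L] {d : Lˣ}
    (hd : d ^ (Fintype.card F : ℤ) = d) {g : End F (ι → F)} (hg : ∀ v, Q (g v) = Q v)
    (h : HasJ L g (twist d⁻¹ s)) : ∃ h ∈ Geo.quadSimilarityGroup ⇑Q, ujord L h = s := by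
  obtain ⟨b, hb⟩ := H77.exists_algebraMap_eq hd
  have h3 := h.smul hb.symm
  rw [H77.twist_twist, mul_inv_cancel, H77.twist_one] at h3
  refine exists_mem_qsim (c := b * b) (mul_self_ne_zero.mpr ?_) (fun v => ?_) h3
  · rintro rfl; exact d.ne_zero (by rw [← hb, map_zero])
  · rw [LinearMap.smul_apply, Q.map_smul, hg, smul_eq_mul]

omit [Fintype F] in
theorem polar_of_qsim {x : GL ι F} {c : F} (hc : ∀ v, Q ((x : Matrix ι ι F) *ᵥ v) = c * Q v)
    (u v : ι → F) : polarBilin Q ((x : Matrix ι ι F) *ᵥ u) ((x : Matrix ι ι F) *ᵥ v) =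
      c * polarBilin Q u v := by
  simp only [polarBilin_apply_apply, polar, ← Matrix.mulVec_add, hc]
  ring

theorem exists_of_dvd_index_O {n r : ℕ} {Q : QuadraticForm F (Fin n → F)}
    (hQ : (polarBilin Q).Nondegenerate) (hn : 1 ≤ n) (hr : r.Prime) (hrq : ¬ r ∣ Fintype.card F)
    (h : r ∣ (Geo.quadSimilarityGroup ⇑Q).relIndex (Geo.specialLinear (Fin n) F)) :
    (∃ i, Odd i ∧ i ≤ n ∧ (r : ℤ) ∣ (Fintype.card F : ℤ) ^ i - 1) ∨
      ∃ d, n = 2 * d ∧ (r : ℤ) ∣ (Fintype.card F : ℤ) ^ d + (-1) ^ tpw Q := by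
  have h1 : Nat.card (O Q) ∣ Nat.card (Geo.quadSimilarityGroup ⇑Q) :=
    Subgroup.card_dvd_of_injective ((toGL Q).codRestrict _ fun g => ⟨1, fun v => by
        rw [toGL_mulVec]
        exact (g.2 v).trans (one_mul _).symm⟩)
      fun u v huv => toGL_injective (congrArg (·.1) huv)
  have h2 := Int.natCast_dvd_natCast.mpr (H77.relIndex_mul_dvd_card_GL h1)
  obtain ⟨e, h3⟩ := H77.card_GL_int (F := F) n
  have hp := Nat.prime_iff_prime_int.mp hr
  have hq : ¬ (r : ℤ) ∣ (Fintype.card F : ℤ) ^ e := fun h =>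
    hrq (Int.natCast_dvd_natCast.mp (hp.dvd_of_dvd_pow h))
  have h0 : ∀ i, i ≠ 0 → (Fintype.card F : ℤ) ^ i - 1 ≠ 0 := fun i hi => sub_ne_zero.mpr
    (H77.pow_ne_one_of_two_le (Q := Fintype.card F) Fintype.one_lt_card hi)
  have hP : ∀ m, ∏ i ∈ Finset.range m, ((Fintype.card F : ℤ) ^ (2 * (i + 1)) - 1) ≠ 0 := fun m =>
    Finset.prod_ne_zero_iff.mpr fun i _ => h0 _ (by omega)
  have hA : ∀ m, 2 * m ≤ n + 1 →
      (r : ℤ) ∣ ∏ i ∈ Finset.range m, ((Fintype.card F : ℤ) ^ (2 * i + 1) - 1) →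
      ∃ i, Odd i ∧ i ≤ n ∧ (r : ℤ) ∣ (Fintype.card F : ℤ) ^ i - 1 := fun m hm h => by
    obtain ⟨i, hi, h4⟩ := (hp.dvd_finsetProd_iff _).mp h
    exact ⟨2 * i + 1, odd_two_mul_add_one i, by have := Finset.mem_range.mp hi; omega, h4⟩
  have key : ∀ a b c : ℤ, c ≠ 0 → (Nat.card (O Q) : ℤ) = a * c →
      (Nat.card (GL (Fin n) F) : ℤ) = (Fintype.card F : ℤ) ^ e * b * c → (r : ℤ) ∣ b := by
    intro a b c hc h4 h5
    rw [Nat.cast_mul, h4, h5, ← mul_assoc, mul_dvd_mul_iff_right hc] at h2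
    exact (hp.dvd_or_dvd (((Int.natCast_dvd_natCast.mpr h).mul_right _).trans h2)).resolve_left hq
  obtain ⟨m, rfl | rfl⟩ := n.even_or_odd'
  · obtain ⟨m, rfl⟩ : ∃ k, m = k + 1 := ⟨m - 1, by omega⟩
    have hV : finrank F (Fin (2 * (m + 1)) → F) = 2 * m + 2 := finrank_fin_fun F
    have h4 : (Nat.card (O Q) : ℤ) = 2 * (Fintype.card F : ℤ) ^ ((m + 1) * m) *
        (((Fintype.card F : ℤ) ^ (m + 1) - (-1) ^ tpw Q) *
          ∏ i ∈ Finset.range m, ((Fintype.card F : ℤ) ^ (2 * (i + 1)) - 1)) := by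
      have h5 := tpw_eq_zero_iff hQ ⟨m + 1, by omega⟩
      have h6 := tpw_lt Q
      by_cases hp : H79.IsPlus (F := F) Q
      · rw [card_O_plus_int hQ hV hp, h5.2 hp, Nat.card_eq_fintype_card]; ring
      · rw [card_O_minus_int hQ hV hp, show tpw Q = 1 by have := mt h5.1 hp; omega,
          Nat.card_eq_fintype_card]; ring
    have h5 : (Fintype.card F : ℤ) ^ (2 * m + 1 + 1) - 1 =
        ((Fintype.card F : ℤ) ^ (m + 1) + (-1) ^ tpw Q) *
          ((Fintype.card F : ℤ) ^ (m + 1) - (-1) ^ tpw Q) := by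
      have : ((-1 : ℤ) ^ tpw Q) ^ 2 = 1 := by rw [← pow_mul, mul_comm, pow_mul]; simp
      linear_combination this
    have h6 := key _ ((∏ i ∈ Finset.range (m + 1), ((Fintype.card F : ℤ) ^ (2 * i + 1) - 1)) *
      ((Fintype.card F : ℤ) ^ (m + 1) + (-1) ^ tpw Q)) _
      (mul_ne_zero (right_ne_zero_of_mul (h5 ▸ h0 _ (by omega))) (hP m)) h4 (by
        rw [h3, H77.prod_range_two_mul, Finset.prod_range_succ (fun i => _ ^ (2 * i + 1 + 1) - 1),
          h5]
        simp only [mul_add, mul_one, add_assoc, one_add_one_eq_two]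
        ring)
    exact (hp.dvd_or_dvd h6).imp (hA _ (by omega)) fun h => ⟨m + 1, rfl, h⟩
  · refine Or.inl (hA (m + 1) (by omega) (key _ _ _ (hP m)
      (by rw [card_O_odd_int hQ (finrank_fin_fun F), Nat.card_eq_fintype_card]) ?_))
    rw [h3, Finset.prod_range_succ, H77.prod_range_two_mul, Finset.prod_range_succ]
    simp only [mul_add, mul_one, add_assoc, one_add_one_eq_two]
    ring

end Mat

end Cfsg.Agent.H28
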