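import Mathlib

/-!
# Fixed spaces of elements normalising an extraspecial group
-/

set_option autoImplicit false

namespace Cfsg.Agent.H28.Ee

open Module LinearMap
open scoped commutatorElement

section Per

variable {A : Type*} [AddCommGroup A]

/-- forward difference -/
def dl (f : ℕ → A) (j : ℕ) : A := f (j + 1) - f j

theorem dl_per {f : ℕ → A} {m : ℕ} (h : ∀ j, f (j + m) = f j) (j : ℕ) : dl f (j + m) = dl f j := by
  rw [dl, dl, add_right_comm, h, h]

theorem dl_tor {f : ℕ → A} {r : ℕ} (h : ∀ j, r • f j = 0) (j : ℕ) : r • dl f j = 0 := by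
  rw [dl, smul_sub, h, h, sub_zero]

theorem zero_of_cop {a : A} {m r : ℕ} (h : m.Coprime r) (h1 : m • a = 0) (h2 : r • a = 0) : a = 0 :=
  AddMonoid.addOrderOf_eq_one_iff.1 (Nat.eq_one_of_dvd_coprimes h
    (addOrderOf_dvd_of_nsmul_eq_zero h1) (addOrderOf_dvd_of_nsmul_eq_zero h2))

theorem dl_zero {f : ℕ → A} {m r : ℕ} (hc : m.Coprime r) (h : ∀ j, f (j + m) = f j)
    (hr : ∀ j, r • f j = 0) (h2 : ∀ j, dl (dl f) j = 0) (j : ℕ) : dl f j = 0 := by
  have h3 : ∀ j, dl f j = dl f 0 := fun j => by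
    induction j with
    | zero => rfl
    | succ j ih => exact (sub_eq_zero.1 (h2 j)).trans ih
  have h4 : ∀ j, f j = f 0 + j • dl f 0 := fun j => by
    induction j with
    | zero => simp
    | succ j ih => rw [succ_nsmul, ← add_assoc, ← ih, ← h3 j, dl, add_sub_cancel]
  have h5 := h 0
  rw [zero_add, h4 m, add_eq_left] at h5
  exact (h3 j).trans (zero_of_cop hc h5 (dl_tor hr 0))

theorem two_smul_zero {u : ℕ → A} {m : ℕ} (hm : Odd m) (h : ∀ j, u (j + m) = u j)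
    (h1 : ∀ j, u (j + 1) = -u j) (j : ℕ) : 2 • u j = 0 := by
  obtain ⟨k, rfl⟩ := hm
  have h2 : ∀ k, u (j + 2 * k) = u j := fun k => by
    induction k with
    | zero => rfl
    | succ k ih => rw [mul_add, mul_one, ← add_assoc, h1 (_ + 1), h1, neg_neg, ih]
  have := h j
  rw [← add_assoc, h1, h2] at this
  rw [two_smul, ← neg_eq_iff_add_eq_zero, this]

end Per

section Lin

variable {F V : Type*} [Field F] [AddCommGroup V] [Module F V] [FiniteDimensional F V]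

omit [FiniteDimensional F V] in
theorem semis {h : End F V} {r : ℕ} (hr : (r : F) ≠ 0) (h1 : h ^ r = 1) {v : V}
    (hv : h (h v - v) = h v - v) : h v = v := by
  have h2 : ∀ j : ℕ, (h ^ j) v = v + (j : F) • (h v - v) := fun j => by
    induction j with
    | zero => simp
    | succ j ih => rw [pow_succ', End.mul_apply, ih, map_add, map_smul, hv]; push_cast; module
  have := h2 r
  rw [h1, End.one_apply, left_eq_add] at this
  exact sub_eq_zero.1 ((smul_eq_zero.1 this).resolve_left hr)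

omit [FiniteDimensional F V] in
theorem fix_of_sq {h : End F V} {r : ℕ} (hr : Odd r) (h1 : h ^ r = 1) {v : V} (hv : h (h v) = v) :
    h v = v := by
  obtain ⟨k, rfl⟩ := hr
  have h2 : ∀ j : ℕ, (h ^ (2 * j)) (h v) = h v := fun j => by
    induction j with
    | zero => simp
    | succ j ih => rw [mul_add, mul_one, pow_add, End.mul_apply, pow_two, End.mul_apply, hv, ih]
  rw [← h2 k, ← End.mul_apply, ← pow_succ, h1, End.one_apply]

theorem three_le {g h : End F V} {r : ℕ} (hr : (r : F) ≠ 0) (ho : Odd r) (h1 : h ^ r = 1)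
    (hc : ∀ v, g (h v) = h (g v)) {W₀ W₁ W₂ U : Submodule F V} (h₀ : ∀ v ∈ W₀, g v = v)
    (h₁ : ∀ v ∈ W₁, g v = h v) (h₂ : ∀ v ∈ W₂, g v = h (h v)) (hU : ∀ v, h v = v → v ∈ U) :
    finrank F W₀ + finrank F W₁ + finrank F W₂ ≤ finrank F V + 2 * finrank F U := by
  obtain ⟨π, hπ⟩ := U.subtype.exists_leftInverse_of_injective U.ker_subtype
  have hπ' : ∀ v ∈ U, π v = 0 → v = 0 := fun v hv e =>
    congrArg Subtype.val ((LinearMap.congr_fun hπ ⟨v, hv⟩).symm.trans e)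
  have hi : Function.Injective h := fun a b e => by
    obtain ⟨k, rfl⟩ := ho
    have := congrArg (h ^ (2 * k)) e
    simpa only [← End.mul_apply, ← pow_succ, h1, End.one_apply] using this
  let Φ : (W₀ × W₁) × W₂ →ₗ[F] V × U × U :=
    ((W₀.subtype.coprod W₁.subtype).coprod W₂.subtype).prod
      ((π ∘ₗ W₀.subtype ∘ₗ fst _ _ _ ∘ₗ fst _ _ _).prod (π ∘ₗ W₁.subtype ∘ₗ snd _ _ _ ∘ₗ fst _ _ _))
  have := finrank_le_finrank_of_injective (f := Φ) ((injective_iff_map_eq_zero _).2 ?_)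
  · simp only [finrank_prod] at this
    omega
  rintro ⟨⟨⟨a, ha⟩, b, hb⟩, c, hc'⟩ e
  obtain ⟨e0 : a + b + c = 0, e1 : π a = 0, e2 : π b = 0⟩ := by simpa only [Prod.ext_iff] using e
  have ea := h₀ a ha
  have eb := h₁ b hb
  have e3 : g (a + b) = h (h (a + b)) := by
    rw [eq_neg_of_add_eq_zero_left e0, map_neg, h₂ c hc', map_neg, map_neg]
  simp only [map_add, ea, eb] at e3
  have e4 := congrArg g e3
  simp only [map_add, hc, ea, eb] at e4
  have a0 : a = 0 := hπ' a (hU a (semis hr h1 (fix_of_sq ho h1 (by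
    have e5 := congrArg h e3
    simp only [map_sub, map_add] at e5 ⊢
    linear_combination (norm := module) e4 - e5)))) e1
  have b0 : b = 0 := hπ' b (hU b (hi (by simpa [a0] using e3.symm))) e2
  have c0 : c = 0 := by simpa [a0, b0] using e0
  simp [a0, b0, c0]

omit [FiniteDimensional F V] in
theorem k4 {a b c d : End F V} (ac : ∀ v, a (c v) = c (a v)) (ad : ∀ v, a (d v) = d (a v))
    (dc : ∀ v, d (c v) = c (d v)) (t1 : ∀ v, a v = 0 → b v = 0 → c v = 0 → v = 0)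
    (t2 : ∀ v, a v = 0 → b v = 0 → d v = 0 → v = 0) (t3 : ∀ v, a v = 0 → c v = 0 → d v = 0 → v = 0)
    {v : V} (h0 : a v = 0) (h1 : c (d v) = 0) (h2 : b (d v) = 0) (h3 : b (c v) = 0) : v = 0 :=
  t3 v h0 (t2 _ (by rw [ac, h0, map_zero]) h3 (by rw [dc, h1]))
    (t1 _ (by rw [ad, h0, map_zero]) h2 h1)

theorem four_le {a : Fin 4 → End F V} (hc : ∀ i j v, a i (a j v) = a j (a i v)) {t : F}
    (t0 : t ≠ 0) (t1 : t ≠ 1) (h1 : ∀ v, a 0 v = 0 → a 1 v = 0 → a 2 v = 0 → v = 0)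
    (h2 : ∀ v, a 0 v = 0 → a 1 v = 0 → a 3 v = 0 → v = 0)
    (h3 : ∀ v, a 0 v = 0 → a 2 v = 0 → a 3 v = 0 → v = 0)
    (h4 : ∀ v, a 1 v = 0 → a 2 v = 0 → a 3 v = 0 → v = 0) :
    finrank F (ker (a 0)) + finrank F (ker (a 1)) + (finrank F (ker (a 2)) + finrank F (ker (a 3)))
      ≤ 2 * finrank F V := by
  let Φ : (ker (a 0) × ker (a 1)) × ker (a 2) × ker (a 3) →ₗ[F] V × V :=
    (((ker (a 0)).subtype.coprod 0).coprod ((ker (a 2)).subtype.coprod (ker (a 3)).subtype)).prod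
      ((coprod 0 (ker (a 1)).subtype).coprod ((ker (a 2)).subtype.coprod (t • (ker (a 3)).subtype)))
  have := finrank_le_finrank_of_injective (f := Φ) ((injective_iff_map_eq_zero _).2 ?_)
  · simp only [finrank_prod] at this
    omega
  rintro ⟨⟨⟨x, hx⟩, y, hy⟩, ⟨z, hz⟩, w, hw⟩ e
  obtain ⟨e0 : x + 0 + (z + w) = 0, e1 : 0 + y + (z + t • w) = 0⟩ := by
    simpa only [Prod.ext_iff] using e
  rw [mem_ker] at hx hy hz hw
  have k : ∀ i j u, a i u = 0 → a i (a j u) = 0 ∧ a j (a i u) = 0 := fun i j u h => by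
    rw [hc i j, h, map_zero, and_self]
  have r1 : x = -(z + w) := by linear_combination (norm := module) e0
  have r2 : y = -(z + t • w) := by linear_combination (norm := module) e1
  have r3 : x = y + (t - 1) • w := by linear_combination (norm := module) e0 - e1
  have r4 : t • x = y + (1 - t) • z := by linear_combination (norm := module) t • e0 - e1
  have x0 : x = 0 := k4 (hc 0 2) (hc 0 3) (hc 3 2) h1 h2 h3 hx
    (by rw [r1]; simp [hw, (k 2 3 z hz).2, hc 2 3]) (by rw [r3]; simp [hw, (k 1 3 y hy).1])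
    (smul_right_injective _ t0 (by
      simp only [← map_smul, r4]; simp [hz, (k 1 2 y hy).1]))
  have y0 : y = 0 := k4 (hc 1 2) (hc 1 3) (hc 3 2) (fun v a b => h1 v b a) (fun v a b => h2 v b a)
    h4 hy (by rw [r2]; simp [hw, (k 2 3 z hz).1])
    (by rw [← sub_eq_iff_eq_add.2 r3]; simp [hw, (k 0 3 x hx).1])
    (by rw [← sub_eq_iff_eq_add.2 r4]; simp [hz, (k 0 2 x hx).1])
  have w0 : w = 0 := by simpa [x0, y0, sub_ne_zero.2 t1] using r3.symm
  have z0 : z = 0 := by simpa [x0, w0] using r1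
  simp [x0, y0, z0, w0]

end Lin

variable {F V G : Type*} [Field F] [AddCommGroup V] [Module F V] [FiniteDimensional F V] [Group G]

/-- the fixed space -/
def Fx (ρ : G →* End F V) (a : G) : Submodule F V := ker (ρ a - 1)

variable {ρ : G →* End F V}

omit [FiniteDimensional F V] in
theorem mem_Fx {a : G} {v : V} : v ∈ Fx ρ a ↔ ρ a v = v := sub_eq_zero

omit [FiniteDimensional F V] in
theorem ap_mul (a b : G) (v : V) : ρ (a * b) v = ρ a (ρ b v) := by rw [map_mul]; rfl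

omit [FiniteDimensional F V] in
theorem ap_inv {a : G} {v w : V} (h : ρ a v = w) : ρ a⁻¹ w = v := by
  rw [← h, ← ap_mul, inv_mul_cancel, map_one]; rfl

theorem fx_conj (y a : G) : finrank F (Fx ρ (y * a * y⁻¹)) = finrank F (Fx ρ a) := by
  have key : ∀ y a : G, finrank F (Fx ρ a) ≤ finrank F (Fx ρ (y * a * y⁻¹)) := fun y a =>
    finrank_le_finrank_of_injective (f := (ρ y).restrict (p := Fx ρ a) (q := Fx ρ (y * a * y⁻¹))
      fun v hv => by rw [mem_Fx, ap_mul, ap_inv rfl, ap_mul, mem_Fx.1 hv])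
      fun v w e => Subtype.ext ((ap_inv rfl).symm.trans (ap_inv (congrArg Subtype.val e).symm))
  refine le_antisymm ((key y⁻¹ _).trans_eq ?_) (key y a)
  rw [show y⁻¹ * (y * a * y⁻¹) * y⁻¹⁻¹ = a by group]

/-- pointwise stabiliser -/
def Stab (ρ : G →* End F V) (v : V) : Subgroup G where
  carrier := {a | ρ a v = v}
  mul_mem' {a b} ha hb := by rw [Set.mem_ofPred, ap_mul, hb, ha]
  one_mem' := by simp
  inv_mem' := ap_inv

/-- the data of an absolutely irreducible group of extraspecial type modulo scalars -/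
structure D (ρ : G →* End F V) (s : Fˣ →* G) (r : ℕ) (N : Subgroup G) : Prop where
  pr : r.Prime
  sc : ∀ c v, ρ (s c) v = (c : F) • v
  cen : ∀ c, s c ∈ Subgroup.center G
  inj : Function.Injective s
  com : ∀ x ∈ N, ∀ y ∈ N, ∃ c, c ^ r = 1 ∧ ⁅x, y⁆ = s c
  schur : ∀ a, (∀ y ∈ N, ⁅a, y⁆ = 1) → ∃ c, a = s c

namespace D

variable {s : Fˣ →* G} {r : ℕ} {N : Subgroup G} (h : D ρ s r N)
include h

omit [FiniteDimensional F V] in
theorem eq_one {v : V} (hv : v ≠ 0) {c : Fˣ} (hc : s c ∈ Stab ρ v) : c = 1 :=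
  Units.ext (smul_left_injective F hv (((h.sc c v).symm.trans hc).trans (one_smul _ _).symm))

omit [FiniteDimensional F V] in
theorem one_of {v : V} (hv : v ≠ 0) {a : G} (ha : a ∈ Stab ρ v) {c : Fˣ} (e : a = s c) : a = 1 := by
  rw [e, h.eq_one hv (e ▸ ha : s c ∈ _), map_one]

omit [FiniteDimensional F V] in
theorem exists_prim {a : G} (ha : a ∈ N) (h1 : ∀ c, a ≠ s c) :
    ∃ y ∈ N, ∃ c : Fˣ, IsPrimitiveRoot c r ∧ ⁅y, a⁆ = s c := by
  by_contra! h2
  obtain ⟨c, hc⟩ := h.schur a fun y hy => by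
    obtain ⟨c, h3, h4⟩ := h.com y hy a ha
    have := Fact.mk h.pr
    rw [← commutatorElement_inv, h4, inv_eq_one]
    by_contra h5
    exact h2 y hy c (orderOf_eq_prime h3 (fun e => h5 (by rw [e, map_one])) ▸
      IsPrimitiveRoot.orderOf c) h4
  exact h1 c hc

omit [FiniteDimensional F V] in
theorem conj_pow {y a : G} {c : Fˣ} (e : ⁅y, a⁆ = s c) (j : ℕ) :
    y ^ j * a * (y ^ j)⁻¹ = s (c ^ j) * a := by
  induction j with
  | zero => simp
  | succ j ih =>
    have e1 : y * a * y⁻¹ = s c * a := by rw [← e, commutatorElement_def]; group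
    calc _ = y * (y ^ j * a * (y ^ j)⁻¹) * y⁻¹ := by group
      _ = s (c ^ j) * (y * a * y⁻¹) := by
        rw [ih, ← mul_assoc, Subgroup.mem_center_iff.1 (h.cen _) y]; group
      _ = _ := by rw [e1, pow_succ, map_mul, mul_assoc]

theorem fx_le {a : G} (ha : a ∈ N) (h1 : ∀ c, a ≠ s c) : r * finrank F (Fx ρ a) ≤ finrank F V := by
  obtain ⟨y, -, c, hc, e⟩ := h.exists_prim ha h1
  have hi : Function.Injective fun j : Fin r => (((c ^ j.1)⁻¹ : Fˣ) : F) := fun i j e =>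
    Fin.ext (hc.pow_inj i.2 j.2 (inv_injective (Units.ext e)))
  have h2 := ((ρ a).eigenspaces_iSupIndep.comp hi)
  have h3 := finrank_le_finrank_of_injective (f := DirectSum.coeLinearMap _)
    h2.dfinsupp_lsum_injective
  rw [finrank_directSum] at h3
  refine le_trans (le_of_eq ?_) h3
  rw [Finset.sum_congr rfl (g := fun _ => finrank F (Fx ρ a)) fun j _ => ?_]
  · simp
  rw [← fx_conj (y ^ j.1), h.conj_pow e]
  refine congrArg (fun W : Submodule F V => finrank F W) (Submodule.ext fun v => ?_)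
  rw [Function.comp, End.mem_eigenspace_iff, mem_Fx, ap_mul, h.sc, ← Units.smul_def,
    ← Units.smul_def, eq_inv_smul_iff]

theorem dvd {a : G} (ha : a ∈ N) (h1 : ∀ c, a ≠ s c) : r ∣ finrank F V := by
  obtain ⟨y, -, c, hc, e⟩ := h.exists_prim ha h1
  have h2 : ρ (s c) = (c : F) • 1 := LinearMap.ext (h.sc c)
  have h3 := congrArg (LinearMap.det.comp ρ).toHomUnits e
  rw [map_commutatorElement, commutatorElement_eq_one_iff_mul_comm.2 (mul_comm _ _)] at h3
  have h4 := congrArg Units.val h3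
  simp [h2] at h4
  exact hc.dvd_of_pow_eq_one _ (Units.ext (by simpa using h4.symm))

omit [FiniteDimensional F V] in
theorem comc {x y : G} (hx : x ∈ N) (hy : y ∈ N) : ⁅x, y⁆ ∈ Subgroup.center G := by
  obtain ⟨c, -, e⟩ := h.com x hx y hy
  exact e ▸ h.cen c

/-- the commutator form -/
noncomputable def B (x y : N) : Additive Fˣ := Additive.ofMul (h.com x x.2 y y.2).choose

omit [FiniteDimensional F V] in
theorem B_eq (x y : N) : s (h.B x y).toMul = ⁅x.1, y.1⁆ := (h.com x x.2 y y.2).choose_spec.2.symm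

omit [FiniteDimensional F V] in
theorem B_tor (x y : N) : r • h.B x y = 0 := (h.com x x.2 y y.2).choose_spec.1

omit [FiniteDimensional F V] in
theorem B_skew (x y : N) : h.B x y = -h.B y x :=
  h.inj (by rw [toMul_neg, map_inv, B_eq, B_eq, commutatorElement_inv] :
    s (h.B x y).toMul = s (-h.B y x).toMul)

omit [FiniteDimensional F V] in
theorem B_mul (x y z : N) : h.B (x * y) z = h.B x z + h.B y z :=
  h.inj (show s (h.B (x * y) z).toMul = s (h.B x z + h.B y z).toMul by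
    have := Subgroup.mem_center_iff.1 (h.comc y.2 z.2)
    rw [toMul_add, map_mul, B_eq, B_eq, B_eq, this ⁅x.1, z.1⁆]
    calc _ = x * ⁅y.1, z.1⁆ * (x : G)⁻¹ * ⁅x.1, z.1⁆ := by
          simp only [commutatorElement_def, Subgroup.coe_mul]; group
      _ = _ := by rw [this x]; simp)

omit [FiniteDimensional F V] in
theorem B_inv (x z : N) : h.B x⁻¹ z = -h.B x z := by
  have h1 := h.B_mul 1 1 z
  rw [one_mul, left_eq_add] at h1
  rw [eq_neg_iff_add_eq_zero, ← B_mul, inv_mul_cancel, h1]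

omit [FiniteDimensional F V] in
theorem B_mul' (x y z : N) : h.B z (x * y) = h.B z x + h.B z y := by
  rw [B_skew, B_mul, neg_add, ← B_skew, ← B_skew]

omit [FiniteDimensional F V] in
theorem B_inv' (x z : N) : h.B z x⁻¹ = -h.B z x := by rw [B_skew, B_inv, ← B_skew]

omit [FiniteDimensional F V] in
theorem pow_eq_one {a : G} (ha : a ∈ N) {v : V} (hv : v ≠ 0) (h1 : a ∈ Stab ρ v) : a ^ r = 1 := by
  obtain ⟨c, hc⟩ := h.schur (a ^ r) fun y hy => by
    obtain ⟨c, h2, h3⟩ := h.com a ha y hy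
    rw [commutatorElement_def, h.conj_pow h3, h2, map_one, one_mul, mul_inv_cancel]
  exact h.one_of hv (pow_mem h1 r) hc

variable {g : G} (hg : ∀ x ∈ N, g * x * g⁻¹ ∈ N) (hs : ∀ c, g ≠ s c)
include hg hs

omit [FiniteDimensional F V] in
theorem exists_ne : ∃ y ∈ N, ⁅g, y⁆ ≠ 1 := by
  by_contra! h1
  obtain ⟨c, hc⟩ := h.schur g h1
  exact hs c hc

omit h hs [FiniteDimensional F V] in
theorem cm {y : G} (hy : y ∈ N) : ⁅g, y⁆ ∈ N := mul_mem (hg y hy) (inv_mem hy)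

omit h hs hg [FiniteDimensional F V] in
theorem cst {y : G} {v : V} (h1 : g ∈ Stab ρ v) (h2 : y * g * y⁻¹ ∈ Stab ρ v) :
    ⁅g, y⁆ ∈ Stab ρ v := by
  rw [show ⁅g, y⁆ = g * (y * g * y⁻¹)⁻¹ by group]
  exact mul_mem h1 (inv_mem h2)

theorem bound : r * (2 * finrank F (Fx ρ g)) ≤ r * finrank F V + finrank F V := by
  obtain ⟨y, hy, h1⟩ := h.exists_ne hg hs
  have h2 := Submodule.finrank_sup_add_finrank_inf_eq (Fx ρ g) (Fx ρ (y * g * y⁻¹))
  have h3 := (Fx ρ g ⊔ Fx ρ (y * g * y⁻¹)).finrank_le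
  have h4 := Submodule.finrank_mono (show Fx ρ g ⊓ Fx ρ (y * g * y⁻¹) ≤ Fx ρ ⁅g, y⁆ from
    fun v hv => mem_Fx.2 (cst (mem_Fx.1 hv.1) (mem_Fx.1 hv.2)))
  have h5 : r * finrank F (Fx ρ ⁅g, y⁆) ≤ finrank F V := by
    by_cases h6 : Fx ρ ⁅g, y⁆ = ⊥
    · rw [h6, finrank_bot]; exact Nat.zero_le _
    obtain ⟨v, hv, h0⟩ := (Submodule.ne_bot_iff _).1 h6
    exact h.fx_le (cm hg hy) fun c e => h1 (h.one_of h0 (mem_Fx.1 hv) e)
  rw [fx_conj] at h2
  nlinarith

omit h hg hs in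
theorem exists_vec (hw : finrank F V < 2 * finrank F (Fx ρ g)) (y : G) :
    ∃ v ≠ 0, g ∈ Stab ρ v ∧ y * g * y⁻¹ ∈ Stab ρ v := by
  have h2 := Submodule.finrank_sup_add_finrank_inf_eq (Fx ρ g) (Fx ρ (y * g * y⁻¹))
  have h3 := (Fx ρ g ⊔ Fx ρ (y * g * y⁻¹)).finrank_le
  rw [fx_conj] at h2
  obtain ⟨v, hv, h0⟩ := (Submodule.ne_bot_iff (Fx ρ g ⊓ Fx ρ (y * g * y⁻¹))).1 fun e => by
    rw [e, finrank_bot] at h2
    omega
  exact ⟨v, h0, mem_Fx.1 hv.1, mem_Fx.1 hv.2⟩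

omit hs in
theorem recur (hw : finrank F V < 2 * finrank F (Fx ρ g)) {m : ℕ} (hm : g ^ m = 1) (ho : Odd m)
    (y z : N) : ∃ f : ℕ → Additive Fˣ, (∀ j, f (j + m) = f j) ∧
      (∀ j, r • f j = 0) ∧ (∀ j, dl (dl (dl (dl f))) j = 0 ∧ 2 • dl (dl (dl f)) j = 0) ∧
      s (dl f 0).toMul = ⁅y.1, ⁅g, z.1⁆⁆ ∧
      s (dl (dl (dl f)) 0).toMul = ⁅y.1, ⁅g, ⁅g, ⁅g, z.1⁆⁆⁆⁆ := by
  let σ : Monoid.End N := ((MulAut.conj g).toMonoidHom.comp N.subtype).codRestrict N
    fun x => hg _ x.2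
  have hσ : ∀ x : N, (σ x : G) = g * x * g⁻¹ := fun _ => rfl
  have hp : ∀ (j : ℕ) (x : N), ((σ ^ j) x : G) = g ^ j * x * (g ^ j)⁻¹ := fun j x => by
    induction j with
    | zero => simp
    | succ j ih => rw [pow_succ', Monoid.End.coe_mul, Function.comp, hσ, ih]; group
  have i1 : ∀ x y : N, h.B (σ x) (σ y) = h.B x y := fun x y => h.inj (show s (h.B _ _).toMul =
      s (h.B _ _).toMul by
    rw [B_eq, B_eq, hσ, hσ, ← conjugate_commutatorElement,
      Subgroup.mem_center_iff.1 (h.comc x.2 y.2) g, mul_inv_cancel_right])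
  have i3 : ∀ x : N, h.B (σ x * x⁻¹) (σ (σ x * x⁻¹)) = 0 := fun x => by
    obtain ⟨v, h0, h1, h2⟩ := exists_vec hw x.1
    have h3 : ((σ x * x⁻¹ : N) : G) ∈ Stab ρ v := cst h1 h2
    have h4 : ((σ (σ x * x⁻¹) : N) : G) ∈ Stab ρ v := mul_mem (mul_mem h1 h3) (inv_mem h1)
    exact h.eq_one h0 (h.B_eq _ _ ▸ mul_mem (mul_mem (mul_mem h3 h4) (inv_mem h3)) (inv_mem h4))
  let f : ℕ → Additive Fˣ := fun j => h.B y ((σ ^ j) z)
  have p1 : ∀ j, f (j + m) = f j := fun j => congrArg (h.B y)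
    (Subtype.ext (by rw [hp, hp, pow_add, hm, mul_one]))
  have p2 : ∀ j, dl (dl (dl f)) (j + 1) = -dl (dl (dl f)) j := fun j => by
    have e1 := i3 (y * σ (σ ((σ ^ j) z)))
    have e2 := i3 y
    have e3 := i3 (σ (σ ((σ ^ j) z)))
    simp only [dl, f, pow_succ', Monoid.End.coe_mul, Function.comp]
    generalize (σ ^ j) z = w at *
    simp only [map_mul, map_inv, B_mul, B_inv, B_mul', B_inv', i1] at e1 e2 e3
    linear_combination (norm := abel) -e1 + e2 + e3 + h.B_skew (σ w) y + h.B_skew (σ w) y -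
      h.B_skew w y - h.B_skew (σ (σ w)) y
  refine ⟨f, p1, fun j => h.B_tor _ _, fun j => ?_, ?_, ?_⟩
  · have := two_smul_zero ho (dl_per (dl_per (dl_per p1))) p2 j
    exact ⟨by rw [dl, p2, ← neg_add', ← two_nsmul, this, neg_zero], this⟩
  · rw [show dl f 0 = h.B y (σ z * z⁻¹) by simp [dl, f, B_mul', B_inv', sub_eq_add_neg]]
    exact h.B_eq _ _
  · rw [show dl (dl (dl f)) 0 = h.B y (σ (σ (σ z * z⁻¹) * (σ z * z⁻¹)⁻¹) *
      (σ (σ z * z⁻¹) * (σ z * z⁻¹)⁻¹)⁻¹) by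
      simp only [dl, f, pow_succ', Monoid.End.coe_mul, Function.comp, map_mul, map_inv, B_mul',
        B_inv', pow_zero, Monoid.End.coe_one, id_eq]
      abel]
    exact h.B_eq _ _

theorem coprime {m : ℕ} (hm : g ^ m = 1) (ho : Odd m) (hc : m.Coprime r) :
    2 * finrank F (Fx ρ g) ≤ finrank F V := by
  by_contra! hw
  obtain ⟨z, hz, h1⟩ := h.exists_ne hg hs
  obtain ⟨c, hc'⟩ := h.schur ⁅g, z⁆ fun y hy => by
    obtain ⟨f, p1, p2, p3, p4, -⟩ := h.recur hg hw hm ho ⟨y, hy⟩ ⟨z, hz⟩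
    rw [← commutatorElement_inv, ← p4, dl_zero hc p1 p2 (dl_zero hc (dl_per p1) (dl_tor p2)
      (dl_zero hc (dl_per (dl_per p1)) (dl_tor (dl_tor p2)) fun j => (p3 j).1))]
    simp
  obtain ⟨v, h0, h2, h3⟩ := exists_vec hw z
  exact h1 (h.one_of h0 (cst h2 h3) hc')

theorem same (hm : g ^ r = 1) (h5 : 5 ≤ r) : 2 * finrank F (Fx ρ g) ≤ finrank F V := by
  by_contra! hw
  have ho : Odd r := h.pr.odd_of_ne_two (by omega)
  obtain ⟨y, hy, h1, h2⟩ : ∃ y ∈ N, ⁅g, y⁆ ≠ 1 ∧ ⁅g, ⁅g, y⁆⁆ = 1 := by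
    obtain ⟨z, hz, h1⟩ := h.exists_ne hg hs
    by_cases h2 : ⁅g, ⁅g, z⁆⁆ = 1
    · exact ⟨z, hz, h1, h2⟩
    refine ⟨_, cm hg hz, h2, ?_⟩
    obtain ⟨c, hc'⟩ := h.schur ⁅g, ⁅g, ⁅g, z⁆⁆⁆ fun y hy => by
      obtain ⟨f, -, p2, p3, -, p4⟩ := h.recur hg hw hm ho ⟨y, hy⟩ ⟨z, hz⟩
      rw [← commutatorElement_inv, ← p4, zero_of_cop (Nat.coprime_two_left.2 ho) (p3 0).2
        (dl_tor (dl_tor (dl_tor p2)) 0)]
      simp
    obtain ⟨v, h0, h2, h3⟩ := exists_vec hw ⁅g, ⁅g, z⁆⁆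
    exact h.one_of h0 (cst h2 h3) hc'
  obtain ⟨v, v0, v1, v2⟩ := exists_vec hw y
  have ha : ⁅g, y⁆⁻¹ ∈ N := inv_mem (cm hg hy)
  have hv : ⁅g, y⁆⁻¹ ∈ Stab ρ v := inv_mem (cst v1 v2)
  have e1 : y * g * y⁻¹ = ⁅g, y⁆⁻¹ * g := by group
  have e2 : Commute g ⁅g, y⁆⁻¹ := (commutatorElement_eq_one_iff_commute.1 h2).inv_right
  rw [← inv_ne_one] at h1
  generalize ⁅g, y⁆⁻¹ = a at *
  have hns : ∀ c, a ≠ s c := fun c e => h1 (h.one_of v0 hv e)
  have a1 := h.fx_le ha hns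
  have a2 := h.pow_eq_one ha v0 hv
  obtain ⟨c, hc, e3⟩ := h.com y hy a ha
  have e4 : y * a * y⁻¹ = s c * a := by rw [← e3]; group
  have cs := fun x => Subgroup.mem_center_iff.1 (h.cen c) x
  have e5 : y * (a * g) * y⁻¹ = s c * (a * (a * g)) := by
    calc _ = (y * a * y⁻¹) * (y * g * y⁻¹) := by group
      _ = _ := by rw [e1, e4, mul_assoc]
  have d1 : finrank F (Fx ρ (a * g)) = finrank F (Fx ρ g) := by rw [← e1, fx_conj]
  have d2 : finrank F (Fx ρ (s c * (a * (a * g)))) = finrank F (Fx ρ g) := by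
    rw [← e5, fx_conj, d1]
  have cga : ∀ v, ρ g (ρ a v) = ρ a (ρ g v) := fun v => by rw [← ap_mul, e2.eq, ap_mul]
  by_cases c1 : c = 1
  · obtain ⟨_, -, c', hc', -⟩ := h.exists_prim ha hns
    have hr : (r : F) ≠ 0 := by
      have := NeZero.mk h.pr.ne_zero
      exact (IsPrimitiveRoot.coe_units_iff.2 hc').neZero'.out
    rw [c1, map_one, one_mul] at d2
    have := three_le (g := ρ g⁻¹) (h := ρ a) hr ho (by rw [← map_pow, a2, map_one])
      (fun v => by rw [← ap_mul, e2.inv_left.eq, ap_mul]) (W₀ := Fx ρ g) (W₁ := Fx ρ (a * g))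
      (W₂ := Fx ρ (a * (a * g))) (U := Fx ρ a) (fun v hv => ap_inv (mem_Fx.1 hv))
      (fun v hv => ap_inv (by rw [cga, ← ap_mul, mem_Fx.1 hv]))
      (fun v hv => ap_inv (by rw [cga, cga, ← ap_mul, ← ap_mul, mul_assoc, mem_Fx.1 hv]))
      fun v => mem_Fx.2
    nlinarith
  have e6 : y * (s c * (a * (a * g))) * y⁻¹ = s c * (s c * (s c * (a * (a * (a * g))))) := by
    calc _ = s c * ((y * a * y⁻¹) * (y * (a * g) * y⁻¹)) := by rw [← mul_assoc y, cs y]; group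
      _ = _ := by rw [e4, e5, mul_assoc, ← mul_assoc a, cs a, mul_assoc]
  have d3 := fx_conj (ρ := ρ) y (s c * (a * (a * g)))
  rw [e6, d2] at d3
  have c2 : (c : F) ≠ 1 := fun e => c1 (Units.ext e)
  have c3 : (c : F) ^ 3 ≠ 1 := fun e => by
    have := Fact.mk h.pr
    have := Nat.le_of_dvd (by norm_num) ((orderOf_eq_prime hc c1) ▸
      orderOf_dvd_of_pow_eq_one (show c ^ 3 = 1 from Units.ext (by simpa using e)))
    omega
  have k : ∀ {t : F} {v : V}, t ≠ 1 → t • v = v → v = 0 := fun {t v} ht e => by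
    rw [← sub_eq_zero, ← one_smul F v, smul_smul, ← sub_smul, mul_one, smul_eq_zero] at e
    exact e.resolve_left (sub_ne_zero.2 ht)
  have := four_le (a := ![ρ g - 1, ρ (a * g) - 1, ρ (s c * (a * (a * g))) - 1,
    ρ (s c * (s c * (s c * (a * (a * (a * g)))))) - 1]) (t := (c : F))
    (fun i j v => by fin_cases i <;> fin_cases j <;> simp [h.sc, cga, smul_sub] <;> abel)
    c.ne_zero c2 ?_ ?_ ?_ ?_
  · change finrank F (Fx ρ _) + finrank F (Fx ρ _) + (finrank F (Fx ρ _) + finrank F (Fx ρ _)) ≤ _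
      at this
    omega
  all_goals
    intro v h1 h2 h3
    simp [h.sc, sub_eq_zero] at h1 h2 h3
  · rw [h1] at h2 h3
    exact k c2 (by rwa [h2, h2] at h3)
  · rw [h1] at h2 h3
    exact k c3 (by rwa [h2, h2, h2, smul_smul, smul_smul, ← pow_three'] at h3)
  · rw [h1] at h2 h3
    have h4 := congrArg (ρ a) h2
    rw [map_smul] at h4
    rw [h4] at h3
    have h5 := congrArg (ρ a) h3
    rw [map_smul, map_smul, h2] at h5
    exact k c3 (by rwa [← h5, smul_smul, smul_smul, ← pow_three'] at h3)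
  · rw [h1] at h2 h3
    have h4 := congrArg (ρ a) h2
    rw [map_smul] at h4
    exact k c2 (by rwa [h4, h2] at h3)

end D

end Cfsg.Agent.H28.Ee
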