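import Mathlib
import Cfsg.Agent.H80.F23Kit

/-!
# The invariant lattice of minimal determinant
-/

set_option autoImplicit false

namespace Cfsg.Agent.H28.F23

open Module H80.F23

universe u

/-- the index -/
noncomputable abbrev ri (A B : Submodule ℤ V) : ℕ := A.toAddSubgroup.relIndex B.toAddSubgroup

/-- multiplication by `n` -/
def mu (n : ℕ) : V →ₗ[ℤ] V := (n : ℤ) • LinearMap.id

theorem mu_apply (n : ℕ) (x : V) : mu n x = (n : ℤ) • x := rfl

theorem mu_bij {n : ℕ} (hn : n ≠ 0) : Function.Bijective (mu n) :=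
  ⟨smul_right_injective V (Int.natCast_ne_zero.2 hn), fun y => ⟨(n : ℚ)⁻¹ • y, by
    rw [mu_apply, ← Int.cast_smul_eq_zsmul ℚ, smul_smul]
    simp [hn]⟩⟩

variable {A C D L : Submodule ℤ V} {B : LinearMap.BilinForm ℚ V}

theorem mu_left (n : ℕ) (x y : V) : B (mu n x) y = n * B x y := by
  rw [mu_apply, map_zsmul, LinearMap.smul_apply, zsmul_eq_mul, Int.cast_natCast]

theorem mu_right (n : ℕ) (x y : V) : B x (mu n y) = n * B x y := by
  rw [mu_apply, map_zsmul, zsmul_eq_mul, Int.cast_natCast]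

theorem inv_comap {f : End ℚ V} (h : ∀ x ∈ L, f x ∈ L) {n : ℕ} {x : V} (hx : x ∈ L.comap (mu n)) :
    f x ∈ L.comap (mu n) := by
  rw [Submodule.mem_comap, mu_apply, ← map_zsmul]
  exact h _ hx

theorem full_mono (h : Full A) (h' : A ≤ C) : Full C :=
  top_le_iff.1 (h.ge.trans (Submodule.span_mono h'))

theorem ri_mul (h : A ≤ C) (h' : C ≤ D) : ri A C * ri C D = ri A D :=
  AddSubgroup.relIndex_mul_relIndex _ _ _ h h'

theorem ri_ne (h : A ≤ C) (h1 : C.FG) (h2 : Full A) : ri A C ≠ 0 := by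
  classical
  obtain ⟨b, hb⟩ := exists_basis (fg_of_le h1 h) h2
  obtain ⟨c, hc⟩ := exists_basis h1 (full_mono h2 h)
  have := AddSubgroup.relIndex_eq_abs_det A.toAddSubgroup C.toAddSubgroup h b c
    (by rw [hb, Submodule.span_int_eq_addSubgroupClosure])
    (by rw [hc, Submodule.span_int_eq_addSubgroupClosure])
  exact fun e => (c.isUnit_det b).ne_zero (abs_eq_zero.1 (this.symm.trans (Nat.cast_eq_zero.2 e)))

theorem ri_comap (n : ℕ) : ri (A.comap (mu n)) C = ri A (C.map (mu n)) :=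
  AddSubgroup.relIndex_comap A.toAddSubgroup (mu n).toAddMonoidHom C.toAddSubgroup

theorem ri_map {n : ℕ} (hn : n ≠ 0) : ri (A.map (mu n)) (C.map (mu n)) = ri A C :=
  AddSubgroup.relIndex_map_map_of_injective (f := (mu n).toAddMonoidHom) A.toAddSubgroup
    C.toAddSubgroup (mu_bij hn).1

theorem ri_scale (h1 : L.FG) (h2 : Full L) (n : ℕ) : ri (L.map (mu n)) L = n ^ 23 := by
  haveI : Submodule.IsLattice ℚ L := ⟨h1, h2⟩
  haveI : Free ℤ L.toAddSubgroup.toIntSubmodule := (inferInstance : Free ℤ L)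
  haveI : Module.Finite ℤ L.toAddSubgroup.toIntSubmodule := (inferInstance : Module.Finite ℤ L)
  have := AddSubgroup.relIndex_map_nsmul n L.toAddSubgroup
  rw [show finrank ℤ L.toAddSubgroup = 23 from
    (Submodule.IsLattice.finrank_of_pi ℚ L).trans (by simp)] at this
  rw [← this]
  exact congrArg (AddSubgroup.relIndex · L.toAddSubgroup) (AddSubgroup.ext fun x =>
    exists_congr fun y => and_congr Iff.rfl (by rw [mu_apply, natCast_zsmul]; rfl))

variable {G : Type u} [Group G] {ρ : Representation ℚ G V} {g : G}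

/-- invariant integral lattices -/
structure Good (ρ : Representation ℚ G V) (g : G) (B : LinearMap.BilinForm ℚ V)
    (L : Submodule ℤ V) : Prop where
  set : Set0 ρ B g
  lat : IntLat B L
  full : Full L
  linv : LInv ρ L

theorem Good.dinv (h : Good ρ g B L) : LInv ρ (dual B L) := fun k x hx => mem_dual.2 fun y hy => by
  obtain ⟨n, hn⟩ := mem_dual.1 hx _ (h.linv k⁻¹ y hy)
  exact ⟨n, by rw [← hn, ← h.set.inv k x, ← End.mul_apply, ← map_mul, mul_inv_cancel, map_one,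
    End.one_apply]⟩

theorem Good.dfg (h : Good ρ g B L) : (dual B L).FG := (dual_fg_full h.set.pd h.lat.fg h.full).1

theorem Good.ne (h : Good ρ g B L) : ri L (dual B L) ≠ 0 := ri_ne h.lat.le_dual h.dfg h.full

theorem linv_sup (h : Good ρ g B L) (n : ℕ) : LInv ρ (L ⊔ (dual B L).map (mu n)) := fun k x hx => by
  obtain ⟨a, ha, _, ⟨b, hb, rfl⟩, rfl⟩ := Submodule.mem_sup.1 hx
  rw [map_add, mu_apply, map_zsmul]
  exact Submodule.add_mem_sup (h.linv k a ha) ⟨_, h.dinv k b hb, rfl⟩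

variable (h : Good ρ g B L) (hm : ∀ B' L', Good ρ g B' L' → ri L (dual B L) ≤ ri L' (dual B' L'))
include h hm

theorem sq_step {q c : ℕ} (he : ∀ y ∈ dual B L, ((q * q * c : ℕ) : ℤ) • y ∈ L) :
    ∀ y ∈ dual B L, ((q * c : ℕ) : ℤ) • y ∈ L := by
  have h0 : L ⊔ (dual B L).map (mu (q * c)) ≤ dual B L :=
    sup_le h.lat.le_dual (Submodule.map_le_iff_le_comap.2 fun y hy => Submodule.smul_mem _ _ hy)
  have h1 : Good ρ g B (L ⊔ (dual B L).map (mu (q * c))) := by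
    refine ⟨h.set, ⟨fg_of_le h.dfg h0, fun x hx y hy => ?_⟩,
      full_mono h.full le_sup_left, linv_sup h _⟩
    obtain ⟨a, ha, _, ⟨b, hb, rfl⟩, rfl⟩ := Submodule.mem_sup.1 hy
    obtain ⟨k1, e1⟩ := mem_dual.1 (h0 hx) a ha
    obtain ⟨a', ha', _, ⟨b', hb', rfl⟩, rfl⟩ := Submodule.mem_sup.1 hx
    obtain ⟨k2, e2⟩ := mem_dual.1 hb a' ha'
    obtain ⟨k3, e3⟩ := mem_dual.1 hb' _ (he b hb)
    refine ⟨k1 + q * c * k2 + c * k3, ?_⟩
    rw [← mu_apply, mu_right] at e3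
    rw [map_add (B _), e1, mu_right, map_add, LinearMap.add_apply, mu_left, h.set.pd.symm a', e2]
    push_cast at e3 ⊢
    rw [← e3]
    ring
  have h2 := hm _ _ h1
  rw [← ri_mul le_sup_left h0, ← ri_mul h1.lat.le_dual (dual_anti le_sup_left)] at h2
  have h3 := ri_ne (dual_anti (le_sup_left : L ≤ L ⊔ (dual B L).map (mu (q * c)))) h.dfg
    (dual_fg_full h.set.pd h1.lat.fg h1.full).2
  have h4 := h1.ne
  have h5 := ri_ne le_sup_left h1.lat.fg h.full
  have h6 : ri L (L ⊔ (dual B L).map (mu (q * c))) = 1 := by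
    by_contra k
    nlinarith [Nat.pos_of_ne_zero h3, Nat.pos_of_ne_zero h4, Nat.one_lt_iff_ne_zero_and_ne_one.2 ⟨h5, k⟩,
      Nat.le_mul_of_pos_right (ri (L ⊔ (dual B L).map (mu (q * c)))
        (dual B (L ⊔ (dual B L).map (mu (q * c))))) (Nat.pos_of_ne_zero h3)]
  exact fun y hy => AddSubgroup.relIndex_eq_one.1 h6 (Submodule.mem_sup_right ⟨y, hy, rfl⟩)

omit hm in
theorem dual_T (q : ℕ) : dual B (dual B L ⊓ L.comap (mu q)) = L ⊔ (dual B L).map (mu q) := by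
  have h0 : L ⊔ (dual B L).map (mu q) ≤ dual B L :=
    sup_le h.lat.le_dual (Submodule.map_le_iff_le_comap.2 fun y hy => Submodule.smul_mem _ _ hy)
  rw [← dual_dual h.set.pd (fg_of_le h.dfg h0) (full_mono h.full le_sup_left)]
  congr 1
  refine le_antisymm (fun x hx => mem_dual.2 fun y hy => ?_) fun x hx => ⟨dual_anti le_sup_left hx, ?_⟩
  · obtain ⟨a, ha, _, ⟨b, hb, rfl⟩, rfl⟩ := Submodule.mem_sup.1 hy
    obtain ⟨k1, e1⟩ := mem_dual.1 hx.1 a ha
    obtain ⟨k2, e2⟩ := mem_dual.1 hb _ hx.2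
    refine ⟨k1 + k2, ?_⟩
    rw [map_add, e1, Int.cast_add, ← e2, h.set.pd.symm b, mu_left, mu_right]
  · rw [← dual_dual h.set.pd h.lat.fg h.full]
    refine mem_dual.2 fun y hy => ?_
    simpa only [mu_left, mu_right] using mem_dual.1 hx _ (Submodule.mem_sup_right ⟨y, hy, rfl⟩)

theorem t_step {q : ℕ} (hq : q ≠ 0) :
    ri L (dual B L ⊓ L.comap (mu q)) ≤ ri ((dual B L ⊓ L.comap (mu q)).map (mu q)) L ∧
      ri L (dual B L ⊓ L.comap (mu q)) * ri ((dual B L ⊓ L.comap (mu q)).map (mu q)) L = q ^ 23 := by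
  set T := dual B L ⊓ L.comap (mu q) with hT
  have h0 : L ≤ T := le_inf h.lat.le_dual fun y hy => Submodule.smul_mem _ _ hy
  have h1 : T.map (mu q) ≤ L := Submodule.map_le_iff_le_comap.2 inf_le_right
  refine ⟨?_, by rw [← ri_scale h.lat.fg h.full, ← ri_mul (Submodule.map_mono h0) h1, ri_map hq]⟩
  have h2 : Good ρ g ((q : ℚ) • B) T := by
    refine ⟨⟨h.set.inj, h.set.irr, h.set.pd.smul (by positivity), fun k x y => by
      simp [h.set.inv], h.set.ord, h.set.fix⟩, ⟨fg_of_le h.dfg inf_le_left, fun x hx y hy => ?_⟩,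
      full_mono h.full h0, fun k x hx => ⟨h.dinv k x hx.1, inv_comap (h.linv k) hx.2⟩⟩
    simpa [mu_right] using mem_dual.1 hx.1 _ hy.2
  have h3 := hm _ _ h2
  have h4 : dual ((q : ℚ) • B) T = (L ⊔ (dual B L).map (mu q)).comap (mu q) := by
    rw [← dual_T h]
    ext x
    simp only [mem_dual, Submodule.mem_comap, mu_left, LinearMap.smul_apply, smul_eq_mul, hT]
  have h5 : ri T (dual B L) = ri L (L ⊔ (dual B L).map (mu q)) := by
    rw [ri, ri, Submodule.sup_toAddSubgroup, AddSubgroup.relIndex_sup_left]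
    exact (AddSubgroup.inf_relIndex_left (dual B L).toAddSubgroup
      (L.comap (mu q)).toAddSubgroup).trans (ri_comap q)
  rw [h4, ← ri_map hq (A := T), Submodule.map_comap_eq_of_surjective (mu_bij hq).2,
    ← ri_mul h1 le_sup_left, ← ri_mul h0 inf_le_left, h5] at h3
  refine Nat.le_of_mul_le_mul_right h3 (Nat.pos_of_ne_zero fun e => h.ne ?_)
  rw [← ri_mul h0 inf_le_left, h5, e, mul_zero]

theorem dvd_step [Fintype G] {m q : ℕ} (hq : q.Prime) (hd : Design ρ m) (hqm : ¬ q ∣ m) :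
    dual B L ⊓ L.comap (mu q) ≤ L := by
  intro z hz
  by_contra h0
  rw [← dual_dual h.set.pd h.lat.fg h.full, mem_dual] at h0
  push Not at h0
  obtain ⟨y, hy, h1⟩ := h0
  obtain ⟨k, hk⟩ := mem_dual.1 hy _ hz.2
  have h2 : ¬ (q : ℤ) ∣ k := by
    rintro ⟨j, rfl⟩
    refine h1 j (mul_left_cancel₀ (Nat.cast_ne_zero.2 hq.ne_zero : (q : ℚ) ≠ 0) ?_)
    rwa [h.set.pd.symm y, mu_left, Int.cast_mul, Int.cast_natCast] at hk
  obtain ⟨a, b, hab⟩ := (Nat.prime_iff_prime_int.1 hq).irreducible.coprime_iff_not_dvd.2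
    fun e : (q : ℤ) ∣ m * k => ((Nat.prime_iff_prime_int.1 hq).dvd_or_dvd e).elim
      (fun e => hqm (Int.natCast_dvd_natCast.1 e)) h2
  have h3 : L ≤ (dual B L ⊓ L.comap (mu q)).map (mu q) := fun x hx => by
    have h4 : ((m : ℤ) * k) • x ∈ (dual B L ⊓ L.comap (mu q)).map (mu q) := by
      have := hd B h.set.inv x y (mu q z)
      rw [h.set.pd.symm (mu q z), hk] at this
      rw [← Int.cast_smul_eq_zsmul ℚ, Int.cast_mul, Int.cast_natCast, ← this]
      refine Submodule.sum_mem _ fun j _ => ?_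
      obtain ⟨n, hn⟩ := mem_dual.1 (h.dinv j y hy) x hx
      rw [h.set.pd.symm, hn, Int.cast_smul_eq_zsmul, mu_apply, map_zsmul]
      exact Submodule.smul_mem _ _ ⟨_, ⟨h.dinv j z hz.1, inv_comap (h.linv j) hz.2⟩, rfl⟩
    rw [← one_smul ℤ x, ← hab, add_smul, mul_smul, mul_smul]
    exact add_mem (Submodule.smul_mem _ _ ⟨x, ⟨h.lat.le_dual hx, Submodule.smul_mem _ _ hx⟩, rfl⟩)
      (Submodule.smul_mem _ _ h4)
  have h5 := t_step h hm hq.ne_zero
  rw [show ri _ L = 1 from AddSubgroup.relIndex_eq_one.2 h3, mul_one] at h5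
  exact (Nat.one_lt_pow (by norm_num) hq.one_lt).not_ge (h5.2 ▸ h5.1)

omit h hm in
theorem minStmt (eta : EtaStmt) : MinStmt.{u} := by
  intro G _ _ ρ B g m L h1 hd hm h2 h3 h4
  classical
  obtain ⟨⟨B, L⟩, h, hmin⟩ := exists_minimalFor_of_wellFoundedLT
    (fun x : LinearMap.BilinForm ℚ V × Submodule ℤ V => Good ρ g x.1 x.2)
    (fun x => ri x.2 (dual x.1 x.2)) ⟨(B, L), h1, h2, h3, h4⟩
  have hmin : ∀ B' L', Good ρ g B' L' → ri L (dual B L) ≤ ri L' (dual B' L') := fun B' L' k =>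
    (le_total _ _).elim id (hmin (j := (B', L')) k)
  have ex : ∃ e : ℕ, e ≠ 0 ∧ ∀ y ∈ dual B L, (e : ℤ) • y ∈ L :=
    ⟨_, h.ne, fun y hy => by simpa using L.toAddSubgroup.nsmul_relIndex_mem hy⟩
  obtain ⟨e0, he⟩ := Nat.find_spec ex
  have emin := fun n => Nat.find_min ex (m := n)
  generalize Nat.find ex = e at e0 he emin
  have k0 : ∀ q c, q.Prime → e = q * c → ¬ ∀ y ∈ dual B L, (c : ℤ) • y ∈ L := fun q c hq e k =>
    have c0 : c ≠ 0 := fun e' => e0 (by simp [e, e'])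
    emin c (e ▸ lt_mul_left (Nat.pos_of_ne_zero c0) hq.one_lt) ⟨c0, k⟩
  have sq : Squarefree e := Nat.squarefree_iff_prime_squarefree.2 fun q hq ⟨c, e⟩ =>
    k0 q (q * c) hq (by rw [e, mul_assoc]) (sq_step h hmin (e ▸ he))
  have k1 : ∀ q c, e = q * c → ∀ y ∈ dual B L, (c : ℤ) • y ∈ dual B L ⊓ L.comap (mu q) :=
    fun q c e y hy => ⟨Submodule.smul_mem _ _ hy, by
      have := he y hy
      rwa [e, Nat.cast_mul, mul_smul] at this⟩
  have k2 : ∀ q, q.Prime → q ∣ e → q < 23 := fun q hq ⟨c, e⟩ => hm q hq (by_contra fun k =>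
    k0 q c hq e fun y hy => dvd_step h hmin hq hd k (k1 q c e y hy))
  refine ⟨B, L, e, h.set, h.lat, h.full, h.linv, sq, fun k => (k2 23 (by norm_num) k).false, he,
    fun y hy => ?_⟩
  have k3 : ∀ n : ℕ, addOrderOf (L.mkQ (ρ g y - y)) ∣ n ↔ (n : ℤ) • (ρ g y - y) ∈ L := fun n => by
    rw [addOrderOf_dvd_iff_nsmul_eq_zero, ← map_nsmul, natCast_zsmul, Submodule.mkQ_apply,
      Submodule.Quotient.mk_eq_zero]
  rw [← one_smul ℤ (_ - y), ← Nat.cast_one, ← k3, Nat.dvd_one]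
  by_contra k
  obtain ⟨q, hq, k4⟩ := Nat.exists_prime_and_dvd k
  obtain ⟨c, e'⟩ := k4.trans ((k3 e).2 (he _ (sub_mem (h.dinv g y hy) hy)))
  have k5 : ¬ q ∣ c := fun k => hq.not_isUnit (sq q (e' ▸ mul_dvd_mul_left q k))
  obtain ⟨t1, t2⟩ := t_step h hmin hq.ne_zero
  have t3 : L ≤ dual B L ⊓ L.comap (mu q) :=
    le_inf h.lat.le_dual fun y hy => Submodule.smul_mem _ _ hy
  refine k5 (k4.trans ((k3 c).2 ?_))
  rw [smul_sub, ← map_zsmul]
  refine eta V B (ρ g) L _ q h.set.pd h.set.iso hq (k2 q hq ⟨c, e'⟩) t3 inf_le_left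
    (fun y hy => hy.2) (h.linv g) (fun y hy => ⟨h.dinv g y hy.1, inv_comap (h.linv g) hy.2⟩)
    (fun x hx => ?_)
    (ri_ne t3 (fg_of_le h.dfg inf_le_left) h.full) ?_ _ (k1 q c e' y hy)
  · rw [dual_T h] at hx
    obtain ⟨a, ha, _, ⟨b, hb, rfl⟩, rfl⟩ := Submodule.mem_sup.1 hx.2
    obtain ⟨i, j, hij⟩ := Nat.isCoprime_iff_coprime.2 ((Nat.Prime.coprime_iff_not_dvd hq).2 k5)
    have := add_mem (L.smul_mem i (sub_mem hx.1.2 (L.smul_mem (q : ℤ) ha))) (L.smul_mem j (he b hb))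
    refine add_mem ha (by
      convert this using 1
      simp only [mu_apply, e', Nat.cast_mul]
      linear_combination (norm := module) hij.symm • ((q : ℤ) • b))
  · obtain ⟨r, -, hr⟩ := (Nat.dvd_prime_pow hq).1 (Dvd.intro _ t2)
    have := (Nat.mul_le_mul_left _ t1).trans t2.le
    rw [hr, ← pow_add, Nat.pow_le_pow_iff_right hq.one_lt] at this
    exact hr.le.trans (Nat.pow_le_pow_right hq.pos (by omega))

end Cfsg.Agent.H28.F23
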