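import Mathlib
import Cfsg.Agent.H97.JmDefs
import Cfsg.Agent.H33.J4Odd1

/-!
# The normalizer of a subgroup of order 29 is maximal
-/

set_option autoImplicit false

namespace Cfsg.Agent.H97.JM

open Subgroup Cfsg.Agent.H33.J4O

universe u

namespace P29

/-- The test when `37` and `43` divide the order. -/
def tA (n : ℕ) : Bool :=
  n % 812 != 0 || n % 37 != 0 || n % 43 != 0 || n / 812 % 29 != 1 || !ok n ||
    n == 86775571046077562880

/-- The test when `3`, `5`, `11` do not divide the order. -/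
def tB (n : ℕ) : Bool :=
  n % 812 != 0 || n % 3 == 0 || n % 5 == 0 || n % 11 == 0 || n / 812 % 29 != 1 || !ok n ||
    n == 812

theorem eqns : True := by
  have := @tA.eq_1
  have := @tB.eq_1
  trivial

theorem allA : allD tA = true := by decide +kernel

theorem allB : allD tB = true := by decide +kernel

theorem useA (hALLD : ALLD) {n : ℕ} (hn : n ∣ 86775571046077562880) (h1 : 812 ∣ n) (h2 : 37 ∣ n)
    (h3 : 43 ∣ n) (h4 : n / 812 % 29 = 1) (h5 : ok n = true) : n = 86775571046077562880 := by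
  have h := hALLD tA allA n hn
  have e1 := Nat.mod_eq_zero_of_dvd h1
  have e2 := Nat.mod_eq_zero_of_dvd h2
  have e3 := Nat.mod_eq_zero_of_dvd h3
  simpa [tA, e1, e2, e3, h4, h5] using h

theorem useB (hALLD : ALLD) {n : ℕ} (hn : n ∣ 86775571046077562880) (h1 : 812 ∣ n) (h2 : ¬ 3 ∣ n)
    (h3 : ¬ 5 ∣ n) (h3' : ¬ 11 ∣ n) (h4 : n / 812 % 29 = 1) (h5 : ok n = true) : n = 812 := by
  have h := hALLD tB allB n hn
  have e1 := Nat.mod_eq_zero_of_dvd h1
  have e2 : n % 3 ≠ 0 := fun e => h2 (Nat.dvd_of_mod_eq_zero e)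
  have e3 : n % 5 ≠ 0 := fun e => h3 (Nat.dvd_of_mod_eq_zero e)
  have e4 : n % 11 ≠ 0 := fun e => h3' (Nat.dvd_of_mod_eq_zero e)
  simpa [tB, e1, e2, e3, e4, h4, h5] using h

/-- The invariant Sylow subgroup of the complement has order `1` modulo `7`. -/
theorem part {G : Type u} [Group G] [Finite G] (hFIX : FIX.{u}) (hINV : INV.{u}) {R : Subgroup G}
    {x h : G} (hx : orderOf x = 7) (hh : orderOf h = 28) (hxR : x ∈ normalizer (R : Set G))
    (h7 : ¬ 7 ∣ Nat.card R) (hC : R ⊓ centralizer ({x} : Set G) ≤ zpowers h) {q : ℕ}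
    (hq : q.Prime) (hc : q.Coprime 28) :
    ∃ S : Subgroup G, S ≤ R ∧ Nat.card S = q ^ (Nat.card R).factorization q ∧
      x ∈ normalizer (S : Set G) ∧ q ^ (Nat.card R).factorization q % 7 = 1 := by
  obtain ⟨S, hSR, hS, hxS⟩ := hINV G R 7 q x (by norm_num) hq hx hxR h7
  refine ⟨S, hSR, hS, hxS, ?_⟩
  have h1 := hFIX G S 7 x (by norm_num) hx hxS
  have d1 : Nat.card ↥(S ⊓ centralizer ({x} : Set G)) ∣ 28 := by
    have := card_dvd_of_le (le_trans (inf_le_inf_right _ hSR) hC)
    rwa [Nat.card_zpowers, hh] at this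
  have d2 : Nat.card ↥(S ⊓ centralizer ({x} : Set G)) ∣ q ^ (Nat.card R).factorization q := by
    rw [← hS]; exact card_dvd_of_le inf_le_left
  have e : Nat.card ↥(S ⊓ centralizer ({x} : Set G)) = 1 :=
    Nat.eq_one_of_dvd_coprimes (Nat.Coprime.pow_left _ hc) d2 d1
  rw [e, hS] at h1
  exact h1

/-- The exponent of a prime in a divisor of the group order. -/
theorem fac_bd {m q e : ℕ} (hq : q.Prime) (hm : m ∣ 86775571046077562880) (hd : q ∣ m)
    (he : ¬ q ^ (e + 1) ∣ 86775571046077562880) :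
    1 ≤ m.factorization q ∧ m.factorization q ≤ e := by
  have m0 : m ≠ 0 := by rintro rfl; norm_num at hm
  refine ⟨hq.factorization_pos_of_dvd m0 hd, ?_⟩
  by_contra hlt
  exact he ((pow_dvd_pow q (by omega)).trans ((Nat.ordProj_dvd m q).trans hm))

end P29

theorem pP29 (hALLD : ALLD) (hOK : OK.{u}) (hSYL : SYL.{u}) (hNC : NC.{u}) (hFIX : FIX.{u})
    (hINV : INV.{u}) : P29.{u} := by
  intro G _ _ ctx ⟨g, h, hg, hh, hgh, hC⟩
  refine ⟨g, hg, ?_⟩
  haveI : Fact (Nat.Prime 29) := ⟨by norm_num⟩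
  haveI : Fact (Nat.Prime 11) := ⟨by norm_num⟩
  have hM : Nat.card (normalizer ((zpowers g : Subgroup G) : Set G)) = 812 :=
    (ctx.big 29 28 (by simp) g hg).2
  obtain ⟨S, hS⟩ := exists_sylow (p := 29) (A := zpowers g) (k := 1)
    (by rw [Nat.card_zpowers, hg]; norm_num) (by rw [ctx.card]; norm_num)
  refine ⟨fun e => ?_, fun H hH => ?_⟩
  · rw [e, card_top, ctx.card] at hM
    norm_num at hM
  have hgH : g ∈ H := hH.le (le_normalizer (mem_zpowers g))
  have hhH : h ∈ H := hH.le (mem_norm_zp hgh)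
  have hn : Nat.card H ∣ 86775571046077562880 := ctx.card ▸ card_subgroup_dvd_card H
  have h812 : 812 ∣ Nat.card H := hM ▸ card_dvd_of_le hH.le
  have hcg : Nat.card H / 812 % 29 = 1 := by
    have := hSYL G 29 S _ H (hS ▸ le_normalizer) hH.le (hS ▸ inf_le_right)
    rwa [hM] at this
  have hok := hOK G ctx H
  by_cases hA : 37 ∣ Nat.card H ∧ 43 ∣ Nat.card H
  · have := P29.useA hALLD hn h812 hA.1 hA.2 hcg hok
    exact eq_top_of_card_eq H (this.trans ctx.card.symm)
  exfalso
  have hx : orderOf (h ^ 4) = 7 := by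
    rw [orderOf_pow' h (by norm_num), hh]; norm_num
  have hxH : h ^ 4 ∈ H := pow_mem hhH 4
  have hN : H ⊓ normalizer ((zpowers (h ^ 4) : Subgroup G) : Set G) ≤ zpowers h := by
    intro n hn
    exact (hC H hgH hhH n hn.1 (norm_mem hn.2 (mem_zpowers _))).resolve_right hA
  have hN' : H ⊓ centralizer ({h ^ 4} : Set G) ≤ zpowers h :=
    le_trans (inf_le_inf_left _ (cent_le_norm _)) hN
  obtain ⟨R, hRH, hHR, hcR, h7⟩ := hNC G H 7 (h ^ 4) (by norm_num) hxH hx
    (by
      intro n hn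
      obtain ⟨k, rfl⟩ := mem_zpowers_iff.mp (hN hn)
      rw [mcs, ← zpow_natCast, ← zpow_add, ← zpow_add, add_comm])
    (by
      intro hd
      have := hd.trans (card_dvd_of_le hN')
      rw [Nat.card_zpowers, hh] at this
      norm_num at this)
  have hRC : R ⊓ centralizer ({h ^ 4} : Set G) ≤ zpowers h :=
    le_trans (inf_le_inf_right _ hRH) hN'
  have hRn : Nat.card R ∣ 86775571046077562880 := ctx.card ▸ card_subgroup_dvd_card R
  have key : ∀ q : ℕ, q.Prime → q.Coprime 7 → q ∣ Nat.card H → q ∣ Nat.card R := by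
    intro q _ hc hd
    rw [hcR] at hd
    exact hc.dvd_of_dvd_mul_left hd
  have n3 : ¬ 3 ∣ Nat.card H := by
    intro hd
    obtain ⟨T, -, -, -, e⟩ := P29.part hFIX hINV hx hh (hHR hxH) h7 hRC (q := 3) (by norm_num)
      (by norm_num)
    obtain ⟨a1, a2⟩ := P29.fac_bd (q := 3) (e := 3) (by norm_num) hRn
      (key 3 (by norm_num) (by norm_num) hd) (by norm_num)
    generalize (Nat.card R).factorization 3 = a at a1 a2 e
    interval_cases a <;> norm_num at e
  have n5 : ¬ 5 ∣ Nat.card H := by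
    intro hd
    obtain ⟨T, -, -, -, e⟩ := P29.part hFIX hINV hx hh (hHR hxH) h7 hRC (q := 5) (by norm_num)
      (by norm_num)
    obtain ⟨a1, a2⟩ := P29.fac_bd (q := 5) (e := 1) (by norm_num) hRn
      (key 5 (by norm_num) (by norm_num) hd) (by norm_num)
    generalize (Nat.card R).factorization 5 = a at a1 a2 e
    interval_cases a <;> norm_num at e
  have n11 : ¬ 11 ∣ Nat.card H := by
    intro hd
    obtain ⟨T, -, hT, hxT, e⟩ := P29.part hFIX hINV hx hh (hHR hxH) h7 hRC (q := 11) (by norm_num)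
      (by norm_num)
    obtain ⟨a1, a2⟩ := P29.fac_bd (q := 11) (e := 3) (by norm_num) hRn
      (key 11 (by norm_num) (by norm_num) hd) (by norm_num)
    generalize (Nat.card R).factorization 11 = a at a1 a2 e hT
    have a3 : a = 3 := by interval_cases a <;> first | rfl | norm_num at e
    subst a3
    obtain ⟨U, hU⟩ := exists_sylow (p := 11) hT (by rw [ctx.card]; norm_num)
    have := ord_dvd hxT
    rw [← hU, (ctx.n11 U).2, hx] at this
    norm_num at this
  have e := P29.useB hALLD hn h812 n3 n5 n11 hcg hok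
  exact hH.ne (eq_of_le_of_card_ge hH.le (by rw [e, hM]))

end Cfsg.Agent.H97.JM
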