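import Mathlib
import Cfsg.Agent.H28.Act

/-! Sharp 3-transitivity of `PGL₂(F)` on the projective line. -/

set_option autoImplicit false

namespace Cfsg.Agent.H28

open scoped MatrixGroups Matrix LinearAlgebra.Projectivization
open Projectivization

variable {F : Type*} [Field F]

variable (F) in
/-- The point `⟨(1,0)⟩`. -/
def pt0 : ℙ F (Fin 2 → F) := mk F (![1, 0] : Fin 2 → F) (by simp)

variable (F) in
/-- The point `⟨(0,1)⟩`. -/
def pt1 : ℙ F (Fin 2 → F) := mk F (![0, 1] : Fin 2 → F) (by simp)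

/-- The point `⟨(a,1)⟩`. -/
def ptA (a : F) : ℙ F (Fin 2 → F) := mk F (![a, 1] : Fin 2 → F) (by simp)

theorem pt0_ne_pt1 : pt0 F ≠ pt1 F := by simp [pt0, pt1, mk_eq_mk_iff_cross]

theorem pt0_ne_ptA (a : F) : pt0 F ≠ ptA a := by simp [pt0, ptA, mk_eq_mk_iff_cross]

theorem pt1_ne_ptA {a : F} (ha : a ≠ 0) : pt1 F ≠ ptA a := by
  simp [pt1, ptA, mk_eq_mk_iff_cross, ha.symm]

theorem exists_gl_three (a b c : ℙ F (Fin 2 → F)) (hab : a ≠ b) (hac : a ≠ c) (hbc : b ≠ c) :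
    ∃ g : GL (Fin 2) F, g • pt0 F = a ∧ g • pt1 F = b ∧ g • ptA (1 : F) = c := by
  induction a using Projectivization.ind with | _ u hu =>
  induction b using Projectivization.ind with | _ v hv =>
  induction c using Projectivization.ind with | _ w hw =>
  simp only [ne_eq, mk_eq_mk_iff_cross] at hab hac hbc
  have hd : u 0 * v 1 - u 1 * v 0 ≠ 0 := sub_ne_zero.2 hab
  have hs : w 0 * v 1 - w 1 * v 0 ≠ 0 := by
    intro h; apply hbc; linear_combination -h
  have ht : u 0 * w 1 - u 1 * w 0 ≠ 0 := sub_ne_zero.2 hac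
  refine ⟨Matrix.GeneralLinearGroup.mkOfDetNeZero
    !![(w 0 * v 1 - w 1 * v 0) * u 0, (u 0 * w 1 - u 1 * w 0) * v 0;
       (w 0 * v 1 - w 1 * v 0) * u 1, (u 0 * w 1 - u 1 * w 0) * v 1] ?_, ?_, ?_, ?_⟩
  · rw [Matrix.det_fin_two_of]
    have := mul_ne_zero (mul_ne_zero hs ht) hd
    convert this using 1
    ring
  all_goals
    simp only [pt0, pt1, ptA]
    rw [smul_mk, mk_eq_mk_iff_cross]
    simp [Units.smul_def, Matrix.mulVec, dotProduct, Fin.sum_univ_two]
    ring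

theorem gl_fix_pt0_iff (g : GL (Fin 2) F) : g • pt0 F = pt0 F ↔ g.val 1 0 = 0 := by
  simp only [pt0]
  rw [smul_mk, mk_eq_mk_iff_cross]
  simp [Units.smul_def, Matrix.mulVec, dotProduct, Fin.sum_univ_two, eq_comm]

theorem gl_fix_pt1_iff (g : GL (Fin 2) F) : g • pt1 F = pt1 F ↔ g.val 0 1 = 0 := by
  simp only [pt1]
  rw [smul_mk, mk_eq_mk_iff_cross]
  simp [Units.smul_def, Matrix.mulVec, dotProduct, Fin.sum_univ_two]

theorem gl_smul_ptA_iff (g : GL (Fin 2) F) (a b : F) :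
    g • ptA a = ptA b ↔ g.val 0 0 * a + g.val 0 1 = (g.val 1 0 * a + g.val 1 1) * b := by
  simp only [ptA]
  rw [smul_mk, mk_eq_mk_iff_cross]
  simp [Units.smul_def, Matrix.mulVec, dotProduct, Fin.sum_univ_two]

theorem mem_center_of_fix_three (g : GL (Fin 2) F) (h1 : g • pt0 F = pt0 F)
    (h2 : g • pt1 F = pt1 F) (h3 : g • ptA (1 : F) = ptA 1) :
    g ∈ Subgroup.center (GL (Fin 2) F) := by
  rw [gl_fix_pt0_iff] at h1
  rw [gl_fix_pt1_iff] at h2
  rw [gl_smul_ptA_iff] at h3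
  rw [Matrix.GeneralLinearGroup.mem_center_iff_val_mem_range_scalar]
  refine ⟨g.val 0 0, ?_⟩
  ext i j
  fin_cases i <;> fin_cases j <;> simp [h1, h2]
  simpa [h1, h2] using h3

theorem mem_center_of_fix_three' (g : GL (Fin 2) F) (a b c : ℙ F (Fin 2 → F)) (hab : a ≠ b)
    (hac : a ≠ c) (hbc : b ≠ c) (ha : g • a = a) (hb : g • b = b) (hc : g • c = c) :
    g ∈ Subgroup.center (GL (Fin 2) F) := by
  obtain ⟨h, rfl, rfl, rfl⟩ := exists_gl_three a b c hab hac hbc
  have := mem_center_of_fix_three (h⁻¹ * g * h) (by rw [mul_smul, mul_smul, ha, inv_smul_smul])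
    (by rw [mul_smul, mul_smul, hb, inv_smul_smul]) (by rw [mul_smul, mul_smul, hc, inv_smul_smul])
  have h2 := (inferInstance : (Subgroup.center (GL (Fin 2) F)).Normal).conj_mem _ this h
  simpa [mul_assoc] using h2

theorem pgl_mk_smul {ι : Type*} [Fintype ι] [DecidableEq ι] (g : GL ι F) (p : ℙ F (ι → F)) :
    (Matrix.ProjGenLinGroup.mk g) • p = g • p := rfl

theorem sl_smul_eq_gl {ι : Type*} [Fintype ι] [DecidableEq ι] (g : Matrix.SpecialLinearGroup ι F)
    (p : ℙ F (ι → F)) : g • p = (Matrix.SpecialLinearGroup.toGL g) • p := by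
  induction p using Projectivization.ind with | _ v hv => rfl

end Cfsg.Agent.H28
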