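import Mathlib
import Cfsg.Agent.H87.PSDefs
import Cfsg.Agent.Eqn.Cfsg_Agent_H87_PS_uu

/-! Project PS, pieces I1 and I2: the numbers in the imprimitive case. -/

set_option autoImplicit false

namespace Cfsg.Agent.H28.PsI

open Cfsg.Agent.H87.PS

/-- A bound for the order of the group on the blocks. -/
def yb (s v : ℕ) : ℕ := if v ≤ 2 * s + 2 ∨ v ≤ 8 then v.factorial else 4 ^ v

/-- The search for the number of points. -/
def kb (n m s c T : ℕ) : ℕ → ℕ → ℕ → Bool
  | 0, _, _ => false
  | f + 1, u, a => if u < m then decide (a ≤ T) else kb n m s c T f (u * (s - 2) / (n - 1)) (a * c)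

/-- The bound is at most `T`. -/
def chk (n m s v T : ℕ) : Bool :=
  if s = 2 then decide (n * yb s v * 2 ^ (v - (m - 1) / 2) ≤ T)
  else kb n m s (s * yb s v) T 20 ((n - 1) * (s - 1)) (n * yb s v)

/-- One row of the first table. -/
def row (s : ℕ) : Bool := (List.range (2500 / s + 1)).all fun v =>
  decide (v < 2) || decide (s * v + 1 < 22) ||
    chk (s * v + 1) ((s * v - 2) / 4) s v (3 ^ (s * v + 1))

/-- One row of the second table. -/
def row2 (n : ℕ) : Bool := (List.range (tm n + 1)).all fun t => decide (t < 2) ||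
  (List.range n).all fun s => decide (s < 2) || decide ((n - t + 1) % s ≠ 0) ||
    decide ((n - t + 1) / s < 2) || chk (n - t + 2) (max ((n - 3) / 4) (2 * t - 2)) s
      ((n - t + 1) / s) (4 ^ n / n.descFactorial (t - 2))

/-- One row of the third table. -/
def row3 (n : ℕ) : Bool := (List.range (tm n + 1)).all fun t => decide (t < 2) ||
  decide (n.descFactorial (t - 2) * 3 ^ (n - t + 2) ≤ 4 ^ n)

theorem eqns : True := by
  have := @yb.eq_1
  have := @kb.eq_1
  have := @kb.eq_2
  have := @kb.eq_def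
  have := @chk.eq_1
  have := @row.eq_1
  have := @row2.eq_1
  have := @row3.eq_1
  trivial

theorem tab1 : ∀ s < 1251, 2 ≤ s → row s = true := by decide +kernel

theorem tab2 : ∀ n < 62, 22 ≤ n → row2 n = true := by decide +kernel

theorem tab3 : ∀ n < 1001, 62 ≤ n → row3 n = true := by decide +kernel

theorem kb_sound {n m s c T : ℕ} : ∀ f k a, kb n m s c T f (uu n s k) a = true →
    ∃ j, uu n s (k + j) < m ∧ a * c ^ j ≤ T
  | 0, _, _, h => by simp [kb] at h
  | f + 1, k, a, h => by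
    rw [kb] at h
    split_ifs at h with h1
    · exact ⟨0, h1, by simpa using h⟩
    · obtain ⟨j, h2, h3⟩ := kb_sound f (k + 1) _ h
      exact ⟨j + 1, by rwa [← add_assoc, add_right_comm], by rwa [pow_succ', ← mul_assoc]⟩

theorem chk_sound {n m m0 s v y x T : ℕ} (hm : m0 ≤ m) (h0 : 0 < m0) (h1 : y ≤ v.factorial)
    (h2 : v ≤ 2 * s + 2 ∨ y ≤ 4 ^ v) (h3 : ∀ w, (v - w) * s < m → x ≤ n * y * s.factorial ^ w)
    (h4 : ∀ k, uu n s k < m → x ≤ n * y * (s * y) ^ k) (h : chk n m0 s v T = true) : x ≤ T := by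
  have hy : y ≤ yb s v := by
    unfold yb
    split_ifs with k
    · exact h1
    · exact h2.resolve_left fun e => k (.inl e)
  unfold chk at h
  split_ifs at h with k
  · subst k
    refine (h3 (v - (m0 - 1) / 2) (by omega)).trans (le_trans ?_ (of_decide_eq_true h))
    exact Nat.mul_le_mul_right _ (Nat.mul_le_mul_left _ hy)
  · obtain ⟨j, k1, k2⟩ := kb_sound 20 0 _ h
    rw [zero_add] at k1
    refine (h4 j (k1.trans_le hm)).trans (le_trans ?_ k2)
    gcongr

theorem grow {c d a b N : ℕ} (h0 : 0 < N) (h1 : c * N ^ d * a ^ N ≤ b ^ N)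
    (h2 : (N + 1) ^ d * a ≤ N ^ d * b) {n : ℕ} (hn : N ≤ n) : c * n ^ d * a ^ n ≤ b ^ n := by
  induction n, hn using Nat.le_induction with
  | base => exact h1
  | succ n hn ih =>
    have k : (N * (n + 1)) ^ d ≤ ((N + 1) * n) ^ d := Nat.pow_le_pow_left (by nlinarith) d
    rw [mul_pow, mul_pow] at k
    refine Nat.le_of_mul_le_mul_left ?_ (pow_pos h0 d)
    calc _ = N ^ d * (n + 1) ^ d * (c * a ^ n * a) := by ring
      _ ≤ (N + 1) ^ d * n ^ d * (c * a ^ n * a) := Nat.mul_le_mul_right _ k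
      _ = (N + 1) ^ d * a * (c * n ^ d * a ^ n) := by ring
      _ ≤ N ^ d * b * b ^ n := Nat.mul_le_mul h2 ih
      _ = _ := by ring

theorem uu_le {s v : ℕ} (hs : 0 < s) (k : ℕ) : uu (s * v + 1) s k * v ^ k ≤ s * v * s := by
  induction k with
  | zero => simp [uu]; exact Nat.mul_le_mul_left _ (by omega)
  | succ k ih =>
    refine le_trans ?_ ih
    have h := Nat.div_mul_le_self (uu (s * v + 1) s k * (s - 2)) (s * v)
    have h2 : uu (s * v + 1) s (k + 1) * v ≤ uu (s * v + 1) s k := by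
      refine Nat.le_of_mul_le_mul_left ?_ hs
      calc _ = uu (s * v + 1) s k * (s - 2) / (s * v) * (s * v) := by
            rw [uu, Nat.add_sub_cancel]; ring
        _ ≤ uu (s * v + 1) s k * s := h.trans (Nat.mul_le_mul_left _ (by omega))
        _ = _ := mul_comm _ _
    rw [pow_succ', ← mul_assoc]
    exact Nat.mul_le_mul_right _ h2

theorem i1 : I1Stmt := by
  rintro n m x hn hm ⟨s, v, y, rfl, s2, v2, h1, h2, h3, h4⟩
  by_cases big : s * v ≤ 2500
  · have k := tab1 s (by nlinarith) s2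
    rw [row, List.all_eq_true] at k
    have k1 := k v (List.mem_range.2 (Nat.lt_succ_of_le
      ((Nat.le_div_iff_mul_le (by omega)).2 (by rwa [mul_comm]))))
    simp only [Bool.or_eq_true, decide_eq_true_eq] at k1
    exact chk_sound (by omega) (by omega) h1 h2 h3 h4 (k1.resolve_left (by omega))
  rcases s2.eq_or_lt with rfl | s3
  · have k := grow (c := 1) (d := 1) (a := 8) (b := 9) (N := 30) (by norm_num) (by norm_num)
      (by norm_num) (n := v) (by omega)
    have k1 := h3 v (by simp; omega)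
    have k2 := h2.resolve_left (by omega)
    calc x ≤ 3 * v * 4 ^ v * 2 ^ v := k1.trans (Nat.mul_le_mul_right _ (Nat.mul_le_mul (by omega) k2))
      _ = 3 * (1 * v ^ 1 * 8 ^ v) := by rw [show 8 = 4 * 2 from rfl, mul_pow]; ring
      _ ≤ 3 * 9 ^ v := Nat.mul_le_mul_left _ k
      _ = _ := by rw [pow_succ', pow_mul]; norm_num
  have sn : s ≤ s * v + 1 := by nlinarith
  by_cases c : y ≤ 4 ^ v ∧ (s - 1) * (s - 2) < m
  · have k := grow (c := 1) (d := 6) (a := 16) (b := 27) (N := 100) (by norm_num) (by norm_num)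
      (by norm_num) (n := s * v + 1) (by omega)
    have k1 := h4 1 (by
      simp only [uu, Nat.add_sub_cancel]
      rw [mul_assoc, Nat.mul_div_cancel_left _ (by omega)]
      exact c.2)
    have k2 : 3 * v ≤ s * v + 1 := by nlinarith
    generalize s * v + 1 = n at *
    refine (Nat.pow_le_pow_iff_left three_ne_zero).1 ?_
    calc x ^ 3 ≤ (n * 4 ^ v * (n * 4 ^ v) ^ 1) ^ 3 := by
          have := c.1
          exact Nat.pow_le_pow_left (k1.trans (by gcongr)) 3
      _ = 1 * n ^ 6 * 16 ^ (3 * v) := by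
          rw [show 16 = 4 ^ 2 from rfl, ← pow_mul]; ring
      _ ≤ 1 * n ^ 6 * 16 ^ n := by gcongr; norm_num
      _ ≤ 27 ^ n := k
      _ = _ := by rw [← pow_mul, mul_comm, pow_mul]; norm_num
  have r1 := Nat.sqrt_le' (s * v + 1)
  have r2 := Nat.lt_succ_sqrt' (s * v + 1)
  generalize Nat.sqrt (s * v + 1) = r at r1 r2
  rw [Nat.succ_eq_add_one] at r2
  have r3 : 50 ≤ r := by nlinarith
  have hv : v ≤ 3 * r := by
    by_contra k
    push Not at k
    by_cases k1 : v ≤ 2 * s + 2
    · nlinarith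
    have k2 : m ≤ (s - 1) * (s - 2) := not_lt.1 fun e => c ⟨h2.resolve_left k1, e⟩
    have k3 : 3 * s ≤ r + 2 := by nlinarith
    obtain ⟨a, rfl⟩ : ∃ a, s = a + 2 := ⟨s - 2, by omega⟩
    rw [show a + 2 - 1 = a + 1 from rfl, Nat.add_sub_cancel] at k2
    nlinarith
  have ex : ∃ k, 5 * s ≤ v ^ k := ⟨5 * s, (Nat.lt_pow_self (by omega)).le⟩
  have e1 := Nat.find_spec ex
  obtain ⟨j, hj⟩ : ∃ j, Nat.find ex = j + 1 := ⟨Nat.find ex - 1, by
    have : Nat.find ex ≠ 0 := fun e => by rw [e, pow_zero] at e1; omega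
    omega⟩
  have e2 : v ^ j < 5 * s := not_le.1 (Nat.find_min ex (by omega))
  rw [hj] at e1
  have k1 := h4 (j + 1) (by
    have a1 := uu_le (s := s) (v := v) (by omega) (j + 1)
    have a2 : s * (5 * uu (s * v + 1) s (j + 1)) ≤ s * (s * v) := by nlinarith
    have := Nat.le_of_mul_le_mul_left a2 (by omega)
    omega)
  have k2 : j + 2 ≤ r := by
    by_contra k
    have a1 := grow (c := 20) (d := 2) (a := 1) (b := 2) (N := 51) (by norm_num) (by norm_num)
      (by norm_num) (n := r + 1) (by omega)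
    have a2 : 2 ^ (r + 1) ≤ 2 ^ (j + 2) := Nat.pow_le_pow_right two_pos (by omega)
    have a3 : 2 ^ j ≤ v ^ j := Nat.pow_le_pow_left v2 j
    rw [pow_add 2 j] at a2
    rw [one_pow] at a1
    omega
  have k3 := grow (c := 10125) (d := 11) (a := 1) (b := 3) (N := 51) (by norm_num) (by norm_num)
    (by norm_num) (n := r + 1) (by omega)
  have k4 : v ^ (j + 2) ≤ 15 * (r + 1) ^ 3 := by
    calc _ = v ^ j * v * v := by ring
      _ ≤ 5 * s * v * (3 * (r + 1)) := Nat.mul_le_mul (Nat.mul_le_mul_right _ e2.le) (by omega)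
      _ = 15 * (s * v) * (r + 1) := by ring
      _ ≤ 15 * (r + 1) ^ 2 * (r + 1) := by gcongr; omega
      _ = _ := by ring
  have k5 : y ≤ v ^ v := h1.trans (Nat.factorial_le_pow v)
  generalize s * v + 1 = n at *
  calc x ≤ (r + 1) ^ 2 * v ^ v * ((r + 1) ^ 2 * v ^ v) ^ (j + 1) :=
        k1.trans (by gcongr; omega)
    _ = ((r + 1) ^ 2) ^ (j + 2) * (v ^ (j + 2)) ^ v := by
        rw [← pow_succ', mul_pow, ← pow_mul v, mul_comm v, pow_mul v]
    _ ≤ ((r + 1) ^ 2) ^ r * (15 * (r + 1) ^ 3) ^ (3 * r) :=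
        Nat.mul_le_mul (Nat.pow_le_pow_right (by positivity) k2)
          ((Nat.pow_le_pow_left k4 v).trans (Nat.pow_le_pow_right (by positivity) hv))
    _ = (3375 * (r + 1) ^ 11) ^ r := by
        rw [pow_mul (15 * (r + 1) ^ 3) 3 r, ← mul_pow]; congr 1; ring
    _ ≤ (3 ^ r) ^ r := Nat.pow_le_pow_left (by rw [pow_succ 3, one_pow] at k3; omega) r
    _ ≤ _ := by rw [← pow_mul, ← pow_two]; exact Nat.pow_le_pow_right (by norm_num) r1

theorem i2 : I2Stmt := by
  intro i1 tb n t m x hn t2 tok hm ht imp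
  by_cases big : 1000 ≤ n
  · have k := tb n t big tok
    have k1 : t ≤ n / 6 := (Nat.pow_le_pow_iff_right one_lt_two).1
      ((Nat.pow_le_pow_left (by omega) t).trans k)
    have k2 := (i1 _ m x (by omega) (by omega) imp).trans
      (Nat.pow_le_pow_right (by norm_num) (by omega : n - t + 2 ≤ n))
    have k3 := ((Nat.descFactorial_le_pow n (t - 2)).trans
      (Nat.pow_le_pow_right (by omega) (by omega : t - 2 ≤ t))).trans k
    refine (Nat.mul_le_mul k3 k2).trans ((Nat.pow_le_pow_iff_left (by norm_num : 6 ≠ 0)).1 ?_)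
    calc _ = 2 ^ (n / 6 * 6) * 729 ^ n := by
          rw [mul_pow, ← pow_mul, ← pow_mul, mul_comm n, pow_mul 3]; norm_num
      _ ≤ 2 ^ n * 729 ^ n := by gcongr; norm_num; omega
      _ ≤ 4096 ^ n := by rw [← mul_pow]; exact Nat.pow_le_pow_left (by norm_num) n
      _ = _ := by rw [← pow_mul, mul_comm n, pow_mul]; norm_num
  have k0 := tm_le n (by omega) hn
  have k1 := le_tm tok (by omega)
  by_cases mid : 62 ≤ n
  · have k := tab3 n (by omega) mid
    rw [row3, List.all_eq_true] at k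
    have k2 := k t (List.mem_range.2 (by omega))
    simp only [Bool.or_eq_true, decide_eq_true_eq] at k2
    exact (Nat.mul_le_mul_left _ (i1 _ m x (by omega) (by omega) imp)).trans
      (k2.resolve_left (by omega))
  obtain ⟨s, v, y, e, s2, v2, h1, h2, h3, h4⟩ := imp
  have k := tab2 n (by omega) hn
  rw [row2, List.all_eq_true] at k
  have k2 := k t (List.mem_range.2 (by omega))
  simp only [Bool.or_eq_true, decide_eq_true_eq, List.all_eq_true] at k2
  have e' : n - t + 1 = s * v := by omega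
  have e2 : s * 2 ≤ s * v := Nat.mul_le_mul_left _ v2
  have k3 := k2.resolve_left (by omega) s (List.mem_range.2 (by omega))
  rw [e', Nat.mul_mod_right, Nat.mul_div_cancel_left _ (by omega)] at k3
  have k4 := chk_sound (by omega) (by omega) h1 h2 h3 h4 (k3.resolve_left (by omega))
  exact (Nat.mul_le_mul_left _ k4).trans (Nat.mul_div_le _ _)

end Cfsg.Agent.H28.PsI
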