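import Mathlib
import Cfsg.Agent.H35.RfQ

/-! Project RF (row 3318), piece TVQ: no transvections on `Q / ⟨z⟩`. -/

set_option autoImplicit false

namespace Cfsg.Agent.H28.RfTvq

open Cfsg Subgroup Cfsg.Agent.H18.Rf Cfsg.Agent.H35.RF
open Cfsg.Agent.H49 (XS mem_zpowers_invol)

universe u

theorem tvq : TvqStmt.{u} := by
  intro G _ _ V z Q W hV h y hy hc
  have x := h.xs
  have zz := x.zz
  have zi : z⁻¹ = z := inv_eq_of_mul_eq_one_right zz
  have hN : ∀ g : G, g * z = z * g → g ∈ NN (zpowers z) := fun g hg =>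
    centralizer_le_normalizer _ (mem_centralizer_iff.2 fun w hw => by
      rcases (mem_zpowers_invol zz).1 hw with rfl | rfl
      · simp
      · exact hg.symm)
  have yz : y * z = z * y := (mem_centralizer_singleton_iff.1 hy.2)
  have yz' : y * z * y⁻¹ = z := by rw [yz, mul_inv_cancel_right]
  have fQ : ∀ q ∈ Q, y * q * y⁻¹ ∈ Q := fun q hq => (mem_normalizer_iff.1 (h.mq hy) q).1 hq
  have fV : ∀ q ∈ V, y * q * y⁻¹ ∈ V := fun q hq => (mem_normalizer_iff.1 hy.1 q).1 hq
  set D := Q ⊓ CM {y} (zpowers z) with hD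
  have memD : ∀ q ∈ Q, q ∈ D ↔ y * q * y⁻¹ * q⁻¹ ∈ zpowers z := fun q hq => by
    rw [← inv_mem_iff (x := y * q * y⁻¹ * q⁻¹), show (y * q * y⁻¹ * q⁻¹)⁻¹ = q * y * q⁻¹ * y⁻¹ by
      group]
    exact ⟨fun hq => hq.2.2 y rfl, fun h' => ⟨hq, hN q (x.cen q hq), by rintro _ rfl; exact h'⟩⟩
  have key : ∀ a ∈ Q, a ∉ D → (∀ d ∈ D, d * (y * a * y⁻¹ * a⁻¹) = y * a * y⁻¹ * a⁻¹ * d) ∧
      y * a * y⁻¹ * a⁻¹ * (y * a * y⁻¹ * a⁻¹) ≠ 1 := fun a ha haD => by
    have k1 : ∀ d ∈ D, d * (y * a * y⁻¹ * a⁻¹) = y * a * y⁻¹ * a⁻¹ * d := fun d hd => by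
      have bz := x.cen _ (fQ a ha)
      have dz := x.cen d hd.1
      have e : ∃ s, s * (y * a * y⁻¹) = y * a * y⁻¹ * s ∧ y * d * y⁻¹ = s * d := by
        rcases (mem_zpowers_invol zz).1 ((memD d hd.1).1 hd) with e | e
        · exact ⟨1, by simp, by rw [one_mul, ← mul_inv_eq_one, e]⟩
        · exact ⟨z, bz.symm, by rw [← e, inv_mul_cancel_right]⟩
      obtain ⟨s, hs, e⟩ := e
      generalize hb : y * a * y⁻¹ = b at *
      rcases x.comm d hd.1 a ha with e1 | e1
      · have e2 : s * d * b = b * (s * d) := by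
          rw [← e, ← hb]
          calc _ = y * (d * a) * y⁻¹ := by group
            _ = _ := by rw [e1]; group
        rw [← mul_assoc, ← hs, mul_assoc, mul_assoc, mul_right_inj] at e2
        rw [← mul_assoc, e2, mul_assoc, mul_assoc, (show Commute d a from e1).inv_right.eq]
      · have e2 : s * d * b = b * (s * d) * z := by
          rw [← e, ← hb]
          nth_rewrite 1 [← yz']
          calc _ = y * (d * a) * y⁻¹ := by group
            _ = _ := by rw [e1]; group
        rw [← mul_assoc, ← hs, mul_assoc, mul_assoc, mul_assoc, mul_right_inj] at e2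
        have e3 : a⁻¹ * d = d * z * a⁻¹ := by
          rw [eq_mul_inv_iff_mul_eq, mul_assoc, e1]; group
        rw [← mul_assoc, e2, mul_assoc _ a⁻¹, e3]
        group
    refine ⟨k1, fun h1 => haD ((memD a ha).2 ((mem_zpowers_invol zz).2 ?_))⟩
    have cQ : y * a * y⁻¹ * a⁻¹ ∈ Q := mul_mem (fQ a ha) (inv_mem ha)
    have sq : y * (a * a) * y⁻¹ = a * a := by
      have : a * a = 1 ∨ a * a = z := x.cent _ (mul_mem ha ha) fun t ht => by
        rcases x.comm a ha t ht with e | e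
        · rw [mul_assoc, e, ← mul_assoc, e, mul_assoc]
        · rw [mul_assoc, e, ← mul_assoc, ← mul_assoc, e, mul_assoc (t * a), ← x.cen a ha,
            mul_assoc, mul_assoc a z, zz, mul_one, mul_assoc]
      rcases this with e | e <;> rw [e]
      · simp
      · exact yz'
    have ca : y * a * y⁻¹ * a⁻¹ * a = a * (y * a * y⁻¹ * a⁻¹) := by
      have e1 : y * a * y⁻¹ * a⁻¹ * (a * (y * a * y⁻¹ * a⁻¹)) = a := by
        calc _ = y * (a * a) * y⁻¹ * a⁻¹ := by group
          _ = a := by rw [sq]; group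
      generalize y * a * y⁻¹ * a⁻¹ = c at *
      calc c * a = c * (c * (a * c)) := by rw [e1]
        _ = a * c := by rw [← mul_assoc, h1, one_mul]
    have i2 : (D.subgroupOf Q).index = 2 := by
      have e1 := (D.subgroupOf Q).card_mul_index
      rw [Nat.card_congr (subgroupOfEquivOfLe (show D ≤ Q from inf_le_left)).toEquiv] at e1
      have e2 : (D.subgroupOf Q).index ≠ 1 := fun e =>
        haD (show (⟨a, ha⟩ : Q) ∈ D.subgroupOf Q from index_eq_one.1 e ▸ mem_top _)
      have e3 : (D.subgroupOf Q).index ≠ 0 := index_ne_zero_of_finite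
      have e4 : 0 < Nat.card D := Nat.card_pos
      have e5 : (D.subgroupOf Q).index ≤ 2 := by
        rw [← e1, mul_comm 2] at hc
        exact Nat.le_of_mul_le_mul_left hc e4
      omega
    refine x.cent _ cQ fun t ht => ?_
    by_cases htD : t ∈ D
    · exact (k1 t htD).symm
    · have e : a⁻¹ * t ∈ D :=
        (mul_mem_iff_of_index_two i2 (a := ⟨a⁻¹, inv_mem ha⟩) (b := ⟨t, ht⟩)).2
          (iff_of_false (fun h' => haD (inv_mem_iff.1 h')) htD)
      have e1 := k1 _ e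
      generalize y * a * y⁻¹ * a⁻¹ = c at *
      calc c * t = c * a * (a⁻¹ * t) := by group
        _ = a * (a⁻¹ * t * c) := by rw [ca, e1, mul_assoc]
        _ = t * c := by group
  have hW : ∀ w, w ∈ W ↔ w ∈ Q ∧ w ∈ V := fun w => by rw [← h.qv]; rfl
  refine h.cq ⟨hy, hN y yz, fun a ha => (memD a ha).1 (by_contra fun haD => ?_)⟩
  obtain ⟨k1, k2⟩ := key a ha haD
  have cW : y * a * y⁻¹ * a⁻¹ ∈ W := by
    rw [← h.cw]
    refine ⟨Q.mul_mem (fQ a ha) (Q.inv_mem ha), mem_centralizer_iff.2 fun w hw => k1 w ?_⟩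
    obtain ⟨w1, w2⟩ := (hW w).1 hw
    exact by_contra fun hwD => (key w w1 hwD).2 (hV _ (mul_mem (fV w w2) (inv_mem w2)))
  exact k2 (hV _ ((hW _).1 cW).2)

end Cfsg.Agent.H28.RfTvq
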