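import Mathlib
import Cfsg.Agent.H77.SgDefs2
import Cfsg.Agent.H51.SgKit

/-! Project SG, piece CNT: the consequences of the character theory for relations on vectors. -/

set_option autoImplicit false
set_option linter.unusedSectionVars false

namespace Cfsg.Agent.H28.SgCnt

open Cfsg Module Cfsg.Agent.H77.Sg

universe u v

variable {F : Type u} {K : Type v} [Field F] [Field K] [Algebra F K] [Finite F] [Finite K]
  {n q t R : ℕ} {X : Subgroup (K ≃ₗ[F] K)}

theorem finX : Finite X :=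
  have : Finite (K ≃ₗ[F] K) := .of_injective (fun g => (g : K → K)) DFunLike.coe_injective
  inferInstance

/-- The action on the non-zero vectors. -/
@[reducible] def act (X : Subgroup (K ≃ₗ[F] K)) : MulAction X {x : K // x ≠ 0} where
  smul g x := ⟨g.1 x.1, by simpa using x.2⟩
  one_smul _ := rfl
  mul_smul _ _ _ := rfl

/-- The scalar multiplications. -/
def sca (F : Type u) (K : Type v) [Field F] [Field K] [Algebra F K] : Fˣ →* (K ≃ₗ[F] K) :=
  (mulH F K).comp (Units.map (algebraMap F K))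

theorem eqns : True := by
  have := @sca.eq_1.{0, 0}
  trivial

theorem sca_apply (a : Fˣ) (x : K) : sca F K a x = (a : F) • x := (Algebra.smul_def _ _).symm

theorem ncard_nz (p : K → Prop) :
    {x : {x : K // x ≠ 0} | p x}.ncard = {x | x ≠ 0 ∧ p x}.ncard := by
  rw [← Set.ncard_image_of_injective _ Subtype.val_injective]
  congr 1
  ext x
  simp only [Set.mem_image, Set.mem_ofPred_eq, Subtype.exists, exists_and_right, exists_eq_right,
    exists_prop]

theorem comm_P : ∀ a ∈ (Pt F K t).subgroupOf X, ∀ b ∈ (Pt F K t).subgroupOf X, a * b = b * a := by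
  rintro a ⟨s, -, hs⟩ b ⟨s', -, hs'⟩
  refine Subtype.ext ?_
  change a.1 * b.1 = b.1 * a.1
  change mulH F K s = a.1 at hs
  change mulH F K s' = b.1 at hs'
  rw [← hs, ← hs', ← map_mul, ← map_mul, mul_comm]

variable (c : C0 n q t R X)
include c

theorem kit : Kit F K := H51.SgKit.kit F K (c.hn ▸ c.pn)

theorem P_le : Pt F K t ≤ X := by
  rintro _ ⟨s, hs, rfl⟩
  exact (c.mem s).2 ⟨1, s, hs, (one_smul _ _).symm⟩

theorem sca_mem (a : Fˣ) : sca F K a ∈ X :=
  (c.mem _).2 ⟨a, 1, one_pow _, by simp [Algebra.smul_def]⟩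

theorem card_P : Nat.card ((Pt F K t).subgroupOf X) = t := by
  rw [Nat.card_congr (Subgroup.subgroupOfEquivOfLe (P_le c)).toEquiv]
  exact (kit c).cardP t (by rw [c.card]; exact Dvd.intro_left _ rfl)

theorem two_le_q : 2 ≤ q := c.hq ▸ Finite.one_lt_card

theorem one_le_R : 1 ≤ R := by
  have := c.n7
  rcases c.hR with h | h <;> omega

theorem two_le_t : 2 ≤ t := by have := c.big; omega

/-- The normal closure of the torus contains `SS`. -/
theorem SS_le {g : K ≃ₗ[F] K} (hg : g ∈ SS X t) :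
    ∃ j ∈ Subgroup.normalClosure (((Pt F K t).subgroupOf X : Subgroup X) : Set X), j.1 = g := by
  refine (Subgroup.closure_le (Subgroup.map X.subtype _)).2 ?_ hg
  rintro _ ⟨g, hg, s, hs, rfl⟩
  exact ⟨⟨g, hg⟩ * ⟨s, P_le c hs⟩ * ⟨g, hg⟩⁻¹, Subgroup.Normal.conj_mem inferInstance
    (⟨s, P_le c hs⟩ : X) (Subgroup.subset_normalClosure hs) _, rfl⟩

/-- The third hypothesis of `Exc0` for a character of degree `R t`. -/
theorem hyp3 (small : Small0.{u, v}) (h : ∃ g ∈ X, ¬ Nm g) (U : H12.UC X)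
    (hP : U.P = (Pt F K t).subgroupOf X) (he : U.e ≤ n) (ψ : X → ℂ) (hψ : IsIrrCharacter X ψ)
    (hk : ¬ U.P ≤ H11.charKer ψ) : R * t * U.e < charDegree ψ * (Nat.card U.P - 1) := by
  have h1 := small F K n q t R X c h ψ hψ (hP ▸ hk)
  have h2 := c.big
  rw [hP, card_P c]
  obtain ⟨s, rfl⟩ : ∃ s, t = s + 1 := ⟨t - 1, by omega⟩
  have h3 : R * n < s := by nlinarith
  calc _ ≤ R * (s + 1) * n := Nat.mul_le_mul_left _ he
    _ < (R * n + 1) * s := by nlinarith
    _ ≤ _ := Nat.mul_le_mul_right _ h1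

attribute [local instance] act

omit c in
theorem pi_zero {g : X} {a : Kˣ} (e : mulH F K a = g.1) (h : a ≠ 1) :
    H11.permChar X {x : K // x ≠ 0} g = 0 := by
  rw [H11.permChar_apply, Nat.cast_eq_zero, Nat.card_eq_zero]
  refine .inl ⟨fun x => h (Units.ext (mul_right_cancel₀ x.1.2 ?_))⟩
  have : g.1 x.1.1 = x.1.1 := congrArg Subtype.val x.2
  rw [← e] at this
  simpa using this

theorem card_nz : Nat.card {x : K // x ≠ 0} = R * (q - 1) * t := by
  have := Nat.card_congr (unitsEquivNeZero : Kˣ ≃ {x : K // x ≠ 0})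
  rw [← this, Nat.card_units, c.card, Nat.add_sub_cancel]

theorem con [Fintype X] (uc : Uc0.{u, v}) (small : Small0.{u, v}) (exc : Exc0.{v})
    (part : Part0.{v}) (h : ∃ g ∈ X, ¬ Nm g) (χ : X → ℂ) (hχ : IsIrrCharacter X χ)
    (h0 : classInner (H11.permChar X {x : K // x ≠ 0}) χ ≠ 0) :
    ∀ x ∈ (Pt F K t).subgroupOf X, ∀ y ∈ (Pt F K t).subgroupOf X, x ≠ 1 → y ≠ 1 → χ x = χ y := by
  obtain ⟨U, hP, hC, -, he, hτ⟩ := (uc F K n q t R X c).2 X (P_le c) le_rfl
  obtain ⟨π', k1, k2, k3, k4⟩ := part X ((sca F K).range.subgroupOf X) _ χ (by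
    rintro z ⟨a, ha⟩
    refine Subgroup.mem_center_iff.2 fun g => Subtype.ext (LinearEquiv.ext fun x => ?_)
    change sca F K a = z.1 at ha
    change g.1 (z.1 x) = z.1 (g.1 x)
    rw [← ha, sca_apply, sca_apply, map_smul]) (H11.isCharacter_permChar _) (by
    rintro z ⟨a, ha⟩ z1
    exact pi_zero ha fun e => z1 (Subtype.ext (ha.symm.trans (by
      change mulH F K _ = _
      rw [e, map_one]; rfl)))) hχ h0
  have k5 : Nat.card ((sca F K).range.subgroupOf X) = q - 1 := by
    have inj : Function.Injective (sca F K) :=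
      mulH_injective.comp (Units.map_injective (algebraMap F K).injective)
    rw [Nat.card_congr (Subgroup.subgroupOfEquivOfLe (by
      rintro _ ⟨a, rfl⟩; exact sca_mem c a)).toEquiv,
      ← Nat.card_congr (MonoidHom.ofInjective inj).toEquiv, Nat.card_units, c.hq]
  have k6 : charDegree π' = R * t := by
    have := two_le_q c
    refine Nat.eq_of_mul_eq_mul_right (by omega : 0 < q - 1) ?_
    rw [← k5, k3, k5, charDegree, H11.permChar_one, card_nz c, Complex.natCast_re, Nat.floor_natCast]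
    ring
  rw [← hP]
  refine exc X U π' χ k1 (fun d hd => k4 _ ?_) (k6 ▸ hyp3 c small h U hP he) hχ k2
  rintro z ⟨b, hb⟩
  obtain ⟨a, ha⟩ : d.1 ∈ (mulH F K).range.subgroupOf X := hC ▸ d.2
  change mulH F K (Units.map (algebraMap F K) b) = z.1 at hb
  change mulH F K a = d.1.1 at ha
  refine pi_zero (a := Units.map (algebraMap F K) b * a) (by rw [map_mul, hb, ha]; rfl) fun e => ?_
  refine hd ((hτ d).2 ⟨(b⁻¹ : Fˣ), fun x => ?_⟩)
  rw [← ha, eq_inv_of_mul_eq_one_right e, ← map_inv]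
  exact sca_apply b⁻¹ x

omit c in
theorem cntV (str : Str0.{u, v}) (uc : Uc0.{u, v}) (small : Small0.{u, v}) (exc : Exc0.{v})
    (part : Part0.{v}) (spec : SpecStmt.{v, v}) : CntV0.{u, v} := by
  intro F K _ _ _ _ _ n q t R X c h
  classical
  have := finX (X := X)
  have := Fintype.ofFinite X
  have := Fintype.ofFinite {x : K // x ≠ 0}
  have cn := con c uc small exc part h
  have mP : ∀ s : Kˣ, s ^ t = 1 → mulH F K s ∈ Pt F K t := fun s hs => ⟨s, hs, rfl⟩
  have ne : ∀ (s : Kˣ) (hs : s ^ t = 1), s ≠ 1 → (⟨_, P_le c (mP s hs)⟩ : X) ≠ 1 :=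
    fun s hs s1 e => s1 (mulH_injective ((congrArg Subtype.val e).trans (map_one _).symm))
  refine ⟨fun x y hx hy => ?_, fun Γ hΓ s s' hs hs' s1 s1' => ?_, fun Γ hΓ ir k β hk s hs s1 hβ => ?_⟩
  · obtain ⟨g, hg, e⟩ := str F K n q t R X c h x y hx hy
    obtain ⟨j, -, rfl⟩ := SS_le c hg
    exact ⟨j.1, j.2, e⟩
  · let A : Matrix {x : K // x ≠ 0} {x : K // x ≠ 0} ℂ := fun x y => if Γ x y then 1 else 0
    have hA : H59.IsInv X A := fun g a b => if_congr ⟨fun k => by
      simpa using hΓ _ (inv_mem g.2) (g.1 a) (g.1 b) k, hΓ _ g.2 _ _⟩ rfl rfl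
    have e : ∀ (s : Kˣ) (hs : s ^ t = 1), H59.trc X A ⟨_, P_le c (mP s hs)⟩ =
        ({x | x ≠ 0 ∧ Γ x (s * x)}.ncard : ℂ) := fun s hs => by
      rw [← ncard_nz, H59.trc_apply, Set.ncard_eq_toFinset_card', Set.toFinset_ofPred,
        Finset.natCast_card_filter]
      rfl
    refine Nat.cast_injective (R := ℂ) ?_
    rw [← e s hs, ← e s' hs', hA.trc_eq_sum, hA.trc_eq_sum]
    refine Finset.sum_congr rfl fun χ _ => ?_
    by_cases h0 : classInner (H11.permChar X {x : K // x ≠ 0}) χ = 0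
    · rw [hA.coef_eq_zero χ.2 h0, zero_mul, zero_mul]
    · rw [cn χ χ.2 h0 _ (mP s hs) _ (mP s' hs') (ne s hs s1) (ne s' hs' s1')]
  · have q2 := two_le_q c
    refine spec X {x : K // x ≠ 0} ((Pt F K t).subgroupOf X) (R * (q - 1)) t k β
      (fun x y => Γ x y) comm_P (card_P c) (two_le_t c) ?_ (card_nz c)
      (Nat.mul_pos (one_le_R c) (by omega)) (fun x y => ?_) cn (fun g x y => hΓ _ g.2 _ _)
      (fun x => ir x) (fun x => (ncard_nz _).trans (hk x x.2)) ⟨_, P_le c (mP s hs)⟩ (mP s hs)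
      (ne s hs s1) ((ncard_nz fun x => Γ x (s * x)).trans hβ)
    · rintro g ⟨a, -, ha⟩ x e
      change mulH F K a = g.1 at ha
      have e' : g.1 x.1 = x.1 := congrArg Subtype.val e
      rw [← ha] at e'
      have : a = 1 := Units.ext (mul_right_cancel₀ x.2 (by simpa using e'))
      exact Subtype.ext (by rw [← ha, this, map_one]; rfl)
    · obtain ⟨g, hg, e⟩ := str F K n q t R X c h x y x.2 y.2
      obtain ⟨j, hj, rfl⟩ := SS_le c hg
      exact ⟨j, hj, Subtype.ext e⟩

end Cfsg.Agent.H28.SgCnt
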