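import Mathlib
import Cfsg.Agent.H25.S4Defs

/-!
# Clifford generators in `M₄(F)` and elements of order three in `Sp₄(F)`
-/

set_option autoImplicit false

namespace Cfsg.Agent.H28.SA

open Matrix H25 H25.S4

variable {F : Type*} [Field F]

/-- the `k`-span of the ordered monomials -/
def Cl (k : Subfield F) : List (M4 F) → M4 F → Prop
  | [], x => ∃ c ∈ k, x = c • 1
  | f :: L, x => ∃ a b, Cl k L a ∧ Cl k L b ∧ x = a + f * b

variable {k : Subfield F}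

theorem Cl.add : ∀ {L : List (M4 F)} {x y : M4 F}, Cl k L x → Cl k L y → Cl k L (x + y)
  | [], _, _, ⟨c, hc, e⟩, ⟨d, hd, e'⟩ => ⟨c + d, add_mem hc hd, by rw [e, e', add_smul]⟩
  | _ :: _, _, _, ⟨a, b, ha, hb, e⟩, ⟨a', b', ha', hb', e'⟩ =>
    ⟨a + a', b + b', ha.add ha', hb.add hb', by rw [e, e', mul_add]; abel⟩

theorem Cl.smul {c : F} (hc : c ∈ k) : ∀ {L : List (M4 F)} {x : M4 F}, Cl k L x → Cl k L (c • x)
  | [], _, ⟨d, hd, e⟩ => ⟨c * d, mul_mem hc hd, by rw [e, smul_smul]⟩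
  | _ :: _, _, ⟨a, b, ha, hb, e⟩ =>
    ⟨c • a, c • b, ha.smul hc, hb.smul hc, by rw [e, smul_add, mul_smul_comm]⟩

theorem Cl.one : ∀ L : List (M4 F), Cl k L 1
  | [] => ⟨1, one_mem _, (one_smul _ _).symm⟩
  | _ :: L => ⟨1, (0 : F) • 1, Cl.one L, (Cl.one L).smul (zero_mem _), by simp⟩

theorem Cl.mul_gen : ∀ {L : List (M4 F)}, (∀ f ∈ L, ∃ n ∈ k, f * f = n • 1) →
    (∀ f ∈ L, ∀ g ∈ L, ∃ β ∈ k, f * g + g * f = β • 1) → ∀ {g x : M4 F}, g ∈ L → Cl k L x →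
      Cl k L (g * x)
  | f :: L, h1, h2, g, _, hg, ⟨a, b, ha, hb, e⟩ => by
    have ih := fun {g x} => Cl.mul_gen (L := L) (fun f hf => h1 f (List.mem_cons_of_mem _ hf))
      (fun f hf g hg => h2 f (List.mem_cons_of_mem _ hf) g (List.mem_cons_of_mem _ hg))
      (g := g) (x := x)
    rcases List.mem_cons.1 hg with rfl | hg'
    · obtain ⟨n, hn, e'⟩ := h1 g hg
      exact ⟨n • b, a, hb.smul hn, ha, by rw [e, mul_add, ← mul_assoc, e']; simp [add_comm]⟩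
    · obtain ⟨β, hβ, e'⟩ := h2 g hg f List.mem_cons_self
      refine ⟨g * a + β • b, (-1 : F) • (g * b), (ih hg' ha).add (hb.smul hβ),
        (ih hg' hb).smul (neg_mem (one_mem _)), ?_⟩
      rw [e, mul_add, ← mul_assoc, eq_sub_of_add_eq e']
      simp [sub_mul, mul_assoc, add_assoc, sub_eq_add_neg, add_mul]

/-- the multipliers of the span -/
def mult (k : Subfield F) (L : List (M4 F)) : Subring (M4 F) where
  carrier := {y | ∀ x, Cl k L x → Cl k L (y * x)}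
  mul_mem' ha hb x hx := by rw [mul_assoc]; exact ha _ (hb x hx)
  one_mem' x hx := by rwa [one_mul]
  add_mem' ha hb x hx := by rw [add_mul]; exact (ha x hx).add (hb x hx)
  zero_mem' x hx := by simpa using hx.smul (zero_mem k)
  neg_mem' ha x hx := by simpa using (ha x hx).smul (neg_mem (one_mem k))

theorem smul_mem_mult {L : List (M4 F)} {c : F} (hc : c ∈ k) {y : M4 F} (hy : y ∈ mult k L) :
    c • y ∈ mult k L := fun x hx => by rw [smul_mul_assoc]; exact (hy x hx).smul hc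

theorem cl_of_mult {L : List (M4 F)} {y : M4 F} (hy : y ∈ mult k L) : Cl k L y := by
  simpa using hy 1 (Cl.one L)

variable (h2 : (2 : F) ≠ 0)
include h2

theorem eq_zero_of_neg {x : M4 F} (h : x = -x) : x = 0 := by
  have : (2 : F) • x = 0 := by rw [two_smul, ← eq_neg_iff_add_eq_zero, ← h]
  simpa [h2] using this

theorem three {a b c : M4 F} (ha : ad a = -a) (hb : ad b = -b) (hc : ad c = -c)
    (h : ∀ f ∈ [a, b, c], ∀ g ∈ [a, b, c], ∃ β : F, f * g + g * f = β • 1)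
    (hgen : ∀ A : Subalgebra F (M4 F), a ∈ A → b ∈ A → c ∈ A → A = ⊤) : False := by
  have h1 : ∀ g ∈ [a, b, c], g ∈ mult ⊤ [a, b, c] := fun g hg x hx =>
    Cl.mul_gen (fun f hf => by
      obtain ⟨β, e⟩ := h f hf f hf
      exact ⟨2⁻¹ * β, Subfield.mem_top _, by rw [mul_smul, ← e, ← two_smul F, inv_smul_smul₀ h2]⟩)
      (fun f hf g hg => (h f hf g hg).imp fun β e => ⟨Subfield.mem_top _, e⟩) hg hx
  have h3 := hgen ⟨(mult ⊤ [a, b, c]).toSubsemiring, fun r => by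
    rw [Algebra.algebraMap_eq_smul_one]
    exact smul_mem_mult (Subfield.mem_top _) (one_mem _)⟩ (h1 _ (by simp)) (h1 _ (by simp)) (h1 _ (by simp))
  have key : ∀ x : M4 F, ∃ α γ : F, x + ad x = α • 1 + γ • (a * (b * c) - c * b * a) := fun x => by
    obtain ⟨_, _, ⟨_, _, ⟨_, _, ⟨c0, -, rfl⟩, ⟨c1, -, rfl⟩, rfl⟩, ⟨_, _, ⟨c2, -, rfl⟩, ⟨c3, -, rfl⟩,
      rfl⟩, rfl⟩, ⟨_, _, ⟨_, _, ⟨c4, -, rfl⟩, ⟨c5, -, rfl⟩, rfl⟩, ⟨_, _, ⟨c6, -, rfl⟩, ⟨c7, -, rfl⟩,
      rfl⟩, rfl⟩, rfl⟩ := cl_of_mult (h3.ge (Algebra.mem_top (x := x)))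
    obtain ⟨β1, e1⟩ := h b (by simp) c (by simp)
    obtain ⟨β2, e2⟩ := h a (by simp) c (by simp)
    obtain ⟨β3, e3⟩ := h a (by simp) b (by simp)
    refine ⟨2 * c0 + c3 * β1 + c5 * β2 + c6 * β3, c7, ?_⟩
    simp only [mul_add, mul_smul_comm, mul_one, ad_add, ad_smul, ad_mul, ad_one, ha, hb, hc,
      mul_neg, neg_mul, neg_neg]
    linear_combination (norm := module) c3 • e1 + c5 • e2 + c6 • e3
  obtain ⟨α, γ, e⟩ := key (sa 1 0 0 0 0 0)
  obtain ⟨α', γ', e'⟩ := key (sa 0 1 0 0 0 0)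
  have h4 : (α • 1 + γ • (a * (b * c) - c * b * a)) * (α' • 1 + γ' • (a * (b * c) - c * b * a)) =
      (α' • 1 + γ' • (a * (b * c) - c * b * a)) * (α • 1 + γ • (a * (b * c) - c * b * a)) := by
    simp only [mul_add, add_mul, mul_smul_comm, smul_mul_assoc, mul_one, one_mul]
    module
  rw [← e, ← e', ad_sa, ad_sa] at h4
  have := congrFun (congrFun h4 (.inl 0)) (.inl 1)
  simp [sa, Matrix.mul_apply, Fintype.sum_sum_type, Fin.sum_univ_two] at this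
  exact h2 (by linear_combination this)

theorem tr_skew {x : M4 F} (h : ad x = -x) : x.trace = 0 := by
  have := trace_ad x
  rw [h, trace_neg] at this
  exact mul_left_cancel₀ h2 (by linear_combination -this)

theorem tr_anti {g m : M4 F} {n : F} (hn : n ≠ 0) (hg : g * g = n • 1) (h : g * m = -(m * g)) :
    m.trace = 0 := by
  have h1 : (g * m * g).trace = n * m.trace := by
    rw [trace_mul_cycle, hg, smul_mul_assoc, one_mul, trace_smul, smul_eq_mul]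
  rw [h, neg_mul, mul_assoc, hg, mul_smul_comm, mul_one, trace_neg, trace_smul, smul_eq_mul] at h1
  exact mul_left_cancel₀ (mul_ne_zero h2 hn) (by linear_combination -h1)

/-- anticommuting skew matrices with scalar squares -/
structure Orth {m : ℕ} (f : Fin m → M4 F) (n : Fin m → F) : Prop where
  sk : ∀ i, ad (f i) = -f i
  sq : ∀ i, f i * f i = n i • 1
  anti : ∀ i j, i < j → f j * f i = -(f i * f j)

omit h2 in
theorem Orth.anti' {m : ℕ} {f : Fin m → M4 F} {n : Fin m → F} (h : Orth f n) (i j : Fin m)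
    (hij : i < j) (y : M4 F) : f j * (f i * y) = -(f i * (f j * y)) := by
  rw [← mul_assoc, h.anti i j hij, neg_mul, mul_assoc]

omit h2 in
theorem Orth.sq' {m : ℕ} {f : Fin m → M4 F} {n : Fin m → F} (h : Orth f n) (i : Fin m)
    (y : M4 F) : f i * (f i * y) = n i • y := by
  rw [← mul_assoc, h.sq, smul_mul_assoc, one_mul]

omit h2 in
theorem Orth.mem_mult {m : ℕ} {f : Fin m → M4 F} {n : Fin m → F} (h : Orth f n) (hn : ∀ i, n i ∈ k)
    (i : Fin m) : f i ∈ mult k (List.ofFn f) := fun x hx => by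
  refine Cl.mul_gen ?_ ?_ (List.mem_ofFn.2 ⟨i, rfl⟩) hx
  · simp only [List.forall_mem_ofFn_iff]
    exact fun i => ⟨_, hn i, h.sq i⟩
  · simp only [List.forall_mem_ofFn_iff]
    intro i j
    rcases lt_trichotomy i j with hij | rfl | hij
    · exact ⟨0, zero_mem _, by simp [h.anti i j hij]⟩
    · exact ⟨_, add_mem (hn i) (hn i), by rw [h.sq, add_smul]⟩
    · exact ⟨0, zero_mem _, by simp [h.anti j i hij]⟩

theorem Orth.trace_mem {f : Fin 4 → M4 F} {n : Fin 4 → F} (h : Orth f n) (hn : ∀ i, n i ≠ 0)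
    {x : M4 F} (hx : Cl k (List.ofFn f) x) : x.trace ∈ k := by
  have t1 := fun i => tr_skew h2 (h.sk i)
  have t2 : ∀ i j, i < j → (f i * f j).trace = 0 := fun i j hij =>
    tr_skew h2 (by rw [ad_mul, h.sk, h.sk, neg_mul_neg, h.anti i j hij])
  have a := h.anti
  have a' := h.anti'
  have t3 : (f 0 * (f 1 * f 2)).trace = 0 := tr_anti h2 (hn 3) (h.sq 3) (by simp [mul_assoc, a, a'])
  have t4 : (f 0 * (f 1 * f 3)).trace = 0 := tr_anti h2 (hn 2) (h.sq 2) (by simp [mul_assoc, a, a'])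
  have t5 : (f 0 * (f 2 * f 3)).trace = 0 := tr_anti h2 (hn 1) (h.sq 1) (by simp [mul_assoc, a, a'])
  have t6 : (f 1 * (f 2 * f 3)).trace = 0 := tr_anti h2 (hn 0) (h.sq 0) (by simp [mul_assoc, a, a'])
  have t7 : (f 0 * (f 1 * (f 2 * f 3))).trace = 0 :=
    tr_anti h2 (hn 0) (h.sq 0) (by simp [mul_assoc, a, a'])
  simp only [List.ofFn_succ, List.ofFn_zero, Cl] at hx
  obtain ⟨_, _, ⟨_, _, ⟨_, _, ⟨_, _, ⟨c0, h0, rfl⟩, ⟨c1, -, rfl⟩, rfl⟩, ⟨_, _, ⟨c2, -, rfl⟩,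
    ⟨c3, -, rfl⟩, rfl⟩, rfl⟩, ⟨_, _, ⟨_, _, ⟨c4, -, rfl⟩, ⟨c5, -, rfl⟩, rfl⟩, ⟨_, _, ⟨c6, -, rfl⟩,
    ⟨c7, -, rfl⟩, rfl⟩, rfl⟩, rfl⟩, ⟨_, _, ⟨_, _, ⟨_, _, ⟨d0, -, rfl⟩, ⟨d1, -, rfl⟩, rfl⟩,
    ⟨_, _, ⟨d2, -, rfl⟩, ⟨d3, -, rfl⟩, rfl⟩, rfl⟩, ⟨_, _, ⟨_, _, ⟨d4, -, rfl⟩, ⟨d5, -, rfl⟩, rfl⟩,
    ⟨_, _, ⟨d6, -, rfl⟩, ⟨d7, -, rfl⟩, rfl⟩, rfl⟩, rfl⟩, rfl⟩ := hx
  have e : ∀ i : Fin 3, (i.succ : Fin 4) = ![1, 2, 3] i := by decide
  simp [mul_add, t1, t2, t3, t4, t5, t6, t7]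
  exact mul_mem h0 (ofNat_mem k 4)

theorem Orth.five {f : Fin 5 → M4 F} {n : Fin 5 → F} (h : Orth f n)
    (hs : ∀ c : M4 F, (∀ i, c * f i = f i * c) → ∃ t : F, c = t • 1) :
    f 0 * (f 1 * (f 2 * (f 3 * f 4))) = 0 := by
  have a := h.anti
  have a' := h.anti'
  obtain ⟨t, ht⟩ := hs (f 0 * (f 1 * (f 2 * (f 3 * f 4)))) fun i => by
    fin_cases i <;> simp [mul_assoc, a, a', h.sq, h.sq']
  refine eq_zero_of_neg h2 ?_
  conv_lhs => rw [ht, ← ad_one, ← ad_smul, ← ht]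
  simp [ad_mul, h.sk, mul_assoc, a, a']

/-- Clifford generators -/
structure CY {m : ℕ} (y : Fin m → M4 F) : Prop where
  sk : ∀ i, ad (y i) = -y i
  sq : ∀ i, y i * y i = -3
  anti : ∀ i j, i ≠ j → y i * y j + y j * y i = -2

/-- integral linear combinations -/
def lc {m : ℕ} (y : Fin m → M4 F) (c : Fin m → ℤ) : M4 F := ∑ i, (c i : F) • y i

omit h2 in
theorem CY.lc_sk {m : ℕ} {y : Fin m → M4 F} (h : CY y) (c : Fin m → ℤ) : ad (lc y c) = -lc y c := by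
  let φ : M4 F →+ M4 F := ⟨⟨ad, ad_zero⟩, ad_add⟩
  change φ _ = _
  rw [lc, map_sum, ← Finset.sum_neg_distrib]
  exact Finset.sum_congr rfl fun i _ => (ad_smul _ _).trans (by rw [h.sk, smul_neg])

omit h2 in
theorem CY.lc_anti {m : ℕ} {y : Fin m → M4 F} (h : CY y) (c d : Fin m → ℤ) :
    lc y c * lc y d + lc y d * lc y c =
      ((-2 * ((∑ i, c i) * ∑ i, d i) - 4 * ∑ i, c i * d i : ℤ) : F) • 1 := by
  have key : ∀ i j, y i * y j + y j * y i = (-2 - if i = j then 4 else 0 : F) • 1 := fun i j => by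
    split_ifs with e
    · rw [e, h.sq, ← Algebra.algebraMap_eq_smul_one, map_sub, map_neg, map_ofNat, map_ofNat]
      norm_num
    · rw [h.anti i j e, ← Algebra.algebraMap_eq_smul_one, sub_zero, map_neg, map_ofNat]
  simp only [lc, Finset.sum_mul_sum, smul_mul_smul_comm]
  rw [Finset.sum_comm (f := fun i j => ((d i : F) * c j) • (y i * y j)), ← Finset.sum_add_distrib]
  simp only [← Finset.sum_add_distrib, mul_comm (d _ : F), ← smul_add, key, smul_smul,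
    ← Finset.sum_smul]
  congr 1
  simp [mul_sub, Finset.sum_sub_distrib, Finset.mul_sum, mul_comm]

theorem CY.orth {m l : ℕ} {y : Fin m → M4 F} (h : CY y) (c : Fin l → Fin m → ℤ) (n : Fin l → ℤ)
    (h1 : ∀ i, -2 * ((∑ t, c i t) * ∑ t, c i t) - 4 * ∑ t, c i t * c i t = 2 * n i)
    (h3 : ∀ i j, i < j → -2 * ((∑ t, c j t) * ∑ t, c i t) - 4 * ∑ t, c j t * c i t = 0) :
    Orth (fun i => lc y (c i)) fun i => (n i : F) where
  sk i := h.lc_sk _
  sq i := by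
    have := h.lc_anti (c i) (c i)
    rw [h1, ← two_smul F, Int.cast_mul, Int.cast_ofNat, mul_smul] at this
    exact smul_right_injective _ h2 this
  anti i j hij := by
    have := h.lc_anti (c j) (c i)
    rw [h3 i j hij, Int.cast_zero, zero_smul] at this
    exact eq_neg_of_add_eq_zero_left this

omit h2 in
theorem eq_zero_of_prime {z : M4 F} (h : ∀ a, z * a * z = 0) : z = 0 := by
  ext i j
  have := congrFun (congrFun (h (single j i 1)) i) j
  simpa [Matrix.mul_apply, single, Finset.sum_ite_eq, ite_and] using this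

end Cfsg.Agent.H28.SA
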