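import Mathlib
import Cfsg.Agent.H28.SpA

/-!
# Elements of order three and fixed vectors in `Sp₄(F)`
-/

set_option autoImplicit false

namespace Cfsg.Agent.H28.SA

open Matrix H25 H25.S4

variable {F : Type*} [Field F]

/-- quadratic elements of order three -/
def TC (x : M4 F) : Prop := x * x + x + 1 = 0

theorem TC.ad {x : M4 F} (h : TC x) (hx : ad x * x = 1) : ad x = -(x + 1) := by
  unfold TC at h
  linear_combination (norm := noncomm_ring) -hx * (x + 1) + H25.S4.ad x * h

theorem TC.conj {g : GL I4 F} {x : M4 F} (h : TC x) :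
    TC ((g : M4 F) * x * ((g⁻¹ : GL I4 F) : M4 F)) := by
  unfold TC at h ⊢
  have e := g.inv_mul
  have e' := g.mul_inv
  linear_combination (norm := noncomm_ring) (g : M4 F) * h * ((g⁻¹ : GL I4 F) : M4 F) +
    (g : M4 F) * x * e * x * ((g⁻¹ : GL I4 F) : M4 F) - e'

theorem cy_of_tc {m : ℕ} {x : Fin m → M4 F} (hx : ∀ i, ad (x i) * x i = 1) (h : ∀ i, TC (x i))
    (hr : ∀ i j, i ≠ j → x i * x j * (x i * x j) = -1) : CY fun i => x i + x i + 1 where
  sk i := by rw [ad_add, ad_add, ad_one, (h i).ad (hx i)]; abel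
  sq i := by
    have := h i
    unfold TC at this
    linear_combination (norm := (noncomm_ring; norm_num)) 4 * this
  anti i j hij := by
    have ha := h i
    have hb := h j
    unfold TC at ha hb
    linear_combination (norm := (noncomm_ring; norm_num)) 4 * (hr i j hij * ((x j + 1) * (x i + 1)) -
      x i * x j * x i * hb * (x i + 1) + x i * x j * ha)

theorem tc_eq (h3 : (3 : F) ≠ 0) {a b : M4 F} (ha : TC a) (hb : TC b) (hc : b * a = a * b)
    (hab : TC (a * b)) : a = b := by
  unfold TC at ha hb hab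
  have h1 : (a - b) * (a + b + 1) = 0 := by
    linear_combination (norm := noncomm_ring) ha - hb - hc
  have h4 : (a - b) * (a * b) = a - b := by
    linear_combination (norm := noncomm_ring) h1 * a - (a - b) * ha - (a - b) * hc
  have h5 : (3 : F) • (a - b) = 0 := by
    rw [show (3 : F) • (a - b) = 3 * (a - b) by rw [ofNat_smul_eq_nsmul, nsmul_eq_mul]; rfl]
    linear_combination (norm := noncomm_ring) (a - b) * hab - h4 * (a * b) - 2 * h4
  exact sub_eq_zero.1 ((smul_eq_zero.1 h5).resolve_left h3)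

/-- the conjugate of a self-adjoint matrix -/
def bar (x : M4 F) : M4 F := (x.trace / 2) • 1 - x

theorem ad_bar {x : M4 F} (h : ad x = x) : ad (bar x) = bar x := by
  rw [bar, ad_sub, ad_smul, ad_one, h]

variable (h2 : (2 : F) ≠ 0)
include h2

theorem polar {x y : M4 F} (hx : ad x = x) (hy : ad y = y) :
    ∃ β : F, x * bar y + y * bar x = β • 1 := by
  obtain ⟨a, ha⟩ := sa_quad h2 hx
  obtain ⟨b, hb⟩ := sa_quad h2 hy
  obtain ⟨c, hc⟩ := sa_quad h2 (x := x + y) (by rw [ad_add, hx, hy])
  refine ⟨a + b - c, ?_⟩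
  simp only [bar, mul_sub, mul_smul_comm, mul_one]
  rw [trace_add, add_div, add_mul, mul_add, mul_add] at hc
  linear_combination (norm := module) ha + hb - hc

theorem polar_ne {x : M4 F} (hx : ad x = x) (h0 : x ≠ 0) :
    ∃ (y : M4 F) (β : F), β ≠ 0 ∧ x * bar y + y * bar x = β • 1 := by
  by_contra! h
  obtain ⟨a, b, c, d, e, f, rfl⟩ : ∃ a b c d e f, x = sa a b c d e f :=
    ⟨_, _, _, _, _, _, eq_sa h2 hx⟩
  have key : ∀ a' b' c' d' e' f' : F, a * d' + a' * d - b * c' - b' * c + e * f' + e' * f = 0 := by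
    intro a' b' c' d' e' f'
    by_contra h1
    refine h (sa a' b' c' d' e' f') _ h1 ?_
    simp only [bar, trace_sa, mul_div_cancel_left₀ _ h2]
    ext i j
    rcases i with i | i <;> rcases j with j | j <;> fin_cases i <;> fin_cases j <;>
      simp [sa, Matrix.mul_apply, Fintype.sum_sum_type, Fin.sum_univ_two, Matrix.one_apply] <;> ring
  have e1 := key 1 0 0 0 0 0
  have e2 := key 0 1 0 0 0 0
  have e3 := key 0 0 1 0 0 0
  have e4 := key 0 0 0 1 0 0
  have e5 := key 0 0 0 0 1 0
  have e6 := key 0 0 0 0 0 1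
  simp only [mul_zero, mul_one, zero_mul, one_mul, add_zero, zero_add, sub_zero, zero_sub,
    neg_eq_zero] at e1 e2 e3 e4 e5 e6
  refine h0 ?_
  rw [e1, e2, e3, e4, e5, e6]
  ext i j
  rcases i with i | i <;> rcases j with j | j <;> fin_cases i <;> fin_cases j <;> simp [sa]

theorem mem_W_or {x : M4 F} (hx : ad x = x) {c : F} (h : x * x = c • 1) :
    x ∈ Wsp F ∨ ∃ t : F, x = t • 1 := by
  by_cases h0 : x.trace = 0
  · exact Or.inl ⟨hx, h0⟩
  obtain ⟨d, hd⟩ := sa_quad h2 hx
  refine Or.inr ⟨(x.trace / 2)⁻¹ * (c - d), ?_⟩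
  rw [mul_smul, eq_inv_smul_iff₀ (div_ne_zero h0 h2), sub_smul, ← h, hd, add_sub_cancel_right]

omit h2 in
theorem ad_cube {x : M4 F} (hx : ad x * x = 1) (h : x * x * x = 1) : ad x = x * x := by
  linear_combination (norm := noncomm_ring) hx * (x * x) - ad x * h

theorem tc_of_three (h3 : (3 : F) = 0) {x : M4 F} (hx : ad x * x = 1) (h : x * x * x = 1) :
    TC x := by
  have e3 : (3 : M4 F) = 0 := by rw [← map_ofNat (algebraMap F (M4 F)), h3, map_zero]
  have ha := ad_cube hx h
  have hm : ad (x * x + x + 1) = x * x + x + 1 := by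
    rw [ad_add, ad_add, ad_mul, ad_one, ha]
    linear_combination (norm := noncomm_ring) h * x
  by_contra h0
  obtain ⟨y, β, hβ, e⟩ := polar_ne h2 hm h0
  have h1 : (x - 1) * (x * x + x + 1) = 0 := by linear_combination (norm := noncomm_ring) h
  have h1' : (x * x + x + 1) * (x - 1) = 0 := by linear_combination (norm := noncomm_ring) h
  have h4 : (x * x + x + 1).trace = 0 := by
    refine (isNilpotent_trace_of_isNilpotent ⟨2, ?_⟩).eq_zero
    rw [pow_two]
    linear_combination (norm := (noncomm_ring; norm_num)) (x + 2) * h1 + e3 * (x * x + x + 1)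
  have h5 := congrArg (fun t => (x - 1) * t * (x - 1)) e
  simp only [mul_add, add_mul _ (_ * _ * _), ← mul_assoc, h1] at h5
  rw [bar, bar, h4, zero_div, zero_smul, zero_sub, zero_mul, zero_mul, zero_add, mul_neg, neg_mul,
    mul_assoc, h1', mul_zero, neg_zero, mul_smul_comm, mul_one, smul_mul_assoc] at h5
  refine h0 ?_
  unfold TC
  linear_combination (norm := noncomm_ring) (smul_eq_zero.1 h5.symm).resolve_left hβ + e3 * x

/-- non-quadratic elements of order three -/
structure N3 (x : M4 F) : Prop where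
  sp : ad x * x = 1
  cube : x * x * x = 1
  ne : x ≠ 1
  ntc : ¬ TC x

theorem N3.three {x : M4 F} (h : N3 x) : (3 : F) ≠ 0 := fun h3 =>
  h.ntc (tc_of_three h2 h3 h.sp h.cube)

omit h2 in
theorem cancel {n : ℕ} [n.AtLeastTwo] (hn : (OfNat.ofNat n : F) ≠ 0) {x : M4 F}
    (h : (OfNat.ofNat n : M4 F) * x = 0) : x = 0 := by
  rw [← map_ofNat (algebraMap F (M4 F)), ← Algebra.smul_def] at h
  exact (smul_eq_zero.1 h).resolve_left hn

omit h2 in
theorem ofNat_eq (n : ℕ) [n.AtLeastTwo] : (OfNat.ofNat n : M4 F) = (OfNat.ofNat n : F) • 1 := by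
  rw [← map_ofNat (algebraMap F (M4 F)), Algebra.algebraMap_eq_smul_one]

/-- the vector of an element of order three -/
def v3 (x : M4 F) : M4 F := x + x * x + (x + x * x) - 1

omit h2 in
theorem N3.sq {x : M4 F} (h : N3 x) : v3 x * v3 x = 9 := by
  unfold v3
  linear_combination (norm := (noncomm_ring; norm_num)) 4 * h.cube * x + 8 * h.cube

theorem N3.mem {x : M4 F} (h : N3 x) : v3 x ∈ Wsp F := by
  have ha := ad_cube h.sp h.cube
  have hc := h.cube
  refine (mem_W_or h2 ?_ (h.sq.trans (ofNat_eq 9))).resolve_right ?_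
  · simp only [v3, ad_sub, ad_add, ad_mul, ad_one, ha]
    linear_combination (norm := noncomm_ring) 2 * hc * x
  rintro ⟨t, ht⟩
  have h1 := h.sq
  rw [ht, smul_mul_smul_comm, one_mul, ofNat_eq 9] at h1
  have h4 : (t - 3) * (t + 3) = 0 := by
    linear_combination smul_left_injective F (one_ne_zero (α := M4 F)) h1
  rcases mul_eq_zero.1 h4 with e | e
  · rw [sub_eq_zero.1 e, ← ofNat_eq 3, v3] at ht
    refine h.ne (sub_eq_zero.1 (cancel (h.three h2) (cancel h2 ?_)))
    linear_combination (norm := noncomm_ring) 2 * hc - ht * (x - 1)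
  · rw [eq_neg_of_add_eq_zero_left e, neg_smul, ← ofNat_eq 3, v3] at ht
    refine h.ntc (cancel h2 ?_)
    linear_combination (norm := (noncomm_ring; norm_num)) ht

theorem N3.trace {x : M4 F} (h : N3 x) : x.trace = 1 := by
  have h1 := (h.mem h2).2
  rw [v3, trace_sub, trace_add, trace_add, ← ad_cube h.sp h.cube, trace_ad, trace_one4] at h1
  exact mul_left_cancel₀ (four_ne h2) (by linear_combination h1)

theorem N3.pm {a b : M4 F} (ha : N3 a) (hb : N3 b) (hc : b * a = a * b) :
    v3 b = v3 a ∨ v3 b = -v3 a := by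
  have h1 := W_anti h2 (ha.mem h2) (hb.mem h2)
  have h4 : Commute b a := hc
  have h5 : Commute (v3 b) (v3 a) := by
    have h6 : Commute b (v3 a) := ((h4.add_right (h4.mul_right h4)).add_right
      (h4.add_right (h4.mul_right h4))).sub_right (Commute.one_right _)
    exact ((h6.add_left (h6.mul_left h6)).add_left
      (h6.add_left (h6.mul_left h6))).sub_left (Commute.one_left _)
  have h9 : (9 : F) ≠ 0 := by
    rw [show (9 : F) = 3 * 3 by norm_num]; exact mul_ne_zero (ha.three h2) (ha.three h2)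
  rw [h5.eq, ← two_smul F, mul_smul] at h1
  have h6 := congrArg (v3 a * ·) (smul_right_injective _ h2 h1)
  simp only [← mul_assoc, ha.sq, mul_smul_comm, mul_one, ofNat_eq 9, smul_mul_assoc, one_mul] at h6
  rw [← eq_inv_smul_iff₀ h9, smul_smul] at h6
  generalize 9⁻¹ * bil (v3 a) (v3 b) = t at h6
  have h7 := hb.sq
  rw [h6, smul_mul_smul_comm, ha.sq, ofNat_eq 9, smul_smul] at h7
  have h8 : t * t = 1 := mul_right_cancel₀ h9
    ((smul_left_injective F (one_ne_zero (α := M4 F)) h7).trans (one_mul _).symm)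
  rcases mul_self_eq_one_iff.1 h8 with rfl | rfl
  · exact Or.inl (by rw [h6, one_smul])
  · exact Or.inr (by rw [h6, neg_smul, one_smul])

theorem N3.plus {a c : M4 F} (ha : N3 a) (hs : ad c * c = 1) (hc : c * c * c = 1) (h1 : c ≠ 1)
    (hac : c * a = a * c) (hf : c * (a * a + a + 1) = a * a + a + 1) : c + c * c = a + a * a := by
  have h3 := ha.three h2
  have h4 := ha.cube
  have hn : N3 c := ⟨hs, hc, h1, fun h => ha.ntc (cancel h3 (by
    unfold TC at h
    linear_combination (norm := noncomm_ring) h * (a * a + a + 1) - c * hf - 2 * hf))⟩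
  rcases ha.pm h2 hn hac with e | e
  · refine sub_eq_zero.1 (cancel h2 ?_)
    unfold v3 at e
    linear_combination (norm := noncomm_ring) e
  · refine absurd (cancel h3 (cancel h2 ?_)) ha.ntc
    unfold v3 at e
    linear_combination (norm := noncomm_ring) e * (a * a + a + 1) - 2 * c * hf - 4 * hf -
      2 * h4 * a - 4 * h4

theorem N3.pair {a b : M4 F} (ha : N3 a) (hb : N3 b) (hc : b * a = a * b) (h1 : a * b ≠ 1)
    (h1' : a * (b * b) ≠ 1) : (a - 1) * (b - 1) = 0 ∧ TC (a * b) := by
  have h3 := ha.three h2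
  have ca := ha.cube
  have cb := hb.cube
  have hc' : ∀ x, b * (a * x) = a * (b * x) := fun x => by rw [← mul_assoc, hc, mul_assoc]
  rcases ha.pm h2 hb hc with e | e
  · exfalso
    have e1 : b * b + b + 1 = a * a + a + 1 := sub_eq_zero.1 (cancel h2 (by
      unfold v3 at e
      linear_combination (norm := noncomm_ring) e))
    have e2 : b * (a * a + a + 1) = a * a + a + 1 := by
      rw [← e1]; linear_combination (norm := noncomm_ring) cb
    have e3 : a * (a * a + a + 1) = a * a + a + 1 := by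
      linear_combination (norm := noncomm_ring) ca
    have ca' : ∀ x, a * (a * (a * x)) = x := fun x => by
      rw [← mul_assoc, ← mul_assoc, ca, one_mul]
    have cb' : ∀ x, b * (b * (b * x)) = x := fun x => by
      rw [← mul_assoc, ← mul_assoc, cb, one_mul]
    have sb : ∀ x, ad b * (b * x) = x := fun x => by rw [← mul_assoc, hb.sp, one_mul]
    have sa : ∀ x, ad a * (a * x) = x := fun x => by rw [← mul_assoc, ha.sp, one_mul]
    have cb'' : b * (b * b) = 1 := by rw [← mul_assoc, cb]
    have e4 := ha.plus h2 (c := a * b) (by simp only [ad_mul, mul_assoc, sa, hb.sp])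
      (by simp only [mul_assoc, hc', ca', cb'']) h1 (by rw [mul_assoc, hc])
      (by rw [mul_assoc, e2, e3])
    have e5 := ha.plus h2 (c := a * (b * b)) (by simp only [ad_mul, mul_assoc, sa, sb, hb.sp])
      (by simp only [mul_assoc, hc', ca', cb', cb'', one_mul]) h1' (by simp only [mul_assoc, hc, hc'])
      (by rw [mul_assoc, mul_assoc, e2, e2, e3])
    simp only [mul_assoc, hc', cb'] at e4 e5
    have e6 : a * a + a + 1 = 3 := by
      linear_combination (norm := (noncomm_ring; norm_num)) (a * a + a + 1) * e1 - e4 - e5 - e1 + ca * a +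
        2 * ca
    refine ha.ne (sub_eq_zero.1 (cancel h3 ?_))
    linear_combination (norm := noncomm_ring) ca - e6 * (a - 1)
  · have e1 : a * a + a + (b * b + b) = 1 := sub_eq_zero.1 (cancel h2 (by
      unfold v3 at e
      linear_combination (norm := noncomm_ring) e))
    have e2 : (a - 1) * (b - 1) = 0 := cancel h3 (by
      linear_combination (norm := noncomm_ring) ca * (b - 1) + (a - 1) * cb -
        (a - 1) * e1 * (b - 1))
    refine ⟨e2, ?_⟩
    unfold TC
    linear_combination (norm := noncomm_ring) (a + 1) * e2 * (b + 1) + e2 + e1 + a * hc * b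

/-- two elements with large fixed spaces and no common fixed vector -/
theorem fix_zero {g k m m' e : M4 F} (hg : ad g * g = 1) (hm : ad m = m) (hm' : ad m' = m')
    (h0 : m ≠ 0) (h0' : m' ≠ 0) (h1 : g * m = m) (h1' : k * m' = m') (h1'' : m' * k = m')
    (hz : ∀ T : M4 F, g * T = T → k * T = T → T = 0) (he : g * (k * e) = e) : e = 0 := by
  obtain ⟨β, hβ⟩ := polar h2 hm hm'
  by_cases h3 : β = 0
  · rw [h3, zero_smul] at hβ
    have h4 : m' * bar m = 0 := hz _
      (by rw [eq_neg_of_add_eq_zero_right hβ, mul_neg, ← mul_assoc, h1]) (by rw [← mul_assoc, h1'])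
    have h5 := congrArg ad h4
    rw [ad_mul, ad_bar hm, hm', ad_zero] at h5
    obtain ⟨y, b, hb, h6⟩ := polar_ne h2 hm h0
    have h7 : b • m' = m * (bar y * m') := by
      rw [← one_mul m', ← smul_mul_assoc, ← h6, add_mul, mul_assoc y, h5, mul_zero, add_zero,
        one_mul, mul_assoc]
    refine absurd (hz _ (smul_right_injective _ hb ?_) h1') h0'
    simp only
    rw [← mul_smul_comm, h7, ← mul_assoc, h1]
  · have h4 := congrArg ad hβ
    rw [ad_add, ad_mul, ad_mul, ad_bar hm, ad_bar hm', hm, hm', ad_smul, ad_one] at h4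
    have h5 := congrArg ad h1
    rw [ad_mul, hm] at h5
    have h6 : k * e = ad g * e := by
      conv_rhs => rw [← he, ← mul_assoc, hg, one_mul]
    have h7 : β • (k * e - e) = 0 := by
      rw [← one_mul (k * e - e), ← smul_mul_assoc, ← h4, add_mul, mul_assoc, mul_assoc,
        mul_sub m', ← mul_assoc m', h1'', h6, mul_sub m, ← mul_assoc m, h5]
      simp
    have h8 := sub_eq_zero.1 ((smul_eq_zero.1 h7).resolve_left h3)
    exact hz e (by rwa [h8] at he) h8

end Cfsg.Agent.H28.SA
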