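import Mathlib
import Cfsg.Agent.H28.SpB
import Cfsg.Agent.H29.AltCov
import Cfsg.Agent.H78.AltOn

/-!
# Double covers of alternating groups in `Sp₄(F)`; the case of degree seven
-/

set_option autoImplicit false

namespace Cfsg.Agent.H28.SA

open Matrix H25 H25.S4 H29 Cfsg.Geo Equiv Equiv.Perm

universe u

variable {F : Type*} [Field F]

/-- subrings closed under scalars from `k` -/
def KS (k : Subfield F) (S : Subring (M4 F)) : Prop := ∀ c ∈ k, ∀ z ∈ S, c • z ∈ S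

theorem KS.lc {k : Subfield F} {S : Subring (M4 F)} (hS : KS k S) {m : ℕ} {y : Fin m → M4 F}
    (hy : ∀ i, y i ∈ S) (c : Fin m → ℤ) : lc y c ∈ S :=
  S.sum_mem fun i _ => hS _ (intCast_mem k _) _ (hy i)

theorem KS.of_lc {k : Subfield F} {S : Subring (M4 F)} (hS : KS k S) {m l : ℕ} {y : Fin m → M4 F}
    (c : Fin l → Fin m → ℤ) (d : Fin m → Fin l → ℤ) (N : ℤ) (hN : (N : F) ≠ 0)
    (h : ∀ i t, ∑ j, d i j * c j t = if i = t then N else 0) (hf : ∀ j, SA.lc y (c j) ∈ S)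
    (i : Fin m) : y i ∈ S := by
  have h1 : SA.lc (fun j => SA.lc y (c j)) (d i) = (N : F) • y i := by
    simp only [SA.lc, Finset.smul_sum, smul_smul]
    rw [Finset.sum_comm]
    simp only [← Finset.sum_smul, ← Int.cast_mul, ← Int.cast_sum, h]
    simp
  have h3 := hS _ (inv_mem (intCast_mem k N)) _ (hS.lc hf (d i))
  rwa [h1, inv_smul_smul₀ hN] at h3

theorem ks_mult (k : Subfield F) (L : List (M4 F)) : KS k (mult k L) :=
  fun _ hc _ hz => smul_mem_mult hc hz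

theorem ks_cent (c : M4 F) : KS ⊤ (Subring.centralizer {c}) := fun t _ z hz => by
  simp only [Subring.mem_centralizer_iff, Set.mem_singleton_iff, forall_eq] at hz ⊢
  rw [mul_smul_comm, smul_mul_assoc, hz]

theorem ks_alg (A : Subalgebra F (M4 F)) : KS ⊤ A.toSubring := fun t _ _ hz => A.smul_mem hz t

/-- Clifford generators of the enveloping ring of `P` -/
structure Gens (P : Subgroup (GL I4 F)) {m : ℕ} (y : Fin m → M4 F) : Prop where
  cy : CY y
  gen : ∀ (k : Subfield F) (S : Subring (M4 F)), KS k S → (∀ i, y i ∈ S) → ∀ g ∈ P, (g : M4 F) ∈ S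

theorem KS.half (h2 : (2 : F) ≠ 0) {k : Subfield F} {S : Subring (M4 F)} (hS : KS k S) {x : M4 F}
    (h : x + x + 1 ∈ S) : x ∈ S := by
  have := hS _ (inv_mem (ofNat_mem k 2)) _ (S.sub_mem h S.one_mem)
  rwa [add_sub_cancel_right, ← two_smul F, inv_smul_smul₀ h2] at this

/-- the first three orthogonal vectors -/
def c4 : Fin 4 → Fin 4 → ℤ := ![![1, -1, 0, 0], ![0, 0, 1, -1], ![1, 1, -1, -1], ![1, 1, 1, 1]]

def d4 : Fin 4 → Fin 4 → ℤ := ![![2, 0, 1, 1], ![-2, 0, 1, 1], ![0, 2, -1, 1], ![0, -2, -1, 1]]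

theorem CY.orth4 (h2 : (2 : F) ≠ 0) {y : Fin 4 → M4 F} (h : CY y) :
    Orth (fun i => lc y (c4 i)) fun i => ((![-4, -4, -8, -24] : Fin 4 → ℤ) i : F) :=
  h.orth h2 c4 _ (by decide) (by decide)

theorem KS.of_c4 (h2 : (2 : F) ≠ 0) {k : Subfield F} {S : Subring (M4 F)} (hS : KS k S)
    {y : Fin 4 → M4 F} (hf : ∀ j, SA.lc y (c4 j) ∈ S) (i : Fin 4) : y i ∈ S :=
  hS.of_lc c4 d4 4 (by exact_mod_cast four_ne h2) (by decide) hf i

theorem CY.trace4 (h2 : (2 : F) ≠ 0) (h3 : (3 : F) ≠ 0) {y : Fin 4 → M4 F} (h : CY y)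
    (k : Subfield F) : ∃ S : Subring (M4 F), KS k S ∧ (∀ i, y i ∈ S) ∧ ∀ z ∈ S, z.trace ∈ k := by
  have ho := h.orth4 h2
  refine ⟨_, ks_mult k _, (ks_mult k _).of_c4 h2 (ho.mem_mult fun i => intCast_mem k _),
    fun z hz => ho.trace_mem h2 (fun i => ?_) (cl_of_mult hz)⟩
  have h8 : (8 : F) ≠ 0 := by
    rw [show (8 : F) = 2 * 4 by norm_num]; exact mul_ne_zero h2 (four_ne h2)
  have h24 : (24 : F) ≠ 0 := by
    rw [show (24 : F) = 3 * 8 by norm_num]; exact mul_ne_zero h3 h8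
  fin_cases i <;> simp [four_ne h2, h8, h24]

section Ctx

variable [Fintype F] {H P : Subgroup (GL I4 F)} (h : Ctx H P)
include h

theorem Gens.schur {m : ℕ} {y : Fin m → M4 F} (hy : Gens P y) {c : M4 F}
    (hc : ∀ i, y i ∈ Subring.centralizer {c}) : ∃ t : F, c = t • 1 :=
  h.schur fun g hg => hy.gen _ _ (ks_cent c) hc g hg c rfl

theorem Gens.top {m : ℕ} {y : Fin m → M4 F} (hy : Gens P y) {A : Subalgebra F (M4 F)}
    (hc : ∀ i, y i ∈ A) : A = ⊤ :=
  top_le_iff.1 (h.top.ge.trans (galg_le fun g hg => hy.gen _ _ (ks_alg A) hc g hg))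

theorem card_of_trace (p : ℕ) [Fact p.Prime] [CharP F p]
    (hk : ∀ k : Subfield F, ∀ g ∈ P, (g : M4 F).trace ∈ k) : Fintype.card F = p :=
  h.card_eq_prime p (hk ((frobenius F p).eqLocusField (RingHom.id F)))

theorem Gens.three_ne {y : Fin 4 → M4 F} (hy : Gens P y) : (3 : F) ≠ 0 := by
  intro h3
  have h2 := h.two
  have ho := hy.cy.orth4 h2
  have e : lc y (c4 3) * lc y (c4 3) = 0 := by
    rw [ho.sq 3, show ((![-4, -4, -8, -24] : Fin 4 → ℤ) 3 : F) = -8 * 3 by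
      simp; norm_num, h3]
    simp
  let A : Subalgebra F (M4 F) :=
    { carrier := {a | ∃ a', lc y (c4 3) * a = a' * lc y (c4 3)}
      mul_mem' := by
        rintro a b ⟨a', ha⟩ ⟨b', hb⟩
        exact ⟨a' * b', by rw [← mul_assoc, ha, mul_assoc, hb, mul_assoc]⟩
      add_mem' := by
        rintro a b ⟨a', ha⟩ ⟨b', hb⟩
        exact ⟨a' + b', by rw [mul_add, ha, hb, add_mul]⟩
      algebraMap_mem' := fun r => ⟨_, (Algebra.commutes r _).symm⟩ }
  have hA : A = ⊤ := hy.top h ((ks_alg A).of_c4 h2 fun j => by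
    by_cases hj : j = 3
    · exact ⟨_, by rw [hj]⟩
    · exact ⟨-_, by rw [ho.anti j 3 (by omega), neg_mul]⟩)
  have e0 : lc y (c4 3) = 0 := eq_zero_of_prime fun a => by
    obtain ⟨a', ha⟩ : a ∈ A := hA ▸ Algebra.mem_top
    rw [ha, mul_assoc, e, mul_zero]
  refine three h2 (ho.sk 0) (ho.sk 1) (ho.sk 2) ?_ fun B h0 h1 h2' => ?_
  · simp only [List.mem_cons, List.not_mem_nil, or_false]
    rintro _ (rfl | rfl | rfl) _ (rfl | rfl | rfl) <;> exact ⟨_, hy.cy.lc_anti _ _⟩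
  · refine hy.top h ((ks_alg B).of_c4 h2 fun j => ?_)
    fin_cases j
    exacts [h0, h1, h2', e0 ▸ B.zero_mem]

theorem Gens.card4 {y : Fin 4 → M4 F} (hy : Gens P y) (p : ℕ) [Fact p.Prime] [CharP F p] :
    Fintype.card F = p := card_of_trace h p fun k g hg => by
  obtain ⟨S, h1, h2, h3⟩ := hy.cy.trace4 h.two (hy.three_ne h) k
  exact h3 _ (hy.gen k S h1 h2 g hg)

theorem Gens.last {y : Fin 5 → M4 F} (hy : Gens P y) (c d : Fin 5 → Fin 5 → ℤ) (n : Fin 5 → ℤ)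
    (N : ℤ) (hN : (N : F) ≠ 0) (h0 : ∀ i t, ∑ j, d i j * c j t = if i = t then N else 0)
    (h1 : ∀ i, -2 * ((∑ t, c i t) * ∑ t, c i t) - 4 * ∑ t, c i t * c i t = 2 * n i)
    (h3 : ∀ i j, i < j → -2 * ((∑ t, c j t) * ∑ t, c i t) - 4 * ∑ t, c j t * c i t = 0)
    (hn : ∀ i, i ≠ 4 → (n i : F) ≠ 0) : lc y (c 4) = 0 ∧ (n 4 : F) = 0 := by
  have ho := hy.cy.orth h.two c n h1 h3
  have h5 := ho.five h.two fun a ha => hy.schur h ((ks_cent a).of_lc c d N hN h0 fun j => by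
    simpa [Subring.mem_centralizer_iff] using ha j)
  have k : ∀ i, i ≠ 4 → ∀ z, lc y (c i) * z = 0 → z = 0 := fun i hi z hz => by
    have := ho.sq' i z
    rw [hz, mul_zero] at this
    exact (smul_eq_zero.1 this.symm).resolve_left (hn i hi)
  have h6 := k 3 (by decide) _ (k 2 (by decide) _ (k 1 (by decide) _ (k 0 (by decide) _ h5)))
  have h7 := ho.sq 4
  rw [h6, mul_zero] at h7
  exact ⟨h6, (smul_eq_zero.1 h7.symm).resolve_right one_ne_zero⟩

theorem Gens.card5 {y : Fin 5 → M4 F} (hy : Gens P y) : Fintype.card F = 7 := by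
  have h2 := h.two
  have h4 := four_ne h2
  have h8 : (8 : F) ≠ 0 := by rw [show (8 : F) = 2 * 4 by norm_num]; exact mul_ne_zero h2 h4
  by_cases h5 : (5 : F) = 0
  · have e : ∀ n : ℤ, (n : F) = 0 → IsCoprime n 5 → False := fun n hn ⟨a, b, hab⟩ => by
      have := congrArg (Int.cast : ℤ → F) hab
      simp [hn, h5] at this
    have e' : ∀ n : ℤ, IsCoprime n 5 → (n : F) ≠ 0 := fun n h1 h2 => e n h2 h1
    exact (e _ (hy.last h
      ![![1, -1, 0, 0, 0], ![0, 0, 1, -1, 0], ![1, 1, -1, -1, 0], ![1, 1, 1, 1, 0],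
        ![-1, -1, -1, -1, 6]]
      ![![6, 0, 3, 3, 0], ![-6, 0, 3, 3, 0], ![0, 6, -3, 3, 0], ![0, -6, -3, 3, 0], ![0, 0, 0, 2, 2]]
      ![-4, -4, -8, -24, -84] 12 (e' _ (by decide)) (by decide) (by decide) (by decide)
      fun i => by fin_cases i <;> first | exact fun _ => e' _ (by decide)).2 (by decide)).elim
  have h20 : (20 : F) ≠ 0 := by rw [show (20 : F) = 5 * 4 by norm_num]; exact mul_ne_zero h5 h4
  have h40 : (40 : F) ≠ 0 := by rw [show (40 : F) = 5 * 8 by norm_num]; exact mul_ne_zero h5 h8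
  obtain ⟨e1, e2⟩ := hy.last h
    ![![1, -1, 0, 0, 0], ![0, 0, 1, -1, 0], ![1, 1, -1, -1, 0], ![1, 1, 1, 1, -4], ![1, 1, 1, 1, 1]]
    ![![10, 0, 5, 1, 4], ![-10, 0, 5, 1, 4], ![0, 10, -5, 1, 4], ![0, -10, -5, 1, 4],
      ![0, 0, 0, -4, 4]]
    ![-4, -4, -8, -40, -35] 20 (by exact_mod_cast h20) (by decide) (by decide) (by decide)
    fun i hi => by fin_cases i <;> simp [h4, h8, h40] at hi ⊢
  have h7 : ((7 : ℕ) : F) = 0 := mul_left_cancel₀ h5 (by
    simp at e2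
    push_cast
    linear_combination e2)
  haveI : Fact (Nat.Prime 7) := ⟨by norm_num⟩
  haveI : CharP F 7 := (CharP.charP_iff_prime_eq_zero Fact.out).2 h7
  refine Gens.card4 h (y := fun i => y i.castSucc) ⟨⟨fun i => hy.cy.sk _, fun i => hy.cy.sq _,
    fun i j hij => hy.cy.anti _ _ ((Fin.castSucc_injective _).ne hij)⟩,
    fun k S hS hi => hy.gen k S hS fun i => ?_⟩ 7
  induction i using Fin.lastCases with
  | cast i => exact hi i
  | last =>
    simp only [lc, Fin.sum_univ_castSucc (n := 4)] at e1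
    have : y (Fin.last 4) = -∑ i : Fin 4, y i.castSucc := by
      rw [eq_neg_iff_add_eq_zero, add_comm, ← e1]
      simp [Fin.sum_univ_four]
    exact this ▸ S.neg_mem (S.sum_mem fun i _ => hi i)

end Ctx

instance decD3 {α : Type*} [DecidableEq α] (a b c : α) : Decidable (D3 a b c) :=
  inferInstanceAs (Decidable (a ≠ b ∧ a ≠ c ∧ b ≠ c))

/-- a double cover of an alternating group -/
structure Cov (P : Subgroup (GL I4 F)) (n : ℕ) extends AltCov P (Fin n) where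
  two : (2 : F) ≠ 0
  sp : ∀ g ∈ P, g ∈ spGL 2 F
  uq : Uniq P
  ker : ∀ g : P, π g = 1 ↔ (g : GL I4 F) = 1 ∨ (g : GL I4 F) = -1

variable {H P : Subgroup (GL I4 F)} {n : ℕ}

/-- the cover given by an isomorphism -/
noncomputable def mkCov (h : Ctx H P) (hu : Uniq P) (e : Bar P ≃* alternatingGroup (Fin n)) :
    Cov P n :=
  have k : ∀ g : P, (e (QuotientGroup.mk g) : Perm (Fin n)) = 1 ↔
      (g : GL I4 F) = 1 ∨ (g : GL I4 F) = -1 := fun g => by
    rw [OneMemClass.coe_eq_one, EmbeddingLike.map_eq_one_iff, QuotientGroup.eq_one_iff,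
      Subgroup.mem_subgroupOf]
    refine ⟨eq_or_of_scalar (h.sp g.2), ?_⟩
    rintro (e | e) <;> rw [e]
    exacts [one_mem _, neg_one_mem_scalars]
  { π := (alternatingGroup (Fin n)).subtype.comp (e.toMonoidHom.comp (QuotientGroup.mk' _))
    even := fun g => (e (QuotientGroup.mk g)).2
    surj := fun c hc => by
      obtain ⟨q, hq⟩ := e.surjective ⟨c, hc⟩
      obtain ⟨g, rfl⟩ := QuotientGroup.mk_surjective q
      exact ⟨g, congrArg Subtype.val hq⟩
    cen := fun z hz => by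
      rcases (k z).1 hz with e | e <;>
        exact ⟨Subtype.ext (by simp [e]), fun g => Subtype.ext (by simp [e])⟩
    two := h.two
    sp := fun _ => h.sp
    uq := hu
    ker := k }

theorem mkCov_π (h : Ctx H P) (hu : Uniq P) (e : Bar P ≃* alternatingGroup (Fin n)) (g : P) :
    (mkCov h hu e).π g = e (QuotientGroup.mk g) := rfl

/-- the matrix of an element -/
abbrev mt (g : P) : M4 F := ((g : GL I4 F) : M4 F)

theorem mt_mul (g k : P) : mt (g * k) = mt g * mt k := rfl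

theorem mt_inj {g k : P} (h : mt g = mt k) : g = k := Subtype.ext (Units.ext h)

theorem mt_cube {g : P} (h : g ^ 3 = 1) : mt g * mt g * mt g = 1 := by
  rw [← mt_mul, ← mt_mul, ← pow_three', h]; rfl

namespace Cov

variable (C : Cov P n)

include C in
theorem mt_sp (g : P) : ad (mt g) * mt g = 1 := mem_sp_iff.1 (C.sp _ g.2)

theorem mt_ne {g : P} (h : C.π g ≠ 1) : mt g ≠ 1 := fun e => h (by rw [mt_inj (k := 1) e, map_one])

theorem sq_eq {g : P} (h1 : C.π g ≠ 1) (h : C.π g ^ 2 = 1) : mt g * mt g = -1 := by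
  rcases (C.ker (g * g)).1 (by rw [map_mul, ← pow_two, h]) with e | e
  · exact absurd ((C.ker g).2 (C.uq.2 _ g.2 e)) h1
  · exact congrArg Units.val e

theorem tc_all (hn : 5 ≤ n) {a b c a' b' c' : Fin n} (h : D3 a b c) (h' : D3 a' b' c')
    (ht : TC (mt (C.x a b c))) : TC (mt (C.x a' b' c')) := by
  have k : ∀ {a b c : Fin n}, D3 a b c → Function.Injective ![a, b, c] := fun h i j => by
    obtain ⟨h1, h2, h3⟩ := h
    fin_cases i <;> fin_cases j <;> simp [h1, h2, h3, h1.symm, h2.symm, h3.symm]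
  obtain ⟨g, hg⟩ := C.exists_map_emb (m := 3) (by simpa using hn) ⟨_, k h⟩ ⟨_, k h'⟩
  have := C.conj_x g h
  rw [show C.π g a = a' from hg 0, show C.π g b = b' from hg 1, show C.π g c = c' from hg 2] at this
  rw [← this]
  exact ht.conj

theorem n3 {a b c : Fin n} (h : D3 a b c) (ht : ¬ TC (mt (C.x a b c))) : N3 (mt (C.x a b c)) :=
  ⟨C.mt_sp _, mt_cube (C.x_pow a b c), C.mt_ne (by
    rw [C.π_x h]; exact H78.c3_ne_one h.1 h.2.1), ht⟩

theorem gen {u v : Fin n} (huv : u ≠ v) {M : Subgroup (GL I4 F)} (h1 : -1 ∈ M)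
    (h : ∀ i, i ≠ u → i ≠ v → (C.x i u v : GL I4 F) ∈ M) : P ≤ M := fun g hg => by
  have h2 : H78.altOn Finset.univ ≤ (M.subgroupOf P).map C.π :=
    H78.altOn_le_of_c3 huv fun i _ hu hv => ⟨_, h i hu hv, C.π_x ⟨hu, hv, huv⟩⟩
  rw [H78.altOn_univ] at h2
  obtain ⟨k, hk, e⟩ := h2 (C.even ⟨g, hg⟩)
  have h3 : g = (k : GL I4 F) * (k⁻¹ * ⟨g, hg⟩ : P) := by simp
  rw [h3]
  refine M.mul_mem hk ?_
  rcases (C.ker (k⁻¹ * ⟨g, hg⟩)).1 (by rw [map_mul, map_inv, e, inv_mul_cancel]) with e | e <;>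
    rw [e]
  exacts [M.one_mem, h1]

theorem x_sq {u v i j : Fin n} (huv : u ≠ v) (hi : i ≠ u) (hi' : i ≠ v) (hj : j ≠ u) (hj' : j ≠ v)
    (hij : i ≠ j) : mt (C.x i u v) * mt (C.x j u v) * (mt (C.x i u v) * mt (C.x j u v)) = -1 := by
  have e : C.π (C.x i u v * C.x j u v) = cyc i u v * cyc j u v := by
    rw [map_mul, C.π_x ⟨hi, hi', huv⟩, C.π_x ⟨hj, hj', huv⟩]
  refine C.sq_eq (g := C.x i u v * C.x j u v) (fun e' => hj' ?_)
    (e ▸ H78.c3_mul_c3_sq huv hi hi' hj hj' hij)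
  have := congrArg (· j) (e.symm.trans e')
  simpa [cyc_fst (⟨hj, hj', huv⟩ : D3 j u v), cyc_snd (⟨hi, hi', huv⟩ : D3 i u v)] using this.symm

end Cov

theorem d3_succ {m : ℕ} (i : Fin m) : D3 i.succ.succ 0 1 :=
  ⟨Fin.succ_ne_zero _, Fin.succ_succ_ne_one _, Fin.zero_ne_one⟩

/-- the standard generators -/
noncomputable def Cov.y {m : ℕ} (C : Cov P (m + 2)) (i : Fin m) : M4 F :=
  mt (C.x i.succ.succ 0 1) + mt (C.x i.succ.succ 0 1) + 1

theorem exists_succ {m : ℕ} {i : Fin (m + 2)} (h0 : i ≠ 0) (h1 : i ≠ 1) :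
    ∃ j : Fin m, i = j.succ.succ := by
  obtain ⟨i, rfl⟩ := Fin.exists_succ_eq.2 h0
  obtain ⟨i, rfl⟩ := Fin.exists_succ_eq.2 (show i ≠ 0 from fun e => h1 (by rw [e]; rfl))
  exact ⟨i, rfl⟩

theorem Cov.gens {m : ℕ} (C : Cov P (m + 2)) (h : ∀ i : Fin m, TC (mt (C.x i.succ.succ 0 1))) :
    Gens P C.y where
  cy := cy_of_tc (fun _ => C.mt_sp _) h fun i j hij =>
    C.x_sq Fin.zero_ne_one (d3_succ i).1 (d3_succ i).2.1 (d3_succ j).1 (d3_succ j).2.1
      ((Fin.succ_injective _).ne ((Fin.succ_injective _).ne hij))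
  gen k S hS hy g hg := by
    refine (C.gen Fin.zero_ne_one (M := S.toSubmonoid.units) ?_ (fun i h0 h1 => ?_) hg).1
    · exact ⟨S.neg_mem S.one_mem, S.neg_mem S.one_mem⟩
    · obtain ⟨j, rfl⟩ := exists_succ h0 h1
      have h3 := hS.half C.two (hy j)
      refine ⟨h3, ?_⟩
      have h4 := S.mul_mem h3 h3
      rwa [← mt_mul, C.x_mul_self (d3_succ j), ← C.x_inv (d3_succ j)] at h4

theorem a7 : A7Stmt.{u} := by
  rintro F _ _ H P h hu ⟨e⟩
  let C := mkCov h hu e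
  by_cases ht : TC (mt (C.x 0 1 2))
  · exact (C.gens fun i => C.tc_all (by norm_num) (by decide) (d3_succ i) ht).card5 h
  exfalso
  have ha := C.n3 (by decide) ht
  have k : ∀ i : Fin 7, 3 ≤ i → i ≠ 5 → i ≠ 6 →
      (mt (C.x 0 1 2) - 1) * mt (C.x i 5 6) = mt (C.x 0 1 2) - 1 := fun i h1 h2 h3 => by
    have hd : D3 i 5 6 := ⟨h2, h3, by decide⟩
    have f : ∀ t : Fin 7, t < 3 → C.π (C.x i 5 6) t = t := fun t ht => by
      rw [C.π_x hd]
      exact cyc_of_ne (by omega) (by omega) (by omega)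
    have p0 : C.π (C.x 0 1 2) 0 = 1 := by rw [C.π_x (by decide)]; decide
    have := (ha.pair h.two (C.n3 hd fun h' => ht (C.tc_all (by norm_num) hd (by decide) h'))
      (congrArg mt (C.comm_x (by decide) (f 0 (by decide)) (f 1 (by decide)) (f 2 (by decide))))
      (C.mt_ne (g := C.x 0 1 2 * C.x i 5 6) fun e => by
        simpa [f 0 (by decide), p0] using congrArg (· 0) e)
      (C.mt_ne (g := C.x 0 1 2 * (C.x i 5 6 * C.x i 5 6)) fun e => by
        simpa [f 0 (by decide), p0] using congrArg (· 0) e)).1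
    rwa [mul_sub, mul_one, sub_eq_zero] at this
  have h1 := congrArg ((mt (C.x 0 1 2) - 1) * ·)
    (C.x_sq (u := 5) (v := 6) (i := 3) (j := 4) (by decide) (by decide) (by decide) (by decide)
      (by decide) (by decide))
  simp only [← mul_assoc, k 3 (by decide) (by decide) (by decide),
    k 4 (by decide) (by decide) (by decide), mul_neg, mul_one] at h1
  exact ha.ne (sub_eq_zero.1 (eq_zero_of_neg h.two h1))

end Cfsg.Agent.H28.SA
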