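import Mathlib
import Cfsg.Agent.H28.SpC
import Cfsg.Agent.H78.CosetBound
import Cfsg.Agent.H19.KdInv

/-!
# Double covers of the alternating group of degree six in `Sp₄(F)`
-/

set_option autoImplicit false

namespace Cfsg.Agent.H28.SA

open Matrix H25 H25.S4 H29 Cfsg.Geo Equiv Equiv.Perm

universe u

/-- automorphisms from the Carmichael presentation -/
theorem exists_aut (x : Fin 6 → alternatingGroup (Fin 6)) (h3 : ∀ i, i ≠ 0 → i ≠ 1 → x i ^ 3 = 1)
    (h2 : ∀ i j, i ≠ 0 → i ≠ 1 → j ≠ 0 → j ≠ 1 → i ≠ j → (x i * x j) ^ 2 = 1) (h1 : x 2 ≠ 1) :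
    ∃ ψ : MulAut (alternatingGroup (Fin 6)), ∀ i (hi : i ≠ 0), i ≠ 1 →
      ψ ⟨cyc i 0 1, H78.sign_c3 hi Fin.zero_ne_one⟩ = x i := by
  obtain ⟨φ, hφ⟩ := H78.exists_hom_carmichael_alternating Fin.zero_ne_one x h3 h2
  have := alternatingGroup.isSimpleGroup (α := Fin 6) (by simp)
  have hi : Function.Injective φ := (MonoidHom.ker_eq_bot_iff φ).1 <|
    (φ.normal_ker.eq_bot_or_eq_top).resolve_right fun e => h1 <| by
      rw [← hφ 2 (by decide) (by decide)]
      exact e.ge (Subgroup.mem_top _)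
  exact ⟨MulEquiv.ofBijective φ (Finite.injective_iff_bijective.1 hi), hφ⟩

theorem exists_rho (x : Fin 6 → Perm (Fin 6)) (h3 : ∀ i, i ≠ 0 → i ≠ 1 → IsThreeCycle (x i))
    (he : ∀ i, sign (x i) = 1)
    (h2 : ∀ i j, i ≠ 0 → i ≠ 1 → j ≠ 0 → j ≠ 1 → i ≠ j → (x i * x j) ^ 2 = 1) :
    ∃ ρ : Perm (Fin 6), ∀ i, i ≠ 0 → i ≠ 1 → x i = ρ * cyc i 0 1 * ρ⁻¹ := by
  obtain ⟨ψ, hψ⟩ := exists_aut (fun i => ⟨x i, he i⟩)
    (fun i h0 h1 => Subtype.ext (by
      have := pow_orderOf_eq_one (x i)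
      rwa [(h3 i h0 h1).orderOf] at this))
    (fun i j a b c d e => Subtype.ext (h2 i j a b c d e))
    (fun e => (h3 2 (by decide) (by decide)).ne_one (congrArg Subtype.val e))
  obtain ⟨ρ, hρ⟩ := H19.Kd.exists_conj3 (by simp) ψ fun g hg => by
    have h4 := alternatingGroup.isThreeCycle_isConj (by simp)
      (σ := ⟨cyc 2 0 1, H78.sign_c3 (by decide) Fin.zero_ne_one⟩)
      (H78.isThreeCycle_c3 (by decide) (by decide) (by decide)) hg
    have h5 := (alternatingGroup (Fin 6)).subtype.map_isConj (ψ.toMonoidHom.map_isConj h4)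
    rw [isConj_iff_cycleType_eq] at h5
    refine h5.symm.trans ?_
    erw [hψ 2 (by decide) (by decide)]
    exact h3 2 (by decide) (by decide)
  exact ⟨ρ, fun i h0 h1 => (congrArg Subtype.val (hψ i h0 h1)).symm.trans (hρ _)⟩

theorem cycleType_three {σ : Perm (Fin 6)} (h : σ ^ 3 = 1) (h1 : σ ≠ 1) (h3 : ¬ IsThreeCycle σ) :
    σ.cycleType = {3, 3} := by
  haveI : Fact (Nat.Prime 3) := ⟨by norm_num⟩
  have e := cycleType_of_pow_prime_eq_one h
  have h4 := σ.sum_cycleType_le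
  have h5 : σ.cycleType.card ≠ 0 := fun e => h1 (card_cycleType_eq_zero.1 e)
  rw [IsThreeCycle, e] at h3
  rw [e] at h4 ⊢
  generalize σ.cycleType.card = n at *
  simp at h4
  obtain rfl | rfl : n = 1 ∨ n = 2 := by omega
  exacts [absurd rfl h3, rfl]

theorem exists_two {σ : Perm (Fin 6)} (h : σ ^ 3 = 1) (h1 : σ ≠ 1) (h3 : ¬ IsThreeCycle σ) :
    ∃ ρ : Perm (Fin 6), σ = cyc (ρ 0) (ρ 1) (ρ 2) * cyc (ρ 3) (ρ 4) (ρ 5) := by
  have h4 := cycleType_three (σ := cyc 0 1 2 * cyc 3 4 5) (by decide) (by decide) fun e =>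
    absurd e.card_support (by decide)
  obtain ⟨ρ, hρ⟩ := isConj_iff.1 (isConj_iff_cycleType_eq.2 (h4.trans (cycleType_three h h1 h3).symm))
  exact ⟨ρ, by rw [← hρ, ← cyc_conj, ← cyc_conj]; group⟩

theorem no_fifth : ∀ a b c : Fin 6, D3 a b c →
    ∃ i : Fin 4, ∃ t, cyc a b c (cyc i.succ.succ 0 1 (cyc a b c (cyc i.succ.succ 0 1 t))) ≠ t := by
  decide +kernel

variable {F : Type*} [Field F] {H P : Subgroup (GL I4 F)}

theorem Cov.comm6 (C : Cov P 6) (ρ : Perm (Fin 6)) :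
    C.x (ρ 3) (ρ 4) (ρ 5) * C.x (ρ 0) (ρ 1) (ρ 2) = C.x (ρ 0) (ρ 1) (ρ 2) * C.x (ρ 3) (ρ 4) (ρ 5) := by
  have d : D3 (ρ 3) (ρ 4) (ρ 5) := D3.map ρ.injective (by decide)
  refine C.comm_x (D3.map ρ.injective (by decide)) ?_ ?_ ?_ <;> rw [C.π_x d] <;>
    exact cyc_of_ne (ρ.injective.ne (by decide)) (ρ.injective.ne (by decide))
      (ρ.injective.ne (by decide))

theorem exists_good (h : Ctx H P) (hu : Uniq P) (e : Bar P ≃* alternatingGroup (Fin 6)) :
    ∃ C : Cov P 6, ∀ a b c, D3 a b c → TC (mt (C.x a b c)) := by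
  suffices ∃ C : Cov P 6, TC (mt (C.x 2 0 1)) from
    this.imp fun C hC a b c hd => C.tc_all (by norm_num) (by decide) hd hC
  let C := mkCov h hu e
  by_cases ht : TC (mt (C.x 2 0 1))
  · exact ⟨C, ht⟩
  have k : ∀ {a b c : Fin 6}, D3 a b c → N3 (mt (C.x a b c)) := fun hd =>
    C.n3 hd fun h' => ht (C.tc_all (by norm_num) hd (by decide) h')
  have p0 := C.π_x (a := 0) (b := 1) (c := 2) (by decide)
  have p1 := C.π_x (a := 3) (b := 4) (c := 5) (by decide)
  have hc : Commute (C.x 3 4 5) (C.x 0 1 2) := C.comm6 1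
  have h1 := ((k (by decide)).pair h.two (k (by decide)) (congrArg mt hc)
    (C.mt_ne (g := C.x 0 1 2 * C.x 3 4 5) (by rw [map_mul, p0, p1]; decide))
    (C.mt_ne (g := C.x 0 1 2 * (C.x 3 4 5 * C.x 3 4 5)) (by
      rw [map_mul, map_mul, p0, p1]; decide))).2
  obtain ⟨ψ, hψ⟩ := exists_aut ![1, 1, ⟨cyc 0 1 2 * cyc 3 4 5, by rw [mem_alternatingGroup]; decide⟩,
    ⟨cyc 0 2 3 * cyc 1 5 4, by rw [mem_alternatingGroup]; decide⟩,
    ⟨cyc 0 3 5 * cyc 1 4 2, by rw [mem_alternatingGroup]; decide⟩,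
    ⟨cyc 0 5 1 * cyc 2 4 3, by rw [mem_alternatingGroup]; decide⟩]
    (by decide +kernel) (by decide +kernel) (by decide)
  refine ⟨mkCov h hu (e.trans ψ.symm), ?_⟩
  have h2 := (mkCov h hu (e.trans ψ.symm)).eq_lf (q := 3) (by decide) (g := C.x 0 1 2 * C.x 3 4 5)
    (by rw [hc.symm.mul_pow, C.x_pow, C.x_pow, one_mul])
  have h3 : e (QuotientGroup.mk (C.x 0 1 2 * C.x 3 4 5)) =
      ψ ⟨cyc 2 0 1, H78.sign_c3 (by decide) Fin.zero_ne_one⟩ := by
    rw [hψ 2 (by decide) (by decide)]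
    refine Subtype.ext ?_
    rw [← mkCov_π h hu, map_mul, p0, p1]
    rfl
  rw [mkCov_π, MulEquiv.trans_apply, h3, MulEquiv.symm_apply_apply] at h2
  rw [AltCov.x, ← h2]
  exact h1

theorem Cov.three_cycle (C : Cov P 6) (hC : ∀ a b c, D3 a b c → TC (mt (C.x a b c)))
    (h3 : (3 : F) ≠ 0) {g : P} (hg : g ^ 3 = 1) (ht : TC (mt g)) : IsThreeCycle (C.π g) := by
  by_contra h0
  obtain ⟨ρ, hρ⟩ := exists_two (by rw [← map_pow, hg, map_one]) (fun e => by
    rw [C.uniq (q := 3) (by decide) hg (one_pow 3) (e.trans (map_one _).symm)] at ht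
    refine one_ne_zero (cancel h3 (x := (1 : M4 F)) ?_)
    unfold TC at ht
    linear_combination (norm := (simp [mt]; norm_num)) ht) h0
  have d0 : D3 (ρ 0) (ρ 1) (ρ 2) := D3.map ρ.injective (by decide)
  have d1 : D3 (ρ 3) (ρ 4) (ρ 5) := D3.map ρ.injective (by decide)
  have hc : Commute _ _ := C.comm6 ρ
  rw [C.uniq (q := 3) (by decide) hg (h := C.x (ρ 0) (ρ 1) (ρ 2) * C.x (ρ 3) (ρ 4) (ρ 5))
    (by rw [hc.symm.mul_pow, C.x_pow, C.x_pow, one_mul])
    (by rw [hρ, map_mul, C.π_x d0, C.π_x d1])] at ht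
  have h4 := congrArg (C.π · (ρ 0)) (mt_inj (tc_eq h3 (hC _ _ _ d0) (hC _ _ _ d1)
    (congrArg mt hc) ht))
  simp only [C.π_x d0, C.π_x d1, cyc_fst d0] at h4
  rw [cyc_of_ne (ρ.injective.ne (by decide)) (ρ.injective.ne (by decide))
    (ρ.injective.ne (by decide))] at h4
  exact absurd (ρ.injective h4) (by decide)

/-- recovering the elements of order three -/
theorem CY.half (h2 : (2 : F) ≠ 0) {m : ℕ} {y : Fin m → M4 F} (h : CY y) :
    ∃ X : Fin m → GL I4 F, (∀ i, X i ∈ spGL 2 F) ∧ (∀ i, (X i : M4 F) + X i + 1 = y i) ∧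
      (∀ i, TC (X i : M4 F)) ∧ (∀ i, X i ^ 3 = 1) ∧ ∀ i j, i ≠ j → (X i * X j) ^ 2 = -1 := by
  have h1 : ∀ i, ∃ x : M4 F, x + x + 1 = y i := fun i => ⟨(2 : F)⁻¹ • (y i - 1), by
    rw [← two_smul F, smul_inv_smul₀ h2, sub_add_cancel]⟩
  choose x hx using h1
  have h4 := four_ne h2
  have t : ∀ i, TC (x i) := fun i => cancel h4 (by
    have := h.sq i
    rw [← hx] at this
    linear_combination (norm := (noncomm_ring; norm_num)) this)
  have s : ∀ i, ad (x i) * x i = 1 := fun i => by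
    have e := h.sk i
    have e' := t i
    unfold TC at e'
    rw [← hx, ad_add, ad_add, ad_one] at e
    refine sub_eq_zero.1 (cancel h2 ?_)
    linear_combination (norm := noncomm_ring) e * x i - 2 * e'
  refine ⟨fun i => mkSp _ (s i), fun i => mkSp_mem _ _, hx, t, fun i => Units.ext ?_,
    fun i j hij => Units.ext ?_⟩
  · have e' := t i
    unfold TC at e'
    simp only [pow_three', Units.val_mul, coe_mkSp, Units.val_one]
    linear_combination (norm := noncomm_ring) e' * (x i - 1)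
  · have e := h.anti i j hij
    have ha := t i
    have hb := t j
    unfold TC at ha hb
    rw [← hx, ← hx] at e
    have e' : x i * x j + (x j + 1) * (x i + 1) = 0 := cancel h4 (by
      linear_combination (norm := (noncomm_ring; norm_num)) e)
    simp only [pow_two, Units.val_mul, coe_mkSp, Units.val_neg, Units.val_one]
    linear_combination (norm := noncomm_ring) x i * x j * e' - x i * hb * (x i + 1) + ha

theorem add_self_inj (h2 : (2 : F) ≠ 0) {a b : M4 F} (h : a + a + 1 = b + b + 1) : a = b :=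
  sub_eq_zero.1 (cancel h2 (by linear_combination (norm := noncomm_ring) h))

theorem TC.inv {g : GL I4 F} (h : TC (g : M4 F)) (hg : g ∈ spGL 2 F) :
    ((g⁻¹ : GL I4 F) : M4 F) + ((g⁻¹ : GL I4 F) : M4 F) + 1 = -((g : M4 F) + g + 1) := by
  rw [← ad_coe hg, h.ad (mem_sp_iff.1 hg)]; abel

theorem conj_last (h2 : (2 : F) ≠ 0) {g a a' : GL I4 F} {x x' : Fin 4 → GL I4 F}
    (h : (a : M4 F) + a + 1 = -∑ i, ((x i : M4 F) + x i + 1))
    (h' : (a' : M4 F) + a' + 1 = -∑ i, ((x' i : M4 F) + x' i + 1))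
    (hg : ∀ i, g * x i * g⁻¹ = x' i) : g * a * g⁻¹ = a' := by
  have k : ∀ b : GL I4 F, ((g * b * g⁻¹ : GL I4 F) : M4 F) + (g * b * g⁻¹ : GL I4 F) + 1 =
      g * ((b : M4 F) + b + 1) * ((g⁻¹ : GL I4 F) : M4 F) := fun b => by
    simp only [Units.val_mul, mul_add, add_mul, mul_one, Units.mul_inv]
  refine Units.ext (add_self_inj h2 ?_)
  simp only [h', ← hg, k, h, mul_neg, neg_mul, Finset.mul_sum, Finset.sum_mul]

theorem CY.five (h2 : (2 : F) ≠ 0) (h7 : (7 : F) = 0) {y : Fin 4 → M4 F} (h : CY y) :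
    CY (Fin.snoc y (-∑ i, y i) : Fin 5 → M4 F) := by
  have e : -∑ i, y i = lc y fun _ => -1 := by simp [lc]
  have e' : ∀ i, y i = lc y (Pi.single i 1) := fun i => by simp [lc, Pi.single_apply]
  have k : ∀ i, y i * (-∑ i, y i) + (-∑ i, y i) * y i = -2 := fun i => by
    rw [e]
    conv_lhs => rw [e' i]
    rw [h.lc_anti, ofNat_eq 2, ← neg_smul]
    congr 1
    simp [Pi.single_apply]
    linear_combination 2 * h7
  refine ⟨fun i => ?_, fun i => ?_, fun i j hij => ?_⟩
  · induction i using Fin.lastCases with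
    | cast i => simpa using h.sk i
    | last => rw [Fin.snoc_last, e, h.lc_sk]
  · induction i using Fin.lastCases with
    | cast i => simpa using h.sq i
    | last =>
      refine smul_right_injective _ h2 ?_
      simp only
      rw [Fin.snoc_last, e, two_smul, h.lc_anti, ofNat_eq 3, ← neg_smul, smul_smul]
      congr 1
      simp
      linear_combination 6 * h7
  · induction i using Fin.lastCases with
    | cast i =>
      induction j using Fin.lastCases with
      | cast j => simpa using h.anti i j fun e => hij (by rw [e])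
      | last => rw [Fin.snoc_last, Fin.snoc_castSucc, k]
    | last =>
      induction j using Fin.lastCases with
      | cast j => rw [Fin.snoc_last, Fin.snoc_castSucc, add_comm, k]
      | last => exact absurd rfl hij

theorem card_comap_le [Finite F] (K : Subgroup (GL I4 F ⧸ scalars I4 F)) :
    Nat.card (K.comap (QuotientGroup.mk' _) ⊓ spGL 2 F : Subgroup (GL I4 F)) ≤ 2 * Nat.card K := by
  let φ := (QuotientGroup.mk' (scalars I4 F)).comp
    (K.comap (QuotientGroup.mk' _) ⊓ spGL 2 F : Subgroup (GL I4 F)).subtype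
  rw [← φ.ker.card_mul_index, Subgroup.index_ker]
  refine Nat.mul_le_mul ?_ (Subgroup.card_le_of_le ?_)
  · have : Nat.card φ.ker ≤ Nat.card ({1, -1} : Set (GL I4 F)) :=
      Nat.card_le_card_of_injective (fun x => ⟨x.1.1, by
        simpa using eq_or_of_scalar x.1.2.2 ((QuotientGroup.eq_one_iff _).1 x.2)⟩)
        fun x y hxy => Subtype.ext (Subtype.ext (Subtype.mk.inj hxy))
    exact this.trans (by rw [Nat.card_coe_set_eq]; exact (Set.ncard_insert_le _ _).trans (by simp))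
  · rintro _ ⟨x, rfl⟩
    exact x.2.1

theorem Cov.not_seven [Fintype F] (h : Ctx H P) (C : Cov P 6)
    (hC : ∀ a b c, D3 a b c → TC (mt (C.x a b c))) (h7 : (7 : F) = 0) : False := by
  have h2 := h.two
  have hg := C.gens fun i => hC _ _ _ (d3_succ i)
  have h3 := hg.three_ne h
  obtain ⟨X, hsp, hX, ht, hX3, hX2⟩ := (hg.cy.five h2 h7).half h2
  have e1 : ∀ i : Fin 4, X i.castSucc = C.x i.succ.succ 0 1 := fun i =>
    Units.ext (add_self_inj h2 (by rw [hX, Fin.snoc_castSucc]; rfl))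
  have e2 := hX (Fin.last 4)
  rw [Fin.snoc_last] at e2
  let π := QuotientGroup.mk' (scalars I4 F)
  have hn : π (-1) = 1 := (QuotientGroup.eq_one_iff _).2 neg_one_mem_scalars
  let K := (Subgroup.closure ((fun i => π (X i)) '' (Finset.univ : Finset (Fin 5)))).comap π ⊓
    spGL 2 F
  have hXK : ∀ i, X i ∈ K := fun i => ⟨Subgroup.subset_closure ⟨i, by simp, rfl⟩, hsp i⟩
  have hPK : P ≤ K := C.gen Fin.zero_ne_one
    ⟨Subgroup.mem_comap.2 (hn ▸ one_mem _), neg_one_mem_sp⟩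
    fun i h0 h1 => by
      obtain ⟨j, rfl⟩ := exists_succ h0 h1
      exact e1 j ▸ hXK _
  have hcard : Nat.card K < 51840 := by
    have h4 := (H78.card_closure_carmichael (fun i => π (X i)) Finset.univ
      (fun i _ => by rw [← map_pow, hX3, map_one])
      (fun i _ j _ hij => by rw [← map_mul, ← map_pow, hX2 i j hij, hn])).2
    exact ((card_comap_le _).trans h4).trans_lt (by simp [Nat.factorial])
  have key : ∀ g ∈ H, g * X (Fin.last 4) * g⁻¹ ∈ K := fun g hgH => by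
    let c : P →* P := (((MulAut.conj g).toMonoidHom.comp P.subtype).codRestrict P
      fun x => h.core.normal g hgH _ x.2)
    have hc : ∀ x : P, mt (c x) = (g : M4 F) * mt x * ((g⁻¹ : GL I4 F) : M4 F) := fun _ => rfl
    obtain ⟨ρ, hρ⟩ := exists_rho (fun i => C.π (c (C.x i 0 1)))
      (fun i h0 h1 => C.three_cycle hC h3 (by rw [← map_pow, C.x_pow, map_one])
        (hc _ ▸ (hC _ _ _ ⟨h0, h1, Fin.zero_ne_one⟩).conj))
      (fun i => C.even _) fun i j a b a' b' e => by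
        have h4 := C.x_sq Fin.zero_ne_one a b a' b' e
        rw [← map_mul, ← map_mul, ← map_pow, ← map_pow]
        refine (C.ker _).2 (Or.inr (Units.ext ?_))
        change mt _ = _
        rw [hc, pow_two, mt_mul, mt_mul, h4]
        simp
    have e4 : ∀ p : P, g * X (Fin.last 4) * g⁻¹ =
        p * (((p : GL I4 F)⁻¹ * g) * X (Fin.last 4) * ((p : GL I4 F)⁻¹ * g)⁻¹) * (p : GL I4 F)⁻¹ :=
      fun p => by group
    have e5 : ∀ p x y : P, c x = p * y * p⁻¹ →
        ((p : GL I4 F)⁻¹ * g) * x * ((p : GL I4 F)⁻¹ * g)⁻¹ = y := fun p x y e => by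
      have : g * x * g⁻¹ = p * y * (p : GL I4 F)⁻¹ := congrArg Subtype.val e
      rw [_root_.mul_inv_rev, inv_inv, mul_assoc, mul_assoc, ← mul_assoc (x : GL I4 F),
        ← mul_assoc g, ← mul_assoc g, this]
      group
    rcases Int.units_eq_one_or (sign ρ) with hs | hs
    · obtain ⟨p, rfl⟩ := C.surj ρ hs
      rw [e4 p, conj_last h2 (x := fun i : Fin 4 => C.x i.succ.succ 0 1) e2 e2 fun i => e5 p _ _ <|
        C.uniq (q := 3) (by decide) (by rw [← map_pow, C.x_pow, map_one])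
          (by rw [conj_pow, C.x_pow, mul_one, mul_inv_cancel]) (by
            rw [hρ _ (d3_succ i).1 (d3_succ i).2.1, map_mul, map_mul, map_inv, C.π_x (d3_succ i)])]
      exact mul_mem (mul_mem (hPK p.2) (hXK _)) (inv_mem (hPK p.2))
    · obtain ⟨p, hp⟩ := C.surj (ρ * swap 0 1) (by rw [map_mul, hs, sign_swap (by decide)]; rfl)
      have e6 : ∀ i : Fin 4, swap (0 : Fin 6) 1 * (cyc i.succ.succ 0 1)⁻¹ * (swap 0 1)⁻¹ =
        cyc i.succ.succ 0 1 := by decide +kernel
      rw [e4 p, conj_last h2 (x := fun i : Fin 4 => C.x i.succ.succ 0 1)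
        (x' := fun i : Fin 4 => (C.x i.succ.succ 0 1)⁻¹) (a' := (X (Fin.last 4))⁻¹) e2
        (by
          rw [(ht _).inv (hsp _), e2, ← Finset.sum_neg_distrib, neg_inj]
          exact Finset.sum_congr rfl fun i _ =>
            ((hC _ _ _ (d3_succ i)).inv (C.sp _ (C.x _ 0 1).2)).symm)
        fun i => e5 p _ (C.x i.succ.succ 0 1)⁻¹ <|
        C.uniq (q := 3) (by decide) (by rw [← map_pow, C.x_pow, map_one])
          (by rw [conj_pow, inv_pow, C.x_pow, inv_one, mul_one, mul_inv_cancel]) (by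
            rw [hρ _ (d3_succ i).1 (d3_succ i).2.1, map_mul, map_mul, map_inv, map_inv,
              C.π_x (d3_succ i), hp]
            conv_lhs => rw [← e6 i]
            group)]
      exact mul_mem (mul_mem (hPK p.2) (inv_mem (hXK _))) (inv_mem (hPK p.2))
  have hNB : NB H K := fun g hgH x hx => by
    refine Subgroup.mem_inf.2 ⟨?_, mul_mem (mul_mem (h.spH hgH) hx.2) (inv_mem (h.spH hgH))⟩
    have h4 : ∀ z ∈ Subgroup.closure ((fun i => π (X i)) '' (Finset.univ : Finset (Fin 5))),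
        π g * z * (π g)⁻¹ ∈
          Subgroup.closure ((fun i => π (X i)) '' (Finset.univ : Finset (Fin 5))) := fun z hz => by
      refine Subgroup.mem_comap (f := (MulAut.conj (π g)).toMonoidHom) |>.1
        ((Subgroup.closure_le _).2 ?_ hz)
      rintro _ ⟨i, -, rfl⟩
      induction i using Fin.lastCases with
      | cast i => exact (hPK (h.core.normal g hgH _ (e1 i ▸ (C.x i.succ.succ 0 1).2))).1
      | last => exact (key g hgH).1
    exact h4 _ hx.1
  have h5 : X (Fin.last 4) ∈ H := h.le_of_nb inf_le_right hNB (fun hs => by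
    refine C.mt_ne (g := C.x 2 0 1) (by rw [C.π_x (by decide)]; decide) ?_
    rcases eq_or_of_scalar (C.sp _ (C.x 2 0 1).2) (hs (hPK (C.x 2 0 1).2)) with e | e
    · exact congrArg Units.val e
    · exact absurd ((C.π_x (by decide)).symm.trans ((C.ker _).2 (Or.inr e))) (by decide))
    hcard (hXK _)
  have h6 : X (Fin.last 4) ∈ P := by
    have a1 := hX2 (Fin.last 4) (0 : Fin 4).castSucc (by decide)
    have a2 : X (0 : Fin 4).castSucc ∈ P := e1 0 ▸ (C.x _ 0 1).2
    have a3 := hX3 (Fin.last 4)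
    have a4 := h.core.normal _ h5 _ a2
    generalize X (Fin.last 4) = a, X (0 : Fin 4).castSucc = b at *
    have a5 : a⁻¹ = (a * b * a⁻¹)⁻¹ * (a * b) ^ 2 * b⁻¹ := by
      rw [inv_eq_of_mul_eq_one_right ((pow_three a).symm.trans a3)]
      have : (a * b * (a * a))⁻¹ * (a * b * (a * b)) * b⁻¹ = a⁻¹ := by group
      rw [pow_two, this, inv_eq_of_mul_eq_one_right ((pow_three a).symm.trans a3)]
    rw [← inv_mem_iff, a5, a1]
    exact mul_mem (mul_mem (inv_mem a4) C.uq.1) (inv_mem a2)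
  obtain ⟨a, b, c, h8, h9, h10, e⟩ := H78.IsThreeCycle.exists_eq_c3
    (C.three_cycle hC h3 (g := ⟨_, h6⟩) (Subtype.ext (hX3 _)) (ht _))
  obtain ⟨i, t, hi⟩ := no_fifth a b c ⟨h8, h9, h10⟩
  have h11 := (C.ker ((⟨_, h6⟩ * C.x i.succ.succ 0 1) ^ 2)).2 (Or.inr (by
    rw [← hX2 (Fin.last 4) i.castSucc (Fin.castSucc_lt_last i).ne', e1]; rfl))
  rw [map_pow, map_mul, e, C.π_x (d3_succ i), pow_two] at h11
  exact hi (congrArg (· t) h11)

theorem a6 : A6Stmt.{u} := by
  rintro F _ _ H P h hu ⟨e⟩ p hp _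
  obtain ⟨C, hC⟩ := exists_good h hu e
  have hg := C.gens fun i => hC _ _ _ (d3_succ i)
  have k : ∀ n : ℕ, (n : F) ≠ 0 → p ≠ n := fun n hn e => hn (e ▸ CharP.cast_eq_zero F p)
  refine ⟨hg.card4 h p, hp.out.five_le_of_ne_two_of_ne_three (k 2 (by exact_mod_cast h.two))
    (k 3 (by exact_mod_cast hg.three_ne h)), k 7 fun e => C.not_seven h hC (by exact_mod_cast e)⟩

end Cfsg.Agent.H28.SA
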