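import Mathlib
import Cfsg.Agent.H28.SpC

/-!
# `SL₂(5)` in `Sp₄(F)`
-/

set_option autoImplicit false

namespace Cfsg.Agent.H28.SA

open Matrix H25 H25.S4 Cfsg.Geo Equiv
open scoped MatrixGroups

universe u

abbrev G5 := SL(2, ZMod 5)

/-- explicit elements -/
def mk5 (a b c d : ZMod 5) (h : a * d - b * c = 1 := by decide) : G5 :=
  ⟨!![a, b; c, d], by rwa [det_fin_two_of]⟩

theorem ind5 {p : G5 → Prop} (h : ∀ a b c d e, p (mk5 a b c d e)) (k : G5) : p k := by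
  have := h (k 0 0) (k 0 1) (k 1 0) (k 1 1) (by rw [← det_fin_two]; exact k.2)
  convert this
  ext i j
  fin_cases i <;> fin_cases j <;> rfl

def g5 : G5 := mk5 1 1 0 1

def h5 : G5 := mk5 1 0 1 1

def a3 : Fin 3 → G5 := ![mk5 0 1 4 4, mk5 2 1 3 2, mk5 4 3 3 0]

def w6 : Fin 6 → G5 := ![1, mk5 0 2 2 0, mk5 1 0 1 1, mk5 2 0 3 3, mk5 1 0 3 1, mk5 2 0 4 3]

def s6 : Fin 6 → G5 := ![g5, h5, mk5 0 1 4 2, mk5 0 4 1 2, mk5 3 1 1 4, mk5 3 4 4 4]

theorem s6_eq : ∀ i, s6 i = w6 i * g5 * (w6 i)⁻¹ := by decide +kernel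

theorem gen5 {M : Subgroup G5} (hg : g5 ∈ M) (hh : h5 ∈ M) (k : G5) : k ∈ M := by
  have key : ∀ k : G5, k 1 0 ≠ 0 → ∃ i j l : Fin 5, k = g5 ^ i.1 * h5 ^ j.1 * g5 ^ l.1 :=
    ind5 (by decide +kernel)
  have key' : ∀ k : G5, k 1 0 ≠ 0 ∨ (k * h5) 1 0 ≠ 0 := ind5 (by decide +kernel)
  have h1 : ∀ k : G5, k 1 0 ≠ 0 → k ∈ M := fun k hk => by
    obtain ⟨i, j, l, rfl⟩ := key k hk
    exact mul_mem (mul_mem (pow_mem hg _) (pow_mem hh _)) (pow_mem hg _)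
  exact (key' k).elim (h1 k) fun e => (M.mul_mem_cancel_right hh).1 (h1 _ e)

theorem conj3 (k : G5) : k ^ 3 = 1 → k ≠ 1 → ∃ w : G5, k = w * a3 0 * w⁻¹ := fun h h' => by
  have key : ∀ k : G5, k ^ 3 = 1 → k ≠ 1 → ∃ i j l : Fin 5,
      k * (g5 ^ i.1 * h5 ^ j.1 * g5 ^ l.1) = (g5 ^ i.1 * h5 ^ j.1 * g5 ^ l.1) * a3 0 :=
    ind5 (by decide +kernel)
  obtain ⟨i, j, l, e⟩ := key k h h'
  exact ⟨_, eq_mul_inv_of_mul_eq e⟩

theorem cls5 : ∀ k : G5, k ^ 5 = 1 → k ≠ 1 → ∃ j,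
    (k = s6 j ∨ k = (s6 j)⁻¹) ∨ (k = s6 j * s6 j ∨ k = (s6 j * s6 j)⁻¹) := ind5 (by decide +kernel)

theorem pair5 : ∀ i j, i ≠ j → ∃ a b : G5, (a ^ 5 = 1 ∧ a ≠ 1 ∧ b ^ 3 = 1 ∧ b ≠ 1) ∧
    ((s6 i * s6 j = -1 * a ∧ s6 i * (s6 j)⁻¹ = -1 * b) ∨
      (s6 i * s6 j = -1 * b ∧ s6 i * (s6 j)⁻¹ = -1 * a)) := fun i j hij => by
  have key : ∀ i j, i ≠ j → -1 * (s6 i * s6 j) ≠ 1 ∧ -1 * (s6 i * (s6 j)⁻¹) ≠ 1 ∧
      (((-1 * (s6 i * s6 j)) ^ 5 = 1 ∧ (-1 * (s6 i * (s6 j)⁻¹)) ^ 3 = 1) ∨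
        ((-1 * (s6 i * s6 j)) ^ 3 = 1 ∧ (-1 * (s6 i * (s6 j)⁻¹)) ^ 5 = 1)) := by decide +kernel
  obtain ⟨h1, h2, ⟨h3, h4⟩ | ⟨h3, h4⟩⟩ := key i j hij
  · exact ⟨_, _, ⟨h3, h1, h4, h2⟩, Or.inl ⟨by simp, by simp⟩⟩
  · exact ⟨_, _, ⟨h4, h2, h3, h1⟩, Or.inr ⟨by simp, by simp⟩⟩

variable {F : Type*} [Field F] {H P : Subgroup (GL I4 F)}

/-- `k` maps the line of `a` to the line of `b` -/
def Rel (k : GL I4 F) (a b : M4 F) : Prop := (k : M4 F) * a = b * k ∨ (k : M4 F) * a = -(b * k)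

theorem Rel.mul {k l : GL I4 F} {a b c : M4 F} (h : Rel l a b) (h' : Rel k b c) :
    Rel (k * l) a c := by
  unfold Rel at *
  rw [Units.val_mul, mul_assoc]
  rcases h with h | h <;> rcases h' with h' | h' <;> simp [h, ← mul_assoc, h']

theorem Rel.uniq {k : GL I4 F} {a b c : M4 F} (h : Rel k a b) (h' : Rel k a c) :
    b = c ∨ b = -c := by
  unfold Rel at *
  rw [← neg_mul] at h h'
  rcases h with h | h <;> rcases h' with h' | h' <;>
    have := k.mul_left_inj.1 (h.symm.trans h')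
  exacts [Or.inl this, Or.inr this, Or.inr (neg_eq_iff_eq_neg.1 this), Or.inl (neg_injective this)]

theorem mem_of_lines [Fintype F] (h : Ctx H P) {n : ℕ} (hn : n ≤ 7) {v : Fin n → M4 F}
    (hv : ∀ i j, v i = v j ∨ v i = -v j → i = j) (hH : ∀ k ∈ H, ∀ i, ∃ j, Rel k (v i) (v j))
    {k : GL I4 F} (hk : k ∈ spGL 2 F) (hk' : ∀ i, ∃ j, Rel k (v i) (v j)) {i j : Fin n}
    (hij : i ≠ j) (h1 : Rel k (v i) (v j)) : k ∈ H := by
  let M0 : Submonoid (GL I4 F) :=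
    { carrier := {k | k ∈ spGL 2 F ∧ ∀ i, ∃ j, Rel k (v i) (v j)}
      mul_mem' := fun {a b} ha hb => ⟨mul_mem ha.1 hb.1, fun i => by
        obtain ⟨j, hj⟩ := hb.2 i
        exact (ha.2 j).imp fun t ht => hj.mul ht⟩
      one_mem' := ⟨one_mem _, fun i => ⟨i, Or.inl (by simp)⟩⟩ }
  let M : Subgroup (GL I4 F) := ⟨M0, fun {x} hx => Submonoid.powers_le.2 hx
    (mem_powers_iff_mem_zpowers.2 (inv_mem (Subgroup.mem_zpowers x)))⟩
  have hM : ∀ (k : M) i, ∃ j, Rel k.1 (v i) (v j) := fun k => k.2.2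
  choose f hf using hM
  let φ : M →* Function.End (Fin n) :=
    { toFun := f
      map_one' := funext fun i => hv _ i ((hf 1 i).uniq (Or.inl (by simp)))
      map_mul' := fun a b => funext fun i => hv _ _ ((hf (a * b) i).uniq ((hf b i).mul (hf a _))) }
  refine (h.eq_of_perm (M := M) (fun _ hx => hx.1) (fun g hg => ⟨h.spH hg, hH g hg⟩)
    (by simpa using hn) φ.toHomPerm ⟨⟨k, hk, hk'⟩, fun e => hij ?_⟩).le ⟨hk, hk'⟩
  exact (congrArg (· i) e).symm.trans (hv _ _ ((hf _ i).uniq h1))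

/-- the vector of an element of order five -/
def v5 (x : GL I4 F) : M4 F :=
  (x : M4 F) + ((x⁻¹ : GL I4 F) : M4 F) + ((x : M4 F) + ((x⁻¹ : GL I4 F) : M4 F)) + 1

theorem v5_inv (x : GL I4 F) : v5 x⁻¹ = v5 x := by rw [v5, v5, inv_inv, add_comm (x : M4 F)]

theorem v5_conj (w x : GL I4 F) :
    v5 (w * x * w⁻¹) = (w : M4 F) * v5 x * ((w⁻¹ : GL I4 F) : M4 F) := by
  simp only [v5, conj_inv, Units.val_mul, mul_add, add_mul, mul_one, Units.mul_inv]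

theorem v5_rel (w x : GL I4 F) : (w : M4 F) * v5 x = v5 (w * x * w⁻¹) * w := by
  rw [v5_conj, Units.inv_mul_cancel_right]

theorem ad_v5 {x : GL I4 F} (hx : x ∈ spGL 2 F) : ad (v5 x) = v5 x := by
  rw [v5, ad_add, ad_add, ad_add_inv hx, ad_one]

theorem v5_sq (h2 : (2 : F) ≠ 0) {x : GL I4 F} (h : v5 x * v5 x = 5) : v5 (x * x) = -v5 x := by
  refine sub_eq_zero.1 (cancel h2 ?_)
  simp only [v5, _root_.mul_inv_rev, Units.val_mul] at h ⊢
  linear_combination (norm := (noncomm_ring; norm_num)) h - 4 * x.mul_inv - 4 * x.inv_mul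

theorem v5_fix {x : GL I4 F} (h : x ^ 5 = 1) :
    (x : M4 F) * (v5 x * v5 x - 5) = v5 x * v5 x - 5 ∧
      (v5 x * v5 x - 5) * (x : M4 F) = v5 x * v5 x - 5 := by
  have h1 : x⁻¹ = x * x * x * x := by
    rw [inv_eq_iff_mul_eq_one, ← h]; simp only [pow_succ, pow_zero, one_mul, mul_assoc]
  have h2 : (x : M4 F) * x * x * x * x = 1 := by
    have := congrArg Units.val h
    simpa only [pow_succ, pow_zero, one_mul, Units.val_mul, Units.val_one] using this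
  simp only [v5, h1, Units.val_mul]
  generalize (x : M4 F) = y at h2
  constructor <;> linear_combination (norm := (noncomm_ring; norm_num))
    4 * h2 * (y * y * y * y - y * y * y + y + y - 1)

theorem trace_v5 {x : GL I4 F} (hx : x ∈ spGL 2 F) : (v5 x).trace = 4 * ((x : M4 F).trace + 1) := by
  simp only [v5, trace_add, trace_inv hx, trace_one4]; ring

theorem trace_v5_mul {x y : GL I4 F} (hx : x ∈ spGL 2 F) (hy : y ∈ spGL 2 F) :
    (v5 x * v5 y).trace = 8 * (((x * y : GL I4 F) : M4 F).trace + ((x * y⁻¹ : GL I4 F) : M4 F).trace)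
      + 4 * ((x : M4 F).trace + (y : M4 F).trace + 1) := by
  have h1 := trace_inv (mul_mem hx hy)
  have h2 := trace_inv (mul_mem hx (inv_mem hy))
  rw [_root_.mul_inv_rev, Units.val_mul, trace_mul_comm] at h1 h2
  rw [inv_inv] at h2
  simp only [v5, mul_add, add_mul, trace_add, mul_one, one_mul, trace_inv hx, trace_inv hy,
    trace_one4, h1, h2, Units.val_mul]
  ring

/-- a faithful representation of `SL₂(5)` with image `P` -/
structure Rep (H P : Subgroup (GL I4 F)) (ρ : G5 →* GL I4 F) : Prop extends Ctx H P where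
  inj : Function.Injective ρ
  rg : ρ.range = P

namespace Rep

variable [Fintype F] {ρ : G5 →* GL I4 F} (h : Rep H P ρ)
include h

omit [Fintype F] in
theorem mem (k : G5) : ρ k ∈ P := h.rg ▸ ⟨k, rfl⟩

omit [Fintype F] in
theorem spm (k : G5) : ρ k ∈ spGL 2 F := h.sp (h.mem k)

theorem neg : ρ (-1) = -1 := by
  refine (h.eq_or_of_comm (h.spm _) fun g hg => ?_).resolve_left fun e =>
    absurd (h.inj (e.trans (map_one ρ).symm)) (by decide)
  obtain ⟨k, rfl⟩ := h.rg.ge hg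
  rw [← map_mul, ← map_mul]; simp

omit [Fintype F] in
theorem gen {S : Subring (M4 F)} (h1 : (ρ g5 : M4 F) ∈ S) (h2 : (ρ h5 : M4 F) ∈ S) :
    ∀ g ∈ P, (g : M4 F) ∈ S := fun g hg => by
  obtain ⟨k, rfl⟩ := h.rg.ge hg
  have e : ∀ x : G5, x⁻¹ = x ^ 4 → (ρ x : M4 F) ∈ S → x ∈ S.toSubmonoid.units.comap ρ :=
    fun x hx hS => ⟨hS, show (((ρ x)⁻¹ : GL I4 F) : M4 F) ∈ S by
      rw [← map_inv, hx, map_pow, Units.val_pow_eq_pow_val]; exact pow_mem hS 4⟩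
  exact (gen5 (e _ (by decide +kernel) h1) (e _ (by decide +kernel) h2) k).1

theorem not_tc : ¬ TC (ρ (a3 0) : M4 F) := fun ht => by
  have h1 : ∀ i, TC (ρ (a3 i) : M4 F) := fun i => by
    obtain ⟨w, hw⟩ := conj3 (a3 i) (by revert i; decide +kernel) (by revert i; decide +kernel)
    rw [hw, map_mul, map_mul, map_inv]
    exact ht.conj
  have e : ∀ i j, i ≠ j → a3 i * a3 j * (a3 i * a3 j) = -1 := by decide +kernel
  have hy : Gens P fun i => (ρ (a3 i) : M4 F) + ρ (a3 i) + 1 :=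
    ⟨cy_of_tc (fun i => mem_sp_iff.1 (h.spm _)) h1 fun i j hij => by
      simpa [h.neg] using congrArg (fun t => (ρ t : M4 F)) (e i j hij), fun k S hS hy => by
      have h2 := fun i => hS.half h.two (hy i)
      refine h.gen ?_ ?_
      · rw [show g5 = a3 2 * a3 0 * a3 0 * a3 1 by decide +kernel]
        simpa using S.mul_mem (S.mul_mem (S.mul_mem (h2 2) (h2 0)) (h2 0)) (h2 1)
      · rw [show h5 = a3 0 * a3 0 * a3 1 * a3 2 by decide +kernel]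
        simpa using S.mul_mem (S.mul_mem (S.mul_mem (h2 0) (h2 0)) (h2 1)) (h2 2)⟩
  refine three h.two (hy.cy.sk 0) (hy.cy.sk 1) (hy.cy.sk 2) ?_ fun A h0 h1 h2 =>
    hy.top h.toCtx fun i => by fin_cases i <;> assumption
  have k : ∀ i j, ∃ β : F, ((ρ (a3 i) : M4 F) + ρ (a3 i) + 1) * (ρ (a3 j) + ρ (a3 j) + 1) +
      (ρ (a3 j) + ρ (a3 j) + 1) * (ρ (a3 i) + ρ (a3 i) + 1) = β • 1 := fun i j => by
    by_cases hij : i = j
    · exact ⟨-3 + -3, by rw [hij, hy.cy.sq, ofNat_eq 3, add_smul, neg_smul]⟩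
    · exact ⟨-2, by rw [hy.cy.anti i j hij, ofNat_eq 2, neg_smul]⟩
  simp only [List.mem_cons, List.not_mem_nil, or_false]
  rintro _ (rfl | rfl | rfl) _ (rfl | rfl | rfl) <;> exact k _ _

theorem n3 {k : G5} (h3 : k ^ 3 = 1) (h1 : k ≠ 1) : N3 (ρ k : M4 F) := by
  refine ⟨mem_sp_iff.1 (h.spm k), ?_, fun e => h1 (h.inj (Units.ext (by simpa using e))),
    fun ht => h.not_tc ?_⟩
  · simpa [pow_three'] using congrArg (fun t => (ρ t : M4 F)) h3
  · obtain ⟨w, rfl⟩ := conj3 k h3 h1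
    simpa [mul_assoc] using ht.conj (g := (ρ w)⁻¹)

theorem sq0 : v5 (ρ g5) * v5 (ρ g5) = 5 := by
  by_contra h0
  have e1 : ρ h5 = ρ (w6 1) * ρ g5 * (ρ (w6 1))⁻¹ := by
    rw [← map_inv, ← map_mul, ← map_mul, ← s6_eq]; rfl
  have k : ∀ x : G5, ad (v5 (ρ x) * v5 (ρ x) - 5) = v5 (ρ x) * v5 (ρ x) - 5 := fun x => by
    rw [ad_sub, ad_mul, ad_v5 (h.spm x), ofNat_eq 5, ad_smul, ad_one]
  have f1 := v5_fix (x := ρ g5) (by rw [← map_pow, ← map_one ρ]; congr 1; decide +kernel)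
  have f2 := v5_fix (x := ρ h5) (by rw [← map_pow, ← map_one ρ]; congr 1; decide +kernel)
  have hn := h.n3 (k := g5 * (h5 * h5)) (by decide +kernel) (by decide +kernel)
  refine hn.ntc (fix_zero h.two (k := ρ h5 * ρ h5) (mem_sp_iff.1 (h.spm g5)) (k g5) (k h5)
    (sub_ne_zero.2 h0) (sub_ne_zero.2 fun e => h0 ?_) f1.1 (by rw [mul_assoc, f2.1, f2.1])
    (by rw [← mul_assoc, f2.2, f2.2]) (fun T h1 h2 => eq_zero_of_neg h.two ?_) ?_)
  · rw [e1, v5_conj] at e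
    have := congrArg (fun t => (((ρ (w6 1))⁻¹ : GL I4 F) : M4 F) * t * ρ (w6 1)) e
    simpa [mul_assoc, ofNat_eq 5] using this
  · have := congrArg (fun t => (ρ t : M4 F) * T)
      (show (-1 : G5) = g5 * (h5 * h5) * (h5 * h5) * g5 * (g5 * (h5 * h5) * (h5 * h5) * g5) by
        decide +kernel)
    rw [mul_assoc] at h2
    simp only [h.neg, map_mul, Units.val_mul, mul_assoc, h1, h2] at this
    simpa using this.symm
  · have := hn.cube
    simp only [map_mul, Units.val_mul] at this ⊢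
    linear_combination (norm := noncomm_ring) this

omit h [Fintype F] in
theorem v_eq (i : Fin 6) : v5 (ρ (s6 i)) =
    (ρ (w6 i) : M4 F) * v5 (ρ g5) * (((ρ (w6 i))⁻¹ : GL I4 F) : M4 F) := by
  rw [s6_eq, map_mul, map_mul, map_inv, v5_conj]

theorem sq (i : Fin 6) : v5 (ρ (s6 i)) * v5 (ρ (s6 i)) = 5 := by
  have := congrArg (fun t => (ρ (w6 i) : M4 F) * t * (((ρ (w6 i))⁻¹ : GL I4 F) : M4 F)) h.sq0
  rw [v_eq]
  simpa [mul_assoc, ofNat_eq 5] using this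

theorem memW0 : v5 (ρ g5) ∈ Wsp F := by
  refine (mem_W_or h.two (ad_v5 (h.spm _)) (h.sq0.trans (ofNat_eq 5))).resolve_right ?_
  rintro ⟨t, ht⟩
  have h2 := h.two
  have h1 : ∀ i, v5 (ρ (s6 i)) = t • 1 := fun i => by rw [v_eq, ht]; simp
  have k : ∀ i, ∃ y : M4 F, ad y = -y ∧ (∃ c : F, y * y = c • 1) ∧
      ∃ c : F, (ρ (s6 i) : M4 F) = (2 : F)⁻¹ • y + c • 1 := fun i => by
    have e := h1 i
    have e1 := (ρ (s6 i)).mul_inv
    have e2 := (ρ (s6 i)).inv_mul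
    have e3 := ad_coe (h.spm (s6 i))
    have e4 := ad_coe (inv_mem (h.spm (s6 i)))
    rw [inv_inv] at e4
    unfold v5 at e
    generalize (((ρ (s6 i))⁻¹ : GL I4 F) : M4 F) = b at *
    generalize (ρ (s6 i) : M4 F) = a at *
    have e5 : a + b = (2⁻¹ * (t - 1)) • (1 : M4 F) := by
      rw [mul_smul, eq_inv_smul_iff₀ h2, two_smul, sub_smul, ← e, one_smul, add_sub_cancel_right]
    generalize 2⁻¹ * (t - 1) = s at e5
    refine ⟨a - b, by rw [ad_sub, e3, e4, neg_sub], ⟨s * s - 4, ?_⟩, 2⁻¹ * s, ?_⟩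
    · rw [sub_smul, mul_smul, ← ofNat_eq 4, ← e5, ← mul_one (a + b), ← mul_smul_comm, ← e5]
      linear_combination (norm := (noncomm_ring; norm_num)) -2 * e1 - 2 * e2
    · rw [mul_smul, ← e5, ← smul_add, eq_inv_smul_iff₀ h2, two_smul]; abel
  obtain ⟨y, a1, ⟨c, a2⟩, d, a3⟩ := k 0
  obtain ⟨y', b1, ⟨c', b2⟩, d', b3⟩ := k 1
  have hg : ∀ S : Subring (M4 F), KS ⊤ S → y ∈ S → y' ∈ S → ∀ g ∈ P, (g : M4 F) ∈ S :=
    fun S hS h1 h2 => h.gen
      (a3 ▸ S.add_mem (hS _ (Subfield.mem_top _) _ h1) (hS _ (Subfield.mem_top _) _ S.one_mem))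
      (b3 ▸ S.add_mem (hS _ (Subfield.mem_top _) _ h2) (hS _ (Subfield.mem_top _) _ S.one_mem))
  obtain ⟨β, hβ⟩ := h.schur (a := y * y' + y' * y) fun g hg' => hg _ (ks_cent (y * y' + y' * y))
    (by simp [Subring.mem_centralizer_iff, mul_add, add_mul, mul_assoc, a2, add_comm,
      ← mul_assoc y y])
    (by simp [Subring.mem_centralizer_iff, mul_add, add_mul, mul_assoc, b2, add_comm,
      ← mul_assoc y' y']) g hg' _ rfl
  refine three h2 a1 b1 (c := 0) (by simp [ad_zero]) ?_ fun A h0 h1 _ =>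
    top_le_iff.1 (h.top.ge.trans (galg_le (hg _ (ks_alg A) h0 h1)))
  simp only [List.mem_cons, List.not_mem_nil, or_false]
  rintro _ (rfl | rfl | rfl) _ (rfl | rfl | rfl)
  exacts [⟨c + c, by rw [a2, add_smul]⟩, ⟨β, hβ⟩, ⟨0, by simp⟩, ⟨β, by rw [add_comm, hβ]⟩,
    ⟨c' + c', by rw [b2, add_smul]⟩, ⟨0, by simp⟩, ⟨0, by simp⟩, ⟨0, by simp⟩, ⟨0, by simp⟩]

theorem memW (i : Fin 6) : v5 (ρ (s6 i)) ∈ Wsp F := v_eq (ρ := ρ) i ▸ conj_mem_W (h.spm _) h.memW0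

theorem cls {k : G5} (h5 : k ^ 5 = 1) (h1 : k ≠ 1) : ∃ j,
    ((k = s6 j ∨ k = (s6 j)⁻¹) ∧ v5 (ρ k) = v5 (ρ (s6 j))) ∨ v5 (ρ k) = -v5 (ρ (s6 j)) := by
  obtain ⟨j, (rfl | rfl) | rfl | rfl⟩ := cls5 k h5 h1
  · exact ⟨j, Or.inl ⟨Or.inl rfl, rfl⟩⟩
  · exact ⟨j, Or.inl ⟨Or.inr rfl, by rw [map_inv, v5_inv]⟩⟩
  · exact ⟨j, Or.inr (by rw [map_mul, v5_sq h.two (h.sq j)])⟩
  · exact ⟨j, Or.inr (by rw [map_inv, v5_inv, map_mul, v5_sq h.two (h.sq j)])⟩

theorem tr5 {k : G5} (h5 : k ^ 5 = 1) (h1 : k ≠ 1) : (ρ k : M4 F).trace = -1 := by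
  have h2 : v5 (ρ k) ∈ Wsp F := by
    obtain ⟨j, ⟨-, e⟩ | e⟩ := h.cls h5 h1 <;> rw [e]
    exacts [h.memW j, neg_mem (h.memW j)]
  have h3 := h2.2
  rw [trace_v5 (h.spm k)] at h3
  exact eq_neg_of_add_eq_zero_left ((mul_eq_zero.1 h3).resolve_left (four_ne h.two))

theorem anti {i j : Fin 6} (hij : i ≠ j) :
    v5 (ρ (s6 i)) * v5 (ρ (s6 j)) + v5 (ρ (s6 j)) * v5 (ρ (s6 i)) = -2 := by
  have k : ∀ i, s6 i ^ 5 = 1 ∧ s6 i ≠ 1 := by decide +kernel
  rw [W_anti h.two (h.memW i) (h.memW j), bil, trace_v5_mul (h.spm _) (h.spm _),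
    h.tr5 (k i).1 (k i).2, h.tr5 (k j).1 (k j).2, ← map_inv, ← map_mul, ← map_mul, ofNat_eq 2,
    ← neg_smul]
  obtain ⟨a, b, ⟨a1, a2, b1, b2⟩, ⟨e, e'⟩ | ⟨e, e'⟩⟩ := pair5 i j hij <;>
    rw [e, e', map_mul, map_mul, h.neg] <;>
    simp [h.tr5 a1 a2, (h.n3 b1 b2).trace h.two, four_ne h.two, neg_div]

theorem false : False := by
  have h2 := h.two
  have h3 := (h.n3 (k := a3 0) (by decide +kernel) (by decide +kernel)).three h2
  have h12 : (12 : F) ≠ 0 := by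
    rw [show (12 : F) = 3 * 4 by norm_num]; exact mul_ne_zero h3 (four_ne h2)
  have k5 : ∀ i, s6 i ^ 5 = 1 ∧ s6 i ≠ 1 := by decide +kernel
  have hs := h.sq
  have ha := fun i j => h.anti (i := i) (j := j)
  have hd := fun i => ad_v5 (h.spm (s6 i))
  have hH : ∀ k ∈ H, ∀ i, ∃ j, (k * ρ (s6 i) * k⁻¹ = ρ (s6 j) ∨ k * ρ (s6 i) * k⁻¹ = (ρ (s6 j))⁻¹) ∧
      (k : M4 F) * v5 (ρ (s6 i)) = v5 (ρ (s6 j)) * k ∨
        (k : M4 F) * v5 (ρ (s6 i)) = -(v5 (ρ (s6 j)) * k) := fun k hk i => by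
    obtain ⟨γ, hγ⟩ := h.rg.ge (h.core.normal k hk _ (h.mem (s6 i)))
    obtain ⟨j, hj⟩ := h.cls (k := γ)
      (h.inj (by rw [map_pow, hγ, conj_pow, ← map_pow, (k5 i).1]; simp))
      fun e => (k5 i).2 (h.inj (by rw [e] at hγ; simpa using hγ.symm))
    refine ⟨j, hj.imp (fun e => ⟨?_, ?_⟩) fun e => ?_⟩
    · rw [← hγ, ← map_inv]; exact e.1.imp (congrArg ρ) (congrArg ρ)
    · rw [v5_rel, ← hγ, e.2]
    · rw [v5_rel, ← hγ, e, neg_mul]
  generalize hv : (fun i => v5 (ρ (s6 i))) = v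
  have hv' : ∀ i, v5 (ρ (s6 i)) = v i := congrFun hv
  simp only [hv'] at hs ha hd hH
  have hne : ∀ i j, v i = v j ∨ v i = -v j → i = j := fun i j e => by
    by_contra hij
    have h4 := ha i j hij
    have h5 := hs j
    rcases e with e | e <;> rw [e] at h4
    · refine one_ne_zero (cancel h12 (x := (1 : M4 F)) ?_)
      linear_combination (norm := (noncomm_ring; norm_num)) h4 - 2 * h5
    · refine one_ne_zero (cancel h2 (cancel (four_ne h2) (x := 2 * (1 : M4 F)) ?_))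
      linear_combination (norm := (noncomm_ring; norm_num)) -h4 - 2 * h5
  have r1 : ∀ a b, a ≠ b → (v a - v b) * (v a - v b) = (12 : F) • 1 := fun a b hab => by
    rw [← ofNat_eq 12]
    linear_combination (norm := (noncomm_ring; norm_num)) hs a + hs b - ha a b hab
  have r2 : ∀ a b j, (v a - v b) * v j = -(v (swap a b j) * (v a - v b)) := fun a b j => by
    rw [swap_apply_def]
    split_ifs with e1 e2
    · rw [e1]; linear_combination (norm := noncomm_ring) hs a - hs b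
    · rw [e2]; linear_combination (norm := noncomm_ring) hs a - hs b
    · linear_combination (norm := noncomm_ring) ha j a e1 - ha j b e2
  have r3 : ad ((12 : F)⁻¹ • ((v 2 - v 3) * (v 2 - v 4))) *
      ((12 : F)⁻¹ • ((v 2 - v 3) * (v 2 - v 4))) = 1 := by
    rw [ad_smul, ad_mul, ad_sub, ad_sub, hd, hd, hd, smul_mul_smul_comm, mul_assoc,
      ← mul_assoc (v 2 - v 3), r1 2 3 (by decide), smul_mul_assoc, one_mul, mul_smul_comm,
      r1 2 4 (by decide), smul_smul, smul_smul]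
    field_simp
    simp
  obtain ⟨k, hk, r4⟩ : ∃ k ∈ spGL 2 F, ∀ j, (k : M4 F) * v j = v (swap 2 3 (swap 2 4 j)) * k :=
    ⟨_, mkSp_mem _ r3, fun j => by
      rw [coe_mkSp, smul_mul_assoc, mul_smul_comm, mul_assoc, r2, mul_neg, ← mul_assoc, r2,
        neg_mul, neg_neg, mul_assoc]⟩
  have hkH : k ∈ H := mem_of_lines h.toCtx (by norm_num) hne
    (fun k hk i => (hH k hk i).imp fun j hj => hj.imp_left And.right) hk
    (fun i => ⟨_, Or.inl (r4 i)⟩) (by decide) (Or.inl (r4 2))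
  have r5 : ∀ i, swap 2 3 (swap 2 4 i) = i → k * k * ρ (s6 i) = ρ (s6 i) * (k * k) := fun i hi => by
    obtain ⟨j, hj⟩ := hH k hkH i
    have e := r4 i
    rw [hi] at e
    obtain rfl : i = j := hne _ _ (Rel.uniq (Or.inl e) (hj.imp_left And.right))
    rcases hj with ⟨e1 | e1, -⟩ | e1
    · rw [mul_inv_eq_iff_eq_mul] at e1
      rw [mul_assoc, e1, ← mul_assoc, e1, mul_assoc]
    · have e2 := congrArg (·⁻¹) e1
      simp only [conj_inv, inv_inv] at e2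
      rw [mul_inv_eq_iff_eq_mul] at e1 e2
      rw [mul_assoc, e1, ← mul_assoc, e2, mul_assoc]
    · have e2 : v i = 0 := eq_zero_of_neg h2 (k.mul_left_inj.1 (by rw [← e, e1, neg_mul]))
      obtain ⟨j, hj⟩ := exists_ne i
      have e3 := ha j i hj
      rw [e2] at e3
      refine absurd (cancel h2 (x := (1 : M4 F)) ?_) one_ne_zero
      linear_combination (norm := (noncomm_ring; norm_num)) e3
  have r6 : ((k * k : GL I4 F) : M4 F) * v 2 = v 3 * (k * k : GL I4 F) := by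
    rw [Units.val_mul, mul_assoc, r4, ← mul_assoc, r4, mul_assoc]; rfl
  obtain ⟨t, ht⟩ := h.schur (a := (k * k : GL I4 F)) fun g hg =>
    h.gen (S := Subring.centralizer {((k * k : GL I4 F) : M4 F)})
      (fun _ e => e ▸ congrArg Units.val (r5 0 (by decide)))
      (fun _ e => e ▸ congrArg Units.val (r5 1 (by decide)))
      g hg _ rfl
  refine absurd (hne 2 3 (Rel.uniq (k := k * k) (Or.inl ?_) (Or.inl r6))) (by decide)
  rw [ht]; simp

end Rep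

theorem a5 : A5Stmt.{u} := by
  rintro F _ _ H P h K _ _ hK ⟨e⟩
  let f := ZMod.ringEquivOfPrime K (by norm_num) hK
  let φ : G5 →* SL(2, K) := SpecialLinearGroup.map f.toRingHom
  have h1 : Function.Bijective φ := ⟨fun a b hab => by
    ext i j
    exact f.injective (congrArg (· i j) hab), fun a =>
      ⟨SpecialLinearGroup.map f.symm.toRingHom a, by ext i j; simp [φ]⟩⟩
  refine Rep.false (ρ := P.subtype.comp (e.symm.toMonoidHom.comp φ))
    ⟨h, P.subtype_injective.comp (e.symm.injective.comp h1.1), ?_⟩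
  rw [MonoidHom.range_comp, MonoidHom.range_eq_top.2 (e.symm.surjective.comp h1.2),
    ← MonoidHom.range_eq_map, Subgroup.range_subtype]

end Cfsg.Agent.H28.SA
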