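import Mathlib

/-! Frames of swapping transvections in characteristic two: the abstract calculus. -/

set_option autoImplicit false

namespace Cfsg.Agent.H28.TMon

open Matrix

variable {F : Type*} [Field F] {n : ℕ}

/-- the calculus of transvections with root groups of order two -/
structure TS (T : (Fin n → F) → (Fin n → F) → Prop) : Prop where
  two : (2 : F) = 0
  dot : ∀ {v φ}, T v φ → φ ⬝ᵥ v = 0
  addl : ∀ {u v φ}, T u φ → T v φ → T (u + v) φ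
  addr : ∀ {u φ ψ}, T u φ → T u ψ → T u (φ + ψ)
  smul : ∀ {u φ} (c : F), T (c • u) φ ↔ T u (c • φ)
  conj : ∀ {u φ v ψ}, T u φ → T v ψ → T (u + (ψ ⬝ᵥ u) • v) (φ + (φ ⬝ᵥ v) • ψ)
  small : ∀ {v φ} {a : F}, v ≠ 0 → φ ≠ 0 → T v φ → T (a • v) φ → a = 0 ∨ a = 1

/-- a vector with a covector -/
abbrev Pt (F : Type*) (n : ℕ) : Type _ := (Fin n → F) × (Fin n → F)

/-- a swap -/
def Sw (T : (Fin n → F) → (Fin n → F) → Prop) (p q : Pt F n) (z : F) : Prop :=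
  T (p.1 + z • q.1) (p.2 + z⁻¹ • q.2)

/-- a dual pair -/
structure Du (p q : Pt F n) : Prop where
  pp : p.2 ⬝ᵥ p.1 = 1
  qq : q.2 ⬝ᵥ q.1 = 1
  pq : p.2 ⬝ᵥ q.1 = 0
  qp : q.2 ⬝ᵥ p.1 = 0

theorem Du.symm {p q : Pt F n} (h : Du p q) : Du q p := ⟨h.qq, h.pp, h.qp, h.pq⟩

/-- a frame -/
structure Fr (T : (Fin n → F) → (Fin n → F) → Prop) (d : F) (S : Set (Pt F n)) : Prop where
  du : ∀ p ∈ S, ∀ q ∈ S, p ≠ q → Du p q
  sw : ∀ p ∈ S, ∀ q ∈ S, p ≠ q → ∀ k : ℤ, Sw T p q (d ^ k)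

theorem cubic {a b c e z0 z1 z2 z3 : F} (h0 : a * z0 ^ 3 + b * z0 ^ 2 + c * z0 + e = 0)
    (h1 : a * z1 ^ 3 + b * z1 ^ 2 + c * z1 + e = 0) (h2 : a * z2 ^ 3 + b * z2 ^ 2 + c * z2 + e = 0)
    (h3 : a * z3 ^ 3 + b * z3 ^ 2 + c * z3 + e = 0) (n01 : z0 ≠ z1) (n02 : z0 ≠ z2) (n03 : z0 ≠ z3)
    (n12 : z1 ≠ z2) (n13 : z1 ≠ z3) (n23 : z2 ≠ z3) : a = 0 := by
  have k : ∀ z, z0 ≠ z → a * z ^ 3 + b * z ^ 2 + c * z + e = 0 →
      a * (z0 ^ 2 + z0 * z + z ^ 2) + b * (z0 + z) + c = 0 := fun z n h =>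
    mul_left_cancel₀ (sub_ne_zero.2 n) (by linear_combination h0 - h)
  have k1 := k z1 n01 h1
  have l : ∀ z, z1 ≠ z → a * (z0 ^ 2 + z0 * z + z ^ 2) + b * (z0 + z) + c = 0 →
      a * (z0 + z1 + z) + b = 0 := fun z n h =>
    mul_left_cancel₀ (sub_ne_zero.2 n) (by linear_combination k1 - h)
  exact mul_left_cancel₀ (sub_ne_zero.2 n23) (by
    linear_combination l z2 n12 (k z2 n02 h2) - l z3 n13 (k z3 n03 h3))

theorem sc_a {v1 v2 v3 f1 f2 f3 z y : F} (t : (2 : F) = 0) (zy : z * y = 1) (e1 : v1 * f1 = v2 * f2)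
    (e2 : v1 * f1 = v3 * f3) (n : v1 * f1 ≠ 0)
    (h : (1 + (f1 + z * f2) * v1) * (1 + (v1 + y * v2) * f1) =
        (f1 + z * f2) * v3 * ((v1 + y * v2) * f3) ∨
      (1 + (f1 + z * f2) * v1) * (1 + (v1 + y * v2) * f1) = 1 ∧ (f1 + z * f2) * v3 = 0 ∧
        (v1 + y * v2) * f3 = 0 ∨
      (f1 + z * f2) * v3 * ((v1 + y * v2) * f3) = 1 ∧ 1 + (f1 + z * f2) * v1 = 0 ∧
        1 + (v1 + y * v2) * f1 = 0) :
    f2 * v1 * f2 * z ^ 3 + (f2 * v1 * f1 + f2) * z ^ 2 + (f1 * v2 * f2 + f1) * z + f1 * v2 * f1 = 0 := by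
  rcases h with h | ⟨-, h, -⟩ | ⟨h1, h2, h3⟩
  · have k : 1 + (f1 + z * f2) * v1 + (v1 + y * v2) * f1 = 0 := by
      linear_combination h - (f1 + z * f2) * (v1 + y * v2) * e2
    have k' : f2 * v1 * z ^ 2 + z + f1 * v2 = 0 := by
      linear_combination z * k - v2 * f1 * zy - z * v1 * f1 * t
    linear_combination (f1 + z * f2) * k'
  · have k : f1 + z * f2 = 0 := (mul_eq_zero.1 h).resolve_right fun e => n (by rw [e2, e, zero_mul])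
    linear_combination (f2 * v1 * z ^ 2 + z + f1 * v2) * k
  · exfalso
    have k : (f1 + z * f2) * (v1 + y * v2) = 0 := by
      linear_combination h2 + h3 + v2 * f2 * zy - e1 - t
    exact one_ne_zero (by linear_combination v3 * f3 * k - h1)

theorem sc_d {d : F} (t : (2 : F) = 0) (d0 : d ≠ 0) (d1 : d ≠ 1) (d3 : d * d + d + 1 ≠ 0) :
    d ^ (0 : ℤ) ≠ d ^ (1 : ℤ) ∧ d ^ (0 : ℤ) ≠ d ^ (2 : ℤ) ∧ d ^ (0 : ℤ) ≠ d ^ (3 : ℤ) ∧
    d ^ (1 : ℤ) ≠ d ^ (2 : ℤ) ∧ d ^ (1 : ℤ) ≠ d ^ (3 : ℤ) ∧ d ^ (2 : ℤ) ≠ d ^ (3 : ℤ) := by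
  simp only [zpow_ofNat]
  refine ⟨?_, ?_, ?_, ?_, ?_, ?_⟩ <;> grind

theorem sc_b {a a' b b' c c' : Prop} (e1 : a ∨ a') (e2 : b ∨ b') (e3 : c ∨ c') (k1 : a' → b' → a)
    (k2 : a' → c' → a) (k3 : b' → c' → b) (k4 : a → b → a') (k5 : a → c → a') (k6 : b → c → b') :
    a ∧ a' := by
  rcases e1 with e1 | e1 <;> rcases e2 with e2 | e2 <;> rcases e3 with e3 | e3 <;> simp_all

namespace TS

variable {T : (Fin n → F) → (Fin n → F) → Prop} (h : TS T)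
include h

theorem flip : TS fun v φ => T φ v where
  two := h.two
  dot h1 := by rw [dotProduct_comm]; exact h.dot h1
  addl := h.addr
  addr := h.addl
  smul c := (h.smul c).symm
  conj {u φ v ψ} h1 h2 := by
    have := h.conj h1 h2
    rwa [dotProduct_comm v, dotProduct_comm u] at this
  small hv hφ h1 h2 := h.small hφ hv h1 ((h.smul _).2 h2)

theorem comml {u φ v ψ : Fin n → F} (h1 : T u φ) (h2 : T v ψ) (e : φ ⬝ᵥ v = 0) :
    T ((ψ ⬝ᵥ u) • v) φ := by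
  have := h.conj h1 h2
  rw [e, zero_smul, add_zero] at this
  convert h.addl h1 this using 1
  have := h.two
  ext i; simp only [Pi.add_apply, Pi.smul_apply, smul_eq_mul]; grind

theorem sw_symm {p q : Pt F n} {z : F} (hz : z ≠ 0) (h1 : Sw T p q z) : Sw T q p z⁻¹ := by
  unfold Sw at *
  have : T (z • (q.1 + z⁻¹ • p.1)) (p.2 + z⁻¹ • q.2) := by
    convert h1 using 1
    ext i; simp only [Pi.add_apply, Pi.smul_apply, smul_eq_mul]; grind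
  convert (h.smul z).1 this using 1
  ext i; simp only [Pi.add_apply, Pi.smul_apply, smul_eq_mul]; grind

theorem sw_trans {p q r : Pt F n} {z z' : F} (a : Du p q) (b : Du q r) (c : Du p r)
    (h1 : Sw T p q z) (h2 : Sw T q r z') : Sw T p r (z * z') := by
  unfold Sw at *
  have := h.conj h1 h2
  simp only [add_dotProduct, dotProduct_add, smul_dotProduct, dotProduct_smul, a.pq, a.qp, a.qq,
    b.pq, b.qp, c.pq, c.qp, smul_eq_mul] at this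
  have t := h.two
  convert this using 1 <;> ext i <;> simp only [Pi.add_apply, Pi.smul_apply, smul_eq_mul, mul_inv] <;>
    grind

theorem sw_zpow {p q r : Pt F n} {d : F} (hd : d ≠ 0) (a : Du p q) (b : Du q r) (c : Du p r)
    (h1 : Sw T p q 1) (h2 : Sw T p q d) (h3 : Sw T p r 1) (k : ℤ) : Sw T p q (d ^ k) := by
  have s : ∀ {p q}, Sw T p q 1 → Sw T q p 1 := fun h1 => by simpa using h.sw_symm one_ne_zero h1
  have qr : Sw T q r 1 := by simpa using h.sw_trans a.symm c b (s h1) h3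
  have m : ∀ z z', Sw T p q z → Sw T p q z' → Sw T p q (z * z') := fun z z' k1 k2 => by
    simpa using h.sw_trans c b.symm a (h.sw_trans a b c k1 qr) (h.sw_trans c.symm a b.symm (s h3) k2)
  have i : Sw T p q d⁻¹ := by
    simpa using h.sw_trans c b.symm a (h.sw_trans a b c h1 (h.sw_trans a.symm c b (h.sw_symm hd h2)
      h3)) (s qr)
  induction k using Int.induction_on with
  | zero => simpa using h1
  | succ k ih => rw [zpow_add_one₀ hd]; exact m _ _ ih h2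
  | pred k ih => rw [zpow_sub_one₀ hd]; exact m _ _ ih i

theorem fr_insert {d : F} (hd : d ≠ 0) {S : Set (Pt F n)} (hS : Fr T d S) {p q r : Pt F n}
    (hp : p ∈ S) (hq : q ∈ S) (hpq : p ≠ q) (hr : ∀ s ∈ S, Du s r) (h1 : Sw T p r 1) :
    Fr T d (insert r S) := by
  have k1 : ∀ s ∈ S, s ≠ p → ∀ k : ℤ, Sw T s r (d ^ k) := fun s hs n k => by
    simpa using h.sw_trans (hS.du s hs p hp n) (hr p hp) (hr s hs) (hS.sw s hs p hp n k) h1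
  have k2 : ∀ s ∈ S, ∀ k : ℤ, Sw T s r (d ^ k) := fun s hs k => by
    by_cases n : s = p
    · subst n
      simpa using h.sw_trans (hS.du s hs q hq hpq) (hr q hq) (hr s hs) (hS.sw s hs q hq hpq k)
        (k1 q hq hpq.symm 0)
    · exact k1 s hs n k
  constructor
  · rintro a (rfl | ha) b (rfl | hb) n
    exacts [absurd rfl n, (hr b hb).symm, hr a ha, hS.du a ha b hb n]
  · rintro a (rfl | ha) b (rfl | hb) n k
    · exact absurd rfl n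
    · simpa using h.sw_symm (zpow_ne_zero _ hd) (k2 b hb (-k))
    · exact k2 a ha k
    · exact hS.sw a ha b hb n k

theorem fr_pair {p q : Pt F n} {d : F} (hd : d ≠ 0) (a : Du p q) (h1 : ∀ k : ℤ, Sw T p q (d ^ k)) :
    Fr T d {p, q} := by
  constructor
  · rintro a (rfl | rfl) b (rfl | rfl) n
    exacts [absurd rfl n, by assumption, Du.symm (by assumption), absurd rfl n]
  · rintro a (rfl | rfl) b (rfl | rfl) n k
    · exact absurd rfl n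
    · exact h1 k
    · simpa using h.sw_symm (zpow_ne_zero _ hd) (h1 (-k))
    · exact absurd rfl n

variable {d : F} (d0 : d ≠ 0) (d1 : d ≠ 1) (d3 : d * d + d + 1 ≠ 0)
include d0 d1 d3

theorem b1 {p q : Pt F n} (a : Du p q) (h1 : ∀ k : ℤ, Sw T p q (d ^ k)) {v φ : Fin n → F}
    (hv : T v φ) (φ0 : φ ≠ 0) (e1 : φ ⬝ᵥ p.1 = 0) (e2 : φ ⬝ᵥ q.1 = 0) : p.2 ⬝ᵥ v = 0 := by
  have t := h.two
  have u0 : p.1 + q.1 ≠ 0 := fun e => by
    have := congrArg (p.2 ⬝ᵥ ·) e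
    simp [a.pp, a.pq] at this
  have s1 : T (p.1 + q.1) (p.2 + q.2) := by simpa [Sw] using h1 0
  have k : ∀ k : ℤ, T ((d ^ k * (p.2 ⬝ᵥ v) + (d ^ k)⁻¹ * (q.2 ⬝ᵥ v)) • (p.1 + q.1)) φ := fun k => by
    have z0 := zpow_ne_zero k d0
    have k1 := h.comml (h.addl hv (h.comml hv (h1 k) (by simp [e1, e2]))) s1 (by simp [e1, e2])
    convert k1 using 2
    simp only [add_dotProduct, dotProduct_add, smul_dotProduct, dotProduct_smul, a.pp, a.pq, a.qp,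
      a.qq, smul_eq_mul]
    grind
  have l : ∀ k : ℤ, d ^ k * (p.2 ⬝ᵥ v) + (d ^ k)⁻¹ * (q.2 ⬝ᵥ v) = 0 := fun j => by
    by_contra n
    have := h.small (a := d + d⁻¹) (smul_ne_zero n u0) φ0 (k j) (by
      convert h.addl (k (j + 1)) (k (j - 1)) using 1
      rw [zpow_add_one₀ d0, zpow_sub_one₀ d0]
      ext i; simp only [Pi.add_apply, Pi.smul_apply, smul_eq_mul, mul_inv, inv_inv]; ring)
    grind
  have l0 := l 0
  have l1 := l 1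
  simp only [zpow_zero, zpow_one] at l0 l1
  grind

theorem b2 {p q : Pt F n} (a : Du p q) (h1 : ∀ k : ℤ, Sw T p q (d ^ k)) {v φ : Fin n → F}
    (hv : T v φ) (v0 : v ≠ 0) (e1 : p.2 ⬝ᵥ v = 0) (e2 : q.2 ⬝ᵥ v = 0) : φ ⬝ᵥ p.1 = 0 := by
  rw [dotProduct_comm] at e1 e2 ⊢
  exact h.flip.b1 d0 d1 d3 (p := p.swap) (q := q.swap) ⟨(dotProduct_comm _ _).trans a.pp,
    (dotProduct_comm _ _).trans a.qq, (dotProduct_comm _ _).trans a.qp,
    (dotProduct_comm _ _).trans a.pq⟩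
    (fun k => by simpa [Sw] using h1 (-k)) hv v0 e1 e2

variable (hM : ∀ p q : Pt F n, Du p q → Sw T p q 1 → Sw T p q d → ∀ v φ, T v φ →
    (p.2 ⬝ᵥ v) * (φ ⬝ᵥ p.1) = (q.2 ⬝ᵥ v) * (φ ⬝ᵥ q.1) ∨
    (p.2 ⬝ᵥ v) * (φ ⬝ᵥ p.1) = 1 ∧ q.2 ⬝ᵥ v = 0 ∧ φ ⬝ᵥ q.1 = 0 ∨
    (q.2 ⬝ᵥ v) * (φ ⬝ᵥ q.1) = 1 ∧ p.2 ⬝ᵥ v = 0 ∧ φ ⬝ᵥ p.1 = 0)
  {S : Set (Pt F n)} (hS : Fr T d S) {p q s : Pt F n} (hp : p ∈ S) (hq : q ∈ S) (hs : s ∈ S)
  (pq : p ≠ q) (ps : p ≠ s) (qs : q ≠ s) {v φ : Fin n → F} (hv : T v φ)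
include hM hS hp hq hs pq ps qs hv

theorem a0 (e1 : (p.2 ⬝ᵥ v) * (φ ⬝ᵥ p.1) = (q.2 ⬝ᵥ v) * (φ ⬝ᵥ q.1))
    (e2 : (p.2 ⬝ᵥ v) * (φ ⬝ᵥ p.1) = (s.2 ⬝ᵥ v) * (φ ⬝ᵥ s.1)) : (p.2 ⬝ᵥ v) * (φ ⬝ᵥ p.1) = 0 := by
  by_contra n
  have t := h.two
  have a := hS.du p hp q hq pq
  have b := hS.du q hq s hs qs
  have c := hS.du p hp s hs ps
  have k : ∀ k : ℤ, (φ ⬝ᵥ q.1) * (p.2 ⬝ᵥ v) * (φ ⬝ᵥ q.1) * (d ^ k) ^ 3 +
      ((φ ⬝ᵥ q.1) * (p.2 ⬝ᵥ v) * (φ ⬝ᵥ p.1) + φ ⬝ᵥ q.1) * (d ^ k) ^ 2 +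
      ((φ ⬝ᵥ p.1) * (q.2 ⬝ᵥ v) * (φ ⬝ᵥ q.1) + φ ⬝ᵥ p.1) * d ^ k +
      (φ ⬝ᵥ p.1) * (q.2 ⬝ᵥ v) * (φ ⬝ᵥ p.1) = 0 := fun k => by
    have z0 := zpow_ne_zero k d0
    have := hM p s c (by simpa using hS.sw p hp s hs ps 0) (by simpa using hS.sw p hp s hs ps 1) _ _
      (h.conj (hS.sw p hp q hq pq k) hv)
    simp only [add_dotProduct, dotProduct_add, smul_dotProduct, dotProduct_smul, a.pp, a.pq, a.qp,
      b.pq, b.qp, c.pq, c.qp, smul_eq_mul] at this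
    exact sc_a t (mul_inv_cancel₀ z0) e1 e2 n (by simpa only [mul_zero, add_zero, zero_add] using this)
  obtain ⟨n1, n2, n3, n4, n5, n6⟩ := sc_d t d0 d1 d3
  have := cubic (k 0) (k 1) (k 2) (k 3) n1 n2 n3 n4 n5 n6
  simp only [mul_eq_zero, or_self_right] at this
  rcases this with (e | e) | e
  · exact n (by rw [e1, e, mul_zero])
  · exact n (by rw [e, zero_mul])
  · exact n (by rw [e1, e, mul_zero])

theorem cls (v0 : v ≠ 0) (φ0 : φ ≠ 0) :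
    (p.2 ⬝ᵥ v = 0 ∧ φ ⬝ᵥ p.1 = 0) ∨ (p.2 ⬝ᵥ v) * (φ ⬝ᵥ p.1) = 1 := by
  have M := fun p hp q hq n => hM p q (hS.du p hp q hq n) (by simpa using hS.sw p hp q hq n 0)
    (by simpa using hS.sw p hp q hq n 1) v φ hv
  have B1 := fun p hp q hq n => h.b1 d0 d1 d3 (hS.du p hp q hq n) (hS.sw p hp q hq n) hv φ0
  have B2 := fun p hp q hq n => h.b2 d0 d1 d3 (hS.du p hp q hq n) (hS.sw p hp q hq n) hv v0
  rcases M p hp q hq pq with e1 | e1 | e1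
  · rcases M p hp s hs ps with e2 | e2 | e2
    · have e := h.a0 d0 d1 d3 hM hS hp hq hs pq ps qs hv e1 e2
      have k1 := B1 p hp q hq pq
      have k2 := B1 p hp s hs ps
      have k3 := B1 q hq s hs qs
      have k4 := B2 p hp q hq pq
      have k5 := B2 p hp s hs ps
      have k6 := B2 q hq s hs qs
      exact Or.inl (sc_b (mul_eq_zero.1 e) (mul_eq_zero.1 (e1.symm.trans e))
        (mul_eq_zero.1 (e2.symm.trans e)) k1 k2 k3 k4 k5 k6)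
    · exact Or.inr e2.1
    · exact Or.inl e2.2
  · exact Or.inr e1.1
  · exact Or.inl e1.2

end TS

end Cfsg.Agent.H28.TMon
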