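import Mathlib
import Cfsg.Agent.H74.UVDefs

/-! Project UV, piece POLY: no class `z P ∖ z` is invariant under the translations. -/

set_option autoImplicit false

namespace Cfsg.Agent.H28.UvPoly

open Cfsg Cfsg.Agent.H74.UV

universe u

theorem poly (hT : TenStmt.{u}) : PolyStmt.{u} := by
  intro E K _ _ _ _ _ σ B q t k h3 z hz hc
  obtain ⟨τ, hτ, -, hτc⟩ := k.bar
  have mem : ∀ (m : ℕ) (s : Kˣ), s ∈ Rt K m ↔ s ^ m = 1 := fun m s => Iff.rfl
  have key := hT E K σ B q 1 t k h3 (fun s => s ^ t = z ^ t)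
    (fun s _ s' _ h h' => by rw [one_mul] at h; exact h ▸ h') ?_
  · have : Nontrivial (Rt K (q + 1)) :=
      Finite.one_lt_card_iff_nontrivial.1 (by rw [k.cardZ]; omega)
    obtain ⟨z', hz'⟩ := exists_ne (1 : Rt K (q + 1))
    have h := key z (k.ZT hz) (z * z') (k.ZT (mul_mem hz z'.2)) rfl
    rw [mul_pow, mul_eq_left] at h
    exact hz' (Subtype.ext (k.ZP _ z'.2 ((mem _ _).2 h)))
  · intro s hs s' hs' hsZ hsZ' c hk h
    have s1 : s ≠ 1 := fun e => hsZ (e ▸ one_mem _)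
    have s1' : s' ≠ 1 := fun e => hsZ' (e ▸ one_mem _)
    have e1 := k.kapT s hs s1
    have e2 := k.kapT s' hs' s1'
    rw [← hτ] at e1 e2
    rw [hk, map_add, hτc] at e2
    have sk : c + σ c = 0 := (algebraMap E K).injective (by
      rw [map_add, map_zero]; linear_combination e2 - e1)
    obtain ⟨p', hp', p1, hk'⟩ := hc c sk (z⁻¹ * s)
      ((mem _ _).2 (by rw [mul_pow, inv_pow, h, inv_mul_cancel]))
      (fun e => hsZ (inv_mul_eq_one.1 e ▸ hz))
    rw [mul_inv_cancel_left, ← hk] at hk'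
    have zp : z * p' ≠ 1 := fun e =>
      p1 (k.ZP _ (by rw [eq_inv_of_mul_eq_one_right e]; exact inv_mem hz) hp')
    rw [← k.kapI _ _ zp s1' hk', mul_pow, (mem _ _).1 hp', mul_one]

end Cfsg.Agent.H28.UvPoly
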